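import Mathlib
import Cfsg.Agent.H52.SnDefs

/-!
# S2942, piece SN-GLA (for helper52)

In a group generated by independent normal copies of `SL(2,2)`, the elements of odd order
commute: they lie in the abelian subgroup generated by the squares of the elements of the
factors.
-/

set_option autoImplicit false

namespace Cfsg.Agent.H89.Sn

open Cfsg.Agent.H52.Sn

universe u

theorem sl22_sq_comm : ∀ A B : Matrix.SpecialLinearGroup (Fin 2) (ZMod 2),
    (A * A) * (B * B) = (B * B) * (A * A) := by decide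

/-- piece SN-GLA -/
theorem gla : StGLA.{u} := by
  intro X _ _ ι E H hN hiso hind hsup x hx y hy hxo hyo
  have hEH : ∀ i, E i ≤ H := fun i => hsup ▸ le_iSup E i
  have hconj : ∀ i, ∀ h ∈ H, ∀ e ∈ E i, h * e * h⁻¹ ∈ E i := by
    intro i h hh e he
    exact (Subgroup.mem_normalizer_iff.mp (hN i hh) e).mp he
  -- different factors commute
  have hcomm : ∀ i j, i ≠ j → ∀ a ∈ E i, ∀ b ∈ E j, a * b = b * a := by
    intro i j hij a ha b hb
    have hd : Disjoint (E i) (E j) := hind.pairwiseDisjoint hij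
    have h1 : a * b * a⁻¹ * b⁻¹ ∈ E i := by
      have h0 := hconj i b (hEH j hb) a⁻¹ ((E i).inv_mem ha)
      have e : a * b * a⁻¹ * b⁻¹ = a * (b * a⁻¹ * b⁻¹) := by group
      rw [e]
      exact (E i).mul_mem ha h0
    have h2 : a * b * a⁻¹ * b⁻¹ ∈ E j := by
      have h0 := hconj j a (hEH i ha) b hb
      exact (E j).mul_mem h0 ((E j).inv_mem hb)
    have h3 := Subgroup.disjoint_def.mp hd h1 h2
    have e : a * b = (a * b * a⁻¹ * b⁻¹) * (b * a) := by group
    rw [e, h3, one_mul]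
  -- the subgroup generated by the squares
  obtain ⟨gens, hgens⟩ : ∃ gens : Set X, gens = {s : X | ∃ i, ∃ e ∈ E i, s = e * e} := ⟨_, rfl⟩
  obtain ⟨S, hSdef⟩ : ∃ S : Subgroup X, S = Subgroup.closure gens := ⟨_, rfl⟩
  have hsq : ∀ i, ∀ e ∈ E i, e * e ∈ S := by
    intro i e he
    rw [hSdef]
    apply Subgroup.subset_closure
    rw [hgens]
    exact ⟨i, e, he, rfl⟩
  -- it is normalized by `H`
  have hSn : ∀ h ∈ H, ∀ s ∈ S, h * s * h⁻¹ ∈ S := by
    intro h hh s hs
    rw [hSdef] at hs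
    induction hs using Subgroup.closure_induction with
    | mem s hs =>
      rw [hgens] at hs
      obtain ⟨i, e, he, rfl⟩ := hs
      have e1 : h * (e * e) * h⁻¹ = (h * e * h⁻¹) * (h * e * h⁻¹) := by group
      rw [e1]
      exact hsq i _ (hconj i h hh e he)
    | one =>
      have e1 : h * 1 * h⁻¹ = 1 := by group
      rw [e1]
      exact S.one_mem
    | mul a b _ _ ha hb =>
      have e1 : h * (a * b) * h⁻¹ = (h * a * h⁻¹) * (h * b * h⁻¹) := by group
      rw [e1]
      exact S.mul_mem ha hb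
    | inv a _ ha =>
      have e1 : h * a⁻¹ * h⁻¹ = (h * a * h⁻¹)⁻¹ := by group
      rw [e1]
      exact S.inv_mem ha
  -- it is abelian
  have hgen : ∀ s ∈ gens, ∀ s' ∈ gens, s * s' = s' * s := by
    intro s hs s' hs'
    rw [hgens] at hs hs'
    obtain ⟨i, e, he, rfl⟩ := hs
    obtain ⟨j, e', he', rfl⟩ := hs'
    by_cases hij : i = j
    · subst hij
      obtain ⟨φ⟩ := hiso i
      have h1 := sl22_sq_comm (φ ⟨e, he⟩) (φ ⟨e', he'⟩)
      have h2 : φ ((⟨e, he⟩ * ⟨e, he⟩) * (⟨e', he'⟩ * ⟨e', he'⟩))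
          = φ ((⟨e', he'⟩ * ⟨e', he'⟩) * (⟨e, he⟩ * ⟨e, he⟩)) := by
        rw [map_mul, map_mul, map_mul, map_mul, map_mul, map_mul]
        exact h1
      exact congrArg Subtype.val (φ.injective h2)
    · have hc := hcomm i j hij e he e' he'
      calc e * e * (e' * e') = e * (e * e') * e' := by group
        _ = e * (e' * e) * e' := by rw [hc]
        _ = (e * e') * (e * e') := by group
        _ = (e' * e) * (e' * e) := by rw [hc]
        _ = e' * (e * e') * e := by group
        _ = e' * (e' * e) * e := by rw [hc]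
        _ = e' * e' * (e * e) := by group
  have hcent1 : ∀ g ∈ gens, S ≤ Subgroup.centralizer ({g} : Set X) := by
    intro g hg
    rw [hSdef, Subgroup.closure_le]
    intro s hs
    rw [SetLike.mem_coe, Subgroup.mem_centralizer_iff]
    intro k hk
    rw [Set.mem_singleton_iff] at hk
    rw [hk]
    exact hgen g hg s hs
  have hSab : ∀ s ∈ S, ∀ s' ∈ S, s * s' = s' * s := by
    intro s hs s' hs'
    have h1 : S ≤ Subgroup.centralizer ({s} : Set X) := by
      rw [hSdef, Subgroup.closure_le]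
      intro g hg
      have h2 := hcent1 g hg hs
      rw [Subgroup.mem_centralizer_iff] at h2
      rw [SetLike.mem_coe, Subgroup.mem_centralizer_iff]
      intro k hk
      rw [Set.mem_singleton_iff] at hk
      rw [hk]
      exact (h2 g rfl).symm
    have h3 := h1 hs'
    rw [Subgroup.mem_centralizer_iff] at h3
    exact h3 s rfl
  -- the elements of the factors are central modulo `S`
  have hD : ∀ i, ∀ e ∈ E i, ∀ g ∈ H, g * e * g⁻¹ * e⁻¹ ∈ S := by
    intro i e he g hg
    have key : g ∈ H ∧ g * e * g⁻¹ * e⁻¹ ∈ S := by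
      rw [← hsup] at hg
      refine Subgroup.iSup_induction E (C := fun g => g ∈ H ∧ g * e * g⁻¹ * e⁻¹ ∈ S) hg ?_ ?_ ?_
      · intro j g hg
        refine ⟨hEH j hg, ?_⟩
        by_cases hij : j = i
        · subst hij
          have e1 : g * e * g⁻¹ * e⁻¹
              = (g * e) * (g * e) * (e⁻¹ * (g⁻¹ * g⁻¹) * e⁻¹⁻¹) * (e⁻¹ * e⁻¹) := by group
          rw [e1]
          refine S.mul_mem (S.mul_mem (hsq j _ ((E j).mul_mem hg he)) ?_)
            (hsq j _ ((E j).inv_mem he))
          exact hSn e⁻¹ (H.inv_mem (hEH j he)) _ (hsq j _ ((E j).inv_mem hg))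
        · have hc := hcomm j i hij g hg e he
          have e1 : g * e * g⁻¹ * e⁻¹ = 1 := by
            rw [hc]
            group
          rw [e1]
          exact S.one_mem
      · refine ⟨H.one_mem, ?_⟩
        have e1 : (1 : X) * e * 1⁻¹ * e⁻¹ = 1 := by group
        rw [e1]
        exact S.one_mem
      · rintro g1 g2 ⟨hg1, h1⟩ ⟨hg2, h2⟩
        refine ⟨H.mul_mem hg1 hg2, ?_⟩
        have e1 : g1 * g2 * e * (g1 * g2)⁻¹ * e⁻¹
            = (g1 * (g2 * e * g2⁻¹ * e⁻¹) * g1⁻¹) * (g1 * e * g1⁻¹ * e⁻¹) := by group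
        rw [e1]
        exact S.mul_mem (hSn g1 hg1 _ h2) h1
    exact key.2
  -- every square lies in `S`
  have hC : ∀ h ∈ H, h * h ∈ S := by
    intro h hh
    have key : h ∈ H ∧ h * h ∈ S ∧ ∀ g ∈ H, g * h * g⁻¹ * h⁻¹ ∈ S := by
      rw [← hsup] at hh
      refine Subgroup.iSup_induction E
        (C := fun h => h ∈ H ∧ h * h ∈ S ∧ ∀ g ∈ H, g * h * g⁻¹ * h⁻¹ ∈ S) hh ?_ ?_ ?_
      · intro i h hh
        exact ⟨hEH i hh, hsq i h hh, fun g hg => hD i h hh g hg⟩
      · refine ⟨H.one_mem, ?_, ?_⟩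
        · rw [one_mul]
          exact S.one_mem
        · intro g _
          have e1 : g * 1 * g⁻¹ * (1 : X)⁻¹ = 1 := by group
          rw [e1]
          exact S.one_mem
      · rintro h1 h2 ⟨hh1, hs1, hc1⟩ ⟨hh2, hs2, hc2⟩
        refine ⟨H.mul_mem hh1 hh2, ?_, ?_⟩
        · have e1 : h1 * h2 * (h1 * h2)
              = (h1 * (h2 * h1 * h2⁻¹ * h1⁻¹) * h1⁻¹) * (h1 * h1) * (h2 * h2) := by group
          rw [e1]
          exact S.mul_mem (S.mul_mem (hSn h1 hh1 _ (hc1 h2 hh2)) hs1) hs2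
        · intro g hg
          have e1 : g * (h1 * h2) * g⁻¹ * (h1 * h2)⁻¹
              = (g * h1 * g⁻¹ * h1⁻¹) * (h1 * (g * h2 * g⁻¹ * h2⁻¹) * h1⁻¹) := by group
          rw [e1]
          exact S.mul_mem (hc1 g hg) (hSn h1 hh1 _ (hc2 g hg))
    exact key.2.1
  -- elements of odd order are powers of their squares
  have hodd : ∀ z ∈ H, Odd (orderOf z) → z ∈ S := by
    intro z hz ho
    obtain ⟨m, hm⟩ := ho
    have e1 : z = (z * z) ^ (m + 1) := by
      rw [← pow_two, ← pow_mul]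
      have e2 : 2 * (m + 1) = orderOf z + 1 := by omega
      rw [e2, pow_succ, pow_orderOf_eq_one, one_mul]
    rw [e1]
    exact S.pow_mem (hC z hz) _
  exact hSab x (hodd x hx hxo) y (hodd y hy hyo)

example : Cfsg.Agent.H52.Sn.StGLA.{u} := gla

end Cfsg.Agent.H89.Sn
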