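import Mathlib
import Cfsg.Agent.H58.BG10Defs2
import Cfsg.Agent.H58.BG96
import Cfsg.Agent.H66.PLength
import Cfsg.Agent.H1.Hall
import Cfsg.Agent.S1450
import Cfsg.Agent.S1444

set_option autoImplicit false

/-!
# Bender–Glauberman 10.7 (a): proper subgroups have `p`-length at most one (helper89)

Piece H of the team project BG10 (helper58): `bg107a`.
-/

namespace Cfsg.Agent.H89.BG10

open Cfsg Subgroup Cfsg.Agent.H58.BG10
open scoped commutatorElement

universe u

section General

variable {M : Type*} [Group M]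

/-- If `|G : O_{p',p}(G)|` is prime to `p` then `G` has `p`-length at most one. -/
theorem plen_one_of_index [Finite M] (p : ℕ) [Fact p.Prime]
    (h : ((pPrimePCore p M).index).Coprime p) : PLengthLE p 1 M := by
  rw [Cfsg.Agent.H66.pLengthLE_iff_plenRel]
  refine ⟨pPrimeCore p M, pPrimePCore p M, inferInstance, inferInstance, bot_le, ?_, ?_, ?_,
    ?_, inferInstance, le_top, ?_⟩
  · rw [Subgroup.relIndex_bot_left]
    exact Cfsg.Agent.H60.card_pPrimeCore_coprime p
  · intro a ha
    show a ∈ (pCore p (M ⧸ pPrimeCore p M)).comap (QuotientGroup.mk' (pPrimeCore p M))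
    rw [Subgroup.mem_comap]
    have h1 : QuotientGroup.mk' (pPrimeCore p M) a = 1 := (QuotientGroup.eq_one_iff a).mpr ha
    rw [h1]
    exact one_mem _
  · show ∃ n, (pPrimeCore p M).relIndex
        ((pCore p (M ⧸ pPrimeCore p M)).comap (QuotientGroup.mk' (pPrimeCore p M))) = p ^ n
    rw [Cfsg.Agent.H66.relIndex_comap_mk']
    exact IsPGroup.iff_card.mp (Cfsg.Agent.H60.isPGroup_pCore p)
  · show ((pCore p (M ⧸ pPrimeCore p M)).comap (QuotientGroup.mk' (pPrimeCore p M))).Normal
    exact Subgroup.Normal.comap inferInstance _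
  · rw [Subgroup.relIndex_top_right]
    exact h

/-- `[K, R]` is normal in `KR` (here `KR` is the whole group). -/
theorem commutator_normal_of_prod (K R : Subgroup M) [hKn : K.Normal]
    (hprod : ∀ m : M, ∃ k ∈ K, ∃ r ∈ R, m = k * r) : (⁅K, R⁆ : Subgroup M).Normal := by
  have hK : ∀ g ∈ K, ∀ d ∈ ⁅K, R⁆, g * d * g⁻¹ ∈ ⁅K, R⁆ := by
    intro g hg
    have h1 : ⁅K, R⁆ ≤ (⁅K, R⁆ : Subgroup M).comap (MulAut.conj g).toMonoidHom := by
      rw [Subgroup.commutator_le]
      intro k hk r hr
      rw [Subgroup.mem_comap]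
      have e : (MulAut.conj g).toMonoidHom ⁅k, r⁆ = ⁅g * k, r⁆ * ⁅g, r⁆⁻¹ := by
        simp only [MulEquiv.coe_toMonoidHom, MulAut.conj_apply, commutatorElement_def]
        group
      rw [e]
      exact mul_mem (Subgroup.commutator_mem_commutator (mul_mem hg hk) hr)
        (inv_mem (Subgroup.commutator_mem_commutator hg hr))
    intro d hd
    exact h1 hd
  have hR : ∀ g ∈ R, ∀ d ∈ ⁅K, R⁆, g * d * g⁻¹ ∈ ⁅K, R⁆ := by
    intro g hg
    have h1 : ⁅K, R⁆ ≤ (⁅K, R⁆ : Subgroup M).comap (MulAut.conj g).toMonoidHom := by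
      rw [Subgroup.commutator_le]
      intro k hk r hr
      rw [Subgroup.mem_comap]
      have e : (MulAut.conj g).toMonoidHom ⁅k, r⁆ = ⁅g * k * g⁻¹, g * r * g⁻¹⁆ := by
        simp only [MulEquiv.coe_toMonoidHom, MulAut.conj_apply, commutatorElement_def]
        group
      rw [e]
      exact Subgroup.commutator_mem_commutator (hKn.conj_mem k hk g)
        (mul_mem (mul_mem hg hr) (inv_mem hg))
    intro d hd
    exact h1 hd
  constructor
  intro d hd m
  obtain ⟨k, hk, r, hr, rfl⟩ := hprod m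
  have h1 := hK k hk _ (hR r hr d hd)
  have e : k * r * d * (k * r)⁻¹ = k * (r * d * r⁻¹) * k⁻¹ := by group
  rw [e]
  exact h1

/-- If a normal subgroup `K` with complement `R` in a solvable group lies in the derived
subgroup, then `K = [K, R]`. -/
theorem commutator_eq_of_le_commutator [Group.IsSolvable M] (K R : Subgroup M) [K.Normal]
    (hc : IsComplement' K R) (hK : K ≤ commutator M) : ⁅K, R⁆ = K := by
  have hprod : ∀ m : M, ∃ k ∈ K, ∃ r ∈ R, m = k * r := by
    intro m
    obtain ⟨⟨k, r⟩, h⟩ := hc.2 m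
    exact ⟨k.1, k.2, r.1, r.2, h.symm⟩
  have hdisj : K ⊓ R = ⊥ := hc.disjoint.eq_bot
  haveI hDn : (⁅K, R⁆ : Subgroup M).Normal := commutator_normal_of_prod K R hprod
  have hDK : ⁅K, R⁆ ≤ K := Subgroup.commutator_le_left K R
  refine le_antisymm hDK ?_
  obtain ⟨π, hπ⟩ : ∃ π : M →* M ⧸ ⁅K, R⁆, π = QuotientGroup.mk' ⁅K, R⁆ := ⟨_, rfl⟩
  have hπs : Function.Surjective π := by
    rw [hπ]; exact QuotientGroup.mk'_surjective _
  have hker : ∀ x : M, π x = 1 ↔ x ∈ ⁅K, R⁆ := by
    intro x
    rw [hπ]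
    exact QuotientGroup.eq_one_iff x
  have hcomm : ∀ (k : K) (r : R), Commute ((π.comp K.subtype) k) ((π.comp R.subtype) r) := by
    intro k r
    have h1 : π ⁅(k : M), (r : M)⁆ = 1 :=
      (hker _).mpr (Subgroup.commutator_mem_commutator k.2 r.2)
    rw [map_commutatorElement] at h1
    exact commutatorElement_eq_one_iff_commute.mp h1
  obtain ⟨φ, hφ⟩ : ∃ φ : K × R →* M ⧸ ⁅K, R⁆,
      φ = MonoidHom.noncommCoprod (π.comp K.subtype) (π.comp R.subtype) hcomm := ⟨_, rfl⟩
  have hφa : ∀ (k : K) (r : R), φ (k, r) = π k * π r := by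
    intro k r
    rw [hφ]
    rfl
  have hφs : Function.Surjective φ := by
    intro y
    obtain ⟨m, rfl⟩ := hπs y
    obtain ⟨k, hk, r, hr, rfl⟩ := hprod m
    exact ⟨(⟨k, hk⟩, ⟨r, hr⟩), by rw [hφa, map_mul]⟩
  have hkey : K.map π ≤ ⁅K.map π, K.map π⁆ := by
    rintro _ ⟨k, hk, rfl⟩
    have h1 : π k ∈ commutator (M ⧸ ⁅K, R⁆) := by
      have h0 : π k ∈ (commutator M).map π := Subgroup.mem_map_of_mem π (hK hk)
      rw [_root_.commutator_def, Subgroup.map_commutator, ← MonoidHom.range_eq_map,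
        MonoidHom.range_eq_top.mpr hπs] at h0
      rw [_root_.commutator_def]
      exact h0
    have h2 : commutator (M ⧸ ⁅K, R⁆) = (commutator (K × R)).map φ := by
      rw [_root_.commutator_def, _root_.commutator_def, Subgroup.map_commutator,
        ← MonoidHom.range_eq_map, MonoidHom.range_eq_top.mpr hφs]
    rw [h2] at h1
    obtain ⟨⟨u, v⟩, huv, huv'⟩ := h1
    have h3 : commutator (K × R) = (commutator K).prod (commutator R) := by
      rw [_root_.commutator_def, _root_.commutator_def, _root_.commutator_def,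
        ← Subgroup.commutator_prod_prod, Subgroup.top_prod_top]
    rw [h3] at huv
    obtain ⟨hu, hv⟩ := huv
    rw [hφa] at huv'
    have h4 : π ((u : M)⁻¹ * k * (v : M)⁻¹) = 1 := by
      rw [map_mul, map_mul, map_inv, map_inv, ← huv']
      group
    have h5 : (u : M)⁻¹ * k * (v : M)⁻¹ ∈ K := hDK ((hker _).mp h4)
    have h6 : (v : M) ∈ K := by
      have h7 : (v : M)⁻¹ ∈ K := by
        have h8 := mul_mem (mul_mem (inv_mem hk) u.2) h5
        have e : (k : M)⁻¹ * u * ((u : M)⁻¹ * k * (v : M)⁻¹) = (v : M)⁻¹ := by group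
        rwa [e] at h8
      simpa using inv_mem h7
    have h8 : (v : M) = 1 := by
      have h9 : (v : M) ∈ K ⊓ R := ⟨h6, v.2⟩
      rw [hdisj] at h9
      exact Subgroup.mem_bot.mp h9
    rw [h8, map_one, mul_one] at huv'
    rw [← huv']
    have h9 : (u : M) ∈ ⁅K, K⁆ := by
      rw [← Subgroup.map_subtype_commutator]
      exact Subgroup.mem_map_of_mem K.subtype hu
    have h10 : π (u : M) ∈ (⁅K, K⁆ : Subgroup M).map π := Subgroup.mem_map_of_mem π h9
    rwa [Subgroup.map_commutator] at h10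
  have hder : ∀ n : ℕ, K.map π ≤ derivedSeries (M ⧸ ⁅K, R⁆) n := by
    intro n
    induction n with
    | zero => exact le_top
    | succ n ih =>
      rw [derivedSeries_succ]
      exact hkey.trans (Subgroup.commutator_mono ih ih)
  obtain ⟨n, hn⟩ := Group.IsSolvable.solvable (G := M ⧸ ⁅K, R⁆)
  have hbot : K.map π ≤ ⊥ := hn ▸ hder n
  intro k hk
  exact (hker k).mp (Subgroup.mem_bot.mp (hbot (Subgroup.mem_map_of_mem π hk)))

end General

variable {G : Type u} [Group G]

/-- Piece C(1): `α(M) ⊆ σ(M)` for a maximal subgroup `M`. -/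
theorem alpha_subset_sigma [Finite G] (hG : IsMinSimpleOddOrder G) (h96 : St1403 G)
    {M : Subgroup G} (hM : IsCoatom M) {q : ℕ} (hq : q ∈ alpha M) : q ∈ sigma M := by
  obtain ⟨hqp, hqr⟩ := hq
  haveI : Fact q.Prime := ⟨hqp⟩
  obtain ⟨B, hBM, hBc, hBp, hB3⟩ := Cfsg.Agent.H31.T2.exists_elementary_of_not_pRankLE hqr
  have hBe : IsElementaryAbelian q B := ⟨⟨⟨fun a b => Subtype.ext (hBc a a.2 b b.2)⟩⟩, hBp⟩
  have hBpg : IsPGroup q (B.subgroupOf M) := by
    intro x
    refine ⟨1, ?_⟩
    rw [pow_one]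
    apply Subtype.ext
    apply Subtype.ext
    have h1 := hBp ((x : M) : G) (Subgroup.mem_subgroupOf.mp x.2)
    simpa using h1
  obtain ⟨Q, hBQ⟩ := hBpg.exists_le_sylow
  have hBS : B ≤ (Q : Subgroup M).map M.subtype := by
    intro b hb
    exact ⟨⟨b, hBM hb⟩, hBQ (Subgroup.mem_subgroupOf.mpr hb), rfl⟩
  have hSM : (Q : Subgroup M).map M.subtype ≤ M := by
    rintro _ ⟨y, -, rfl⟩
    exact y.2
  have hSr : ¬ PRankLE q 2 ↥((Q : Subgroup M).map M.subtype) :=
    Cfsg.Agent.H31.BG8.not_pRankLE_of_le hBS hBe hB3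
  have hStop : (Q : Subgroup M).map M.subtype ≠ ⊤ := by
    intro h
    exact hM.1 (top_le_iff.mp (h ▸ hSM))
  have hBcard : 1 < Nat.card B := by
    have h1 : 1 ≤ q ^ 2 := Nat.one_le_pow _ _ hqp.pos
    omega
  have hS0 : (Q : Subgroup M).map M.subtype ≠ ⊥ := by
    intro h
    have h1 : B = ⊥ := le_bot_iff.mp (h ▸ hBS)
    rw [h1, Subgroup.card_bot] at hBcard
    omega
  have hU : InUniqueMaximal ((Q : Subgroup M).map M.subtype) := by
    refine h96 _ hStop ?_ (Or.inl ?_)
    · intro h
      apply hSr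
      intro A hA1 hA2
      have h1 := h q hqp A hA1 hA2
      have h2 : q ^ 1 ≤ q ^ 2 := Nat.pow_le_pow_right hqp.pos (by norm_num)
      omega
    · intro h
      exact hSr (h q hqp)
  have hNtop : normalizer (((Q : Subgroup M).map M.subtype : Subgroup G) : Set G) ≠ ⊤ :=
    Cfsg.Agent.Lib.Helper30.minSimple_normalizer_ne_top hG hS0 hStop
  obtain ⟨L, hL, hNL⟩ := (eq_top_or_exists_le_coatom _).resolve_left hNtop
  obtain ⟨M0, ⟨hM0, hSM0⟩, huniq⟩ := hU
  have e1 : M = M0 := huniq M ⟨hM, hSM⟩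
  have e2 : L = M0 := huniq L ⟨hL, Subgroup.le_normalizer.trans hNL⟩
  have hqM : q ∣ Nat.card M := by
    have h1 : q ∣ Nat.card B := by
      have hBpg' : IsPGroup q B := Cfsg.Agent.H31.T2.isPGroup_of_exponent hBp
      obtain ⟨n, hn⟩ := IsPGroup.iff_card.mp hBpg'
      rw [hn] at hBcard ⊢
      have h2 : n ≠ 0 := by
        rintro rfl
        simp at hBcard
      exact dvd_pow_self q h2
    exact h1.trans (Subgroup.card_dvd_of_le hBM)
  exact ⟨hqp, hqM, Q, hNL.trans (le_of_eq (e2.trans e1.symm))⟩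

/-- Every maximal subgroup has `p`-length at most one. -/
theorem plen_coatom [Finite G] (hG : IsMinSimpleOddOrder G) (h96 : St1403 G) (hT : StSigComm G)
    (h102 : St1405 G) (h104 : St1407 G) (p : ℕ) [hp : Fact p.Prime] (M : Subgroup G)
    (hM : IsCoatom M) : PLengthLE p 1 M := by
  haveI hsol : Group.IsSolvable M := hG.2.2.2 M hM.1
  have hodd : Odd (Nat.card M) := Odd.of_dvd_nat hG.1 (Subgroup.card_subgroup_dvd_card M)
  by_cases hr : PRankLE p 2 M
  · by_cases hpM : p ∣ Nat.card M
    · obtain ⟨-, -, -, -, -, h6⟩ := Cfsg.Agent.S1450.result hodd p hpM hr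
      exact plen_one_of_index p h6
    · refine plen_one_of_index p ?_
      exact Nat.Coprime.coprime_dvd_left (Subgroup.index_dvd_card _)
        (Nat.Coprime.symm ((Nat.Prime.coprime_iff_not_dvd hp.out).mpr hpM))
  · have hpα : p ∈ alpha M := ⟨hp.out, hr⟩
    have hασ : ∀ q, q ∈ alpha M → q ∈ sigma M := fun q hq => alpha_subset_sigma hG h96 hM hq
    obtain ⟨⟨-, hKα, hKidx⟩, -, -, -, -⟩ := h102 M hM
    obtain ⟨K, hKdef⟩ : ∃ K : Subgroup M, K = piCore (alpha M) M := ⟨_, rfl⟩
    haveI hKn : K.Normal := by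
      rw [hKdef]; infer_instance
    have hαK : alphaCore M = K.map M.subtype := by
      rw [hKdef]; rfl
    have hcardK : Nat.card (alphaCore M) = Nat.card K := by
      rw [hαK]
      exact Subgroup.card_map_of_injective M.subtype_injective
    have hidxK : (alphaCore M).relIndex M = K.index := by
      rw [hαK]
      show ((K.map M.subtype).comap M.subtype).index = K.index
      rw [Subgroup.comap_map_eq_self_of_injective M.subtype_injective]
    rw [hcardK] at hKα
    rw [hidxK] at hKidx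
    have hcomm : ∀ q, q ∈ sigma M → ¬ q ∣ (commutator M).index := by
      intro q hq
      haveI : Fact q.Prime := ⟨hq.1⟩
      obtain ⟨Q⟩ : Nonempty (Sylow q M) := inferInstance
      have h1 : (Q : Subgroup M) ≤ commutator M := hT M hM q hq Q
      intro h2
      exact Q.not_dvd_index (h2.trans (Subgroup.index_dvd_of_le h1))
    have hKc : K ≤ commutator M := by
      rw [← Subgroup.relIndex_eq_one]
      by_contra hne
      obtain ⟨q, hqp, hqd⟩ := Nat.exists_prime_and_dvd hne
      have h1 : q ∈ alpha M := hKα q hqp (hqd.trans (Subgroup.relIndex_dvd_card _ _))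
      exact hcomm q (hασ q h1) (hqd.trans (Subgroup.relIndex_dvd_index_of_normal _ _))
    have hpM : p ∣ Nat.card M := (hασ p hpα).2.1
    haveI hnt : Nontrivial M := by
      rw [← Finite.one_lt_card_iff_nontrivial]
      exact lt_of_lt_of_le hp.out.one_lt (Nat.le_of_dvd Nat.card_pos hpM)
    obtain ⟨q, hqp, hqM, hqσ⟩ : ∃ q, q.Prime ∧ q ∣ Nat.card M ∧ q ∉ sigma M := by
      by_contra hcon
      push Not at hcon
      have h1 : (commutator M).index = 1 := by
        by_contra hne
        obtain ⟨q, hqp, hqd⟩ := Nat.exists_prime_and_dvd hne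
        exact hcomm q (hcon q hqp (hqd.trans (Subgroup.index_dvd_card _))) hqd
      have h2 : commutator M = ⊤ := Subgroup.index_eq_one.mp h1
      exact (ne_of_lt (Group.IsSolvable.commutator_lt_top_of_nontrivial M)) h2
    haveI : Fact q.Prime := ⟨hqp⟩
    have hqα : q ∉ alpha M := fun h => hqσ (hασ q h)
    have hpK : p ∣ Nat.card K := by
      have h1 : Nat.card K * K.index = Nat.card M := K.card_mul_index
      rw [← h1] at hpM
      exact (hp.out.dvd_mul.mp hpM).resolve_right (hKidx p hp.out hpα)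
    have hα0 : alphaCore M ≠ ⊥ := by
      intro h
      rw [← hcardK, h, Subgroup.card_bot] at hpK
      exact hp.out.one_lt.ne' (Nat.dvd_one.mp hpK)
    obtain ⟨Q⟩ : Nonempty (Sylow q M) := inferInstance
    obtain ⟨x, hx, hxo, hxZ, -⟩ := h104 M hM hα0 q hqM hqσ Q
    obtain ⟨y, -, rfl⟩ := hx
    have hyo : orderOf y = q := by
      rw [← hxo]
      exact (Subgroup.orderOf_coe y).symm
    have hHall : (Nat.card K).Coprime K.index := by
      apply Nat.coprime_of_dvd
      intro r hr hrK
      exact hKidx r hr (hKα r hr hrK)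
    have hcardM : Nat.card M = K.index * Nat.card K := by
      rw [mul_comm]
      exact K.card_mul_index.symm
    have hyc : (Nat.card (zpowers y)).Coprime (Nat.card K) := by
      rw [Nat.card_zpowers, hyo]
      exact (Nat.Prime.coprime_iff_not_dvd hqp).mpr (fun h => hqα (hKα q hqp h))
    obtain ⟨R, hRcard, hyR⟩ :=
      Cfsg.Agent.H1.hall_le K.index (Nat.card K) hcardM hHall.symm (zpowers y) hyc
    have hcompl : IsComplement' K R := by
      apply Subgroup.isComplement'_of_coprime
      · rw [hRcard]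
        exact K.card_mul_index
      · rw [hRcard]
        exact hHall
    have hprime : (Nat.card (zpowers y)).Prime := by
      rw [Nat.card_zpowers, hyo]
      exact hqp
    have hZ : IsZGroup ↥(K ⊓ centralizer ((zpowers y : Subgroup M) : Set M)) := by
      obtain ⟨f, hf⟩ : ∃ f : ↥(K ⊓ centralizer ((zpowers y : Subgroup M) : Set M)) →*
          ↥(alphaCore M ⊓ centralizer ({M.subtype y} : Set G)), Function.Injective f := by
        refine ⟨MonoidHom.codRestrict (M.subtype.comp (Subgroup.subtype _)) _ ?_, ?_⟩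
        · intro z
          have hz1 : ((z : M) : G) ∈ alphaCore M := by
            rw [hαK]
            exact Subgroup.mem_map_of_mem M.subtype z.2.1
          have hz2 : ((z : M) : G) ∈ centralizer ({M.subtype y} : Set G) := by
            rw [Subgroup.mem_centralizer_iff]
            intro h hh
            rw [Set.mem_singleton_iff] at hh
            subst hh
            have h1 := (Subgroup.mem_centralizer_iff.mp z.2.2) y (Subgroup.mem_zpowers y)
            exact congrArg Subtype.val h1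
          exact ⟨hz1, hz2⟩
        · intro a b hab
          have h1 := congrArg Subtype.val hab
          exact Subtype.ext (Subtype.ext h1)
      exact IsZGroup.of_injective (hG' := hxZ) hf
    have h1444 : PLengthLE p 1 ↥⁅K, R⁆ :=
      Cfsg.Agent.S1444.result hodd K R (zpowers y) hHall hcompl hyR hprime hZ p
    have hKR : ⁅K, R⁆ = K := commutator_eq_of_le_commutator K R hcompl hKc
    rw [hKR] at h1444
    have hc1 := Cfsg.Agent.H66.plenRel_of_pLengthLE_normal p K 1 h1444
    have hc0 : Cfsg.Agent.H66.PLenRel p 0 K ⊤ := by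
      refine ⟨inferInstance, inferInstance, le_top, ?_⟩
      rw [Subgroup.relIndex_top_right]
      exact Nat.Coprime.symm ((Nat.Prime.coprime_iff_not_dvd hp.out).mpr (hKidx p hp.out hpα))
    exact (Cfsg.Agent.H66.pLengthLE_iff_plenRel p 1).mpr (hc1.trans hc0)

/-- **BG10 piece H** (B&G 10.7 (a)): every proper subgroup has `p`-length at most one. -/
theorem bg107a [Finite G] (hG : IsMinSimpleOddOrder G) (h96 : St1403 G) (hT : StSigComm G)
    (h102 : St1405 G) (h104 : St1407 G) : St1410 G := by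
  intro p _ H hH
  obtain ⟨M, hM, hHM⟩ := (eq_top_or_exists_le_coatom H).resolve_left hH
  have h1 : PLengthLE p 1 M := plen_coatom hG h96 hT h102 h104 p M hM
  have h2 : PLengthLE p 1 (H.subgroupOf M) :=
    Cfsg.Agent.H66.pLengthLE_subgroup p (H.subgroupOf M) 1 h1
  exact Cfsg.Agent.H66.pLengthLE_of_surjective p (Subgroup.subgroupOfEquivOfLe hHM).toMonoidHom
    (Subgroup.subgroupOfEquivOfLe hHM).surjective 1 h2

end Cfsg.Agent.H89.BG10
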