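import Mathlib
import Cfsg.Agent.Lib.Helper30.PsuF1

/-!
# helper89: the finite-field piece O-FIELD of helper45's project S2413

`B` = multiplication by a generator `ζ` of `Eˣ`, `E` the extension of degree `k` of `F`,
`G` = the Gram matrix of the trace form.
-/

set_option autoImplicit false

namespace Cfsg.Agent.H89.O

open Matrix

/-- The trace-form Gram matrix symmetrises multiplication matrices. -/
theorem traceMatrix_mul_leftMul {F : Type*} [Field F] {E : Type*} [Field E] [Algebra F E]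
    {k : ℕ} (b : Module.Basis (Fin k) F E) (x : E) :
    Algebra.traceMatrix F b * Algebra.leftMulMatrix b x =
      (Algebra.leftMulMatrix b x)ᵀ * Algebra.traceMatrix F b := by
  have key : ∀ (i : Fin k) (y : E),
      ∑ l, Algebra.trace F E (b i * b l) * b.repr y l = Algebra.trace F E (b i * y) := by
    intro i y
    conv_rhs => rw [← b.sum_repr y]
    rw [Finset.mul_sum, map_sum]
    apply Finset.sum_congr rfl
    intro l _
    rw [mul_smul_comm, map_smul, smul_eq_mul, mul_comm]
  ext i j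
  rw [Matrix.mul_apply, Matrix.mul_apply]
  have e1 : ∀ l, Algebra.traceMatrix F b i l * Algebra.leftMulMatrix b x l j =
      Algebra.trace F E (b i * b l) * b.repr (x * b j) l := by
    intro l
    rw [Algebra.traceMatrix_apply, Algebra.traceForm_apply, Algebra.leftMulMatrix_eq_repr_mul]
  have e2 : ∀ l, (Algebra.leftMulMatrix b x)ᵀ i l * Algebra.traceMatrix F b l j =
      Algebra.trace F E (b j * b l) * b.repr (x * b i) l := by
    intro l
    rw [Matrix.transpose_apply, Algebra.traceMatrix_apply, Algebra.traceForm_apply,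
      Algebra.leftMulMatrix_eq_repr_mul, mul_comm (b l) (b j), mul_comm]
  rw [Finset.sum_congr rfl (fun l _ => e1 l), Finset.sum_congr rfl (fun l _ => e2 l), key, key]
  congr 1
  ring

/-- The coordinate map from columns to `E`. -/
theorem exists_colMap {F : Type*} [Field F] {E : Type*} [Field E] [Algebra F E]
    {k : ℕ} (b : Module.Basis (Fin k) F E) :
    ∃ φ : Matrix (Fin k) (Fin 1) F →+ E, Function.Bijective φ ∧
      ∀ (x : E) (c : Matrix (Fin k) (Fin 1) F),
        φ (Algebra.leftMulMatrix b x * c) = x * φ c := by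
  have hadd : ∀ c c' : Matrix (Fin k) (Fin 1) F,
      b.equivFun.symm (fun i => (c + c') i 0) =
        b.equivFun.symm (fun i => c i 0) + b.equivFun.symm (fun i => c' i 0) := by
    intro c c'
    rw [← map_add]
    rfl
  refine ⟨AddMonoidHom.mk' (fun c => b.equivFun.symm (fun i => c i 0)) hadd, ⟨?_, ?_⟩, ?_⟩
  · intro c c' h
    have h1 : (fun i => c i 0) = (fun i => c' i 0) := b.equivFun.symm.injective h
    ext i j
    rw [Fin.fin_one_eq_zero j]
    exact congrFun h1 i
  · intro e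
    refine ⟨Matrix.of (fun i _ => b.equivFun e i), ?_⟩
    exact b.equivFun.symm_apply_apply e
  · intro x c
    show b.equivFun.symm (fun i => (Algebra.leftMulMatrix b x * c) i 0) =
      x * b.equivFun.symm (fun i => c i 0)
    apply b.equivFun.injective
    rw [LinearEquiv.apply_symm_apply]
    have h1 : b.equivFun (x * b.equivFun.symm (fun i => c i 0)) =
        Algebra.leftMulMatrix b x *ᵥ (b.equivFun (b.equivFun.symm (fun i => c i 0))) :=
      (Algebra.leftMulMatrix_mulVec_repr b x _).symm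
    rw [h1, LinearEquiv.apply_symm_apply]
    rfl

theorem field_O_aux {F : Type*} [Field F] [Fintype F] (hodd : Odd (Fintype.card F)) (k : ℕ)
    (hk : 2 ≤ k) {E : Type*} [Field E] [Algebra F E] [Finite E]
    (hfin : Module.finrank F E = k) :
    ∃ B B' G G' : Matrix (Fin k) (Fin k) F, B * B' = 1 ∧ B' * B = 1 ∧ G * G' = 1 ∧ G' * G = 1 ∧
      G * B = Bᵀ * G ∧ ¬ IsSquare B.det ∧
      (∀ X : AddSubgroup (Matrix (Fin k) (Fin 1) F), (∀ c ∈ X, B * B * c ∈ X) →
        ∀ c₁ ∈ X, c₁ ≠ 0 → X = ⊤) ∧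
      (∀ c : Matrix (Fin k) (Fin 1) F, B * B * c = c → c = 0) := by
  classical
  let _ : Fintype E := Fintype.ofFinite E
  haveI : Module.Finite F E := Module.Finite.of_finite
  have hcard : Fintype.card E = Fintype.card F ^ k := by
    rw [Module.card_eq_pow_finrank (K := F), hfin]
  have hq3 : 3 ≤ Fintype.card F := by
    have h2 : 2 ≤ Fintype.card F := Fintype.one_lt_card
    obtain ⟨t, ht⟩ := hodd
    omega
  have hE9 : 9 ≤ Fintype.card E := by
    rw [hcard]
    calc 9 = 3 ^ 2 := by norm_num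
      _ ≤ Fintype.card F ^ 2 := Nat.pow_le_pow_left hq3 2
      _ ≤ Fintype.card F ^ k := Nat.pow_le_pow_right (by omega) hk
  obtain ⟨b⟩ : Nonempty (Module.Basis (Fin k) F E) := ⟨Module.finBasisOfFinrankEq F E hfin⟩
  obtain ⟨ζ, hζ⟩ := IsCyclic.exists_generator (α := Eˣ)
  have hord : orderOf ζ = Fintype.card E - 1 := by
    rw [orderOf_eq_card_of_forall_mem_zpowers hζ, Nat.card_units, Nat.card_eq_fintype_card]
  have hGdet : (Algebra.traceMatrix F b).det ≠ 0 := by
    rw [Algebra.traceMatrix_of_basis]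
    exact det_traceForm_ne_zero b
  have hGunit : IsUnit (Algebra.traceMatrix F b).det := isUnit_iff_ne_zero.mpr hGdet
  have hAA' : Algebra.leftMulMatrix b (ζ : E) * Algebra.leftMulMatrix b ((ζ⁻¹ : Eˣ) : E) = 1 := by
    rw [← map_mul, Units.mul_inv, map_one]
  have hA'A : Algebra.leftMulMatrix b ((ζ⁻¹ : Eˣ) : E) * Algebra.leftMulMatrix b (ζ : E) = 1 := by
    rw [← map_mul, Units.inv_mul, map_one]
  obtain ⟨φ, hφbij, hφmul⟩ := exists_colMap b
  have hφ2 : ∀ c : Matrix (Fin k) (Fin 1) F,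
      φ (Algebra.leftMulMatrix b (ζ : E) * Algebra.leftMulMatrix b (ζ : E) * c)
        = (ζ : E) ^ 2 * φ c := by
    intro c
    rw [Matrix.mul_assoc, hφmul, hφmul, pow_two, mul_assoc]
  have hζ2 : (ζ : E) ^ 2 ≠ 1 := by
    intro h
    have h3 : ζ ^ 2 = 1 := Units.ext (by rw [Units.val_pow_eq_pow_val, h]; rfl)
    have h4 := Nat.le_of_dvd (by norm_num) (orderOf_dvd_of_pow_eq_one h3)
    rw [hord] at h4
    omega
  refine ⟨Algebra.leftMulMatrix b (ζ : E), Algebra.leftMulMatrix b ((ζ⁻¹ : Eˣ) : E),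
    Algebra.traceMatrix F b, (Algebra.traceMatrix F b)⁻¹, hAA', hA'A,
    Matrix.mul_nonsing_inv _ hGunit, Matrix.nonsing_inv_mul _ hGunit,
    traceMatrix_mul_leftMul b _, ?_, ?_, ?_⟩
  · rintro ⟨s, hs⟩
    have hnorm : Algebra.norm F (ζ : E) = s * s := by rw [Algebra.norm_eq_matrix_det b, hs]
    have hs0 : s ≠ 0 := by
      rintro rfl
      rw [mul_zero] at hnorm
      exact (Units.ne_zero ζ) (Algebra.norm_eq_zero_iff.mp hnorm)
    have h1 := FiniteField.algebraMap_norm_eq_pow (K := F) (K' := E) (x := (ζ : E))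
    rw [hnorm, Nat.card_eq_fintype_card, Nat.card_eq_fintype_card] at h1
    have hs1 : s ^ (Fintype.card F - 1) = 1 := FiniteField.pow_card_sub_one_eq_one s hs0
    obtain ⟨t, ht⟩ := hodd
    have hdvd : Fintype.card F - 1 ∣ Fintype.card E - 1 := by
      rw [hcard]
      simpa only [one_pow] using Nat.sub_dvd_pow_sub_pow (Fintype.card F) 1 k
    obtain ⟨M, hM⟩ : ∃ M, M = (Fintype.card E - 1) / (Fintype.card F - 1) := ⟨_, rfl⟩
    rw [← hM] at h1
    have hMq : M * (Fintype.card F - 1) = Fintype.card E - 1 := by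
      rw [hM]; exact Nat.div_mul_cancel hdvd
    have hq : Fintype.card F - 1 = 2 * t := by omega
    have h2 : (ζ : E) ^ (M * t) = 1 := by
      rw [pow_mul, ← h1, ← map_pow, ← pow_two, ← pow_mul, ← hq, hs1, map_one]
    have h3 : ζ ^ (M * t) = 1 := Units.ext (by rw [Units.val_pow_eq_pow_val, h2]; rfl)
    have h4 := orderOf_dvd_of_pow_eq_one h3
    rw [hord] at h4
    obtain ⟨N, hN⟩ : ∃ N, N = M * t := ⟨_, rfl⟩
    rw [← hN] at h4
    have h5 : N * 2 = Fintype.card E - 1 := by
      rw [← hMq, hq, hN]; ring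
    have h6 := Nat.le_of_dvd (by omega) h4
    omega
  · intro X hX c₁ hc₁ hc₁0
    have hgen : AddSubmonoid.closure (Set.range (fun i : ℕ => ((ζ : E) ^ 2) ^ i)) = ⊤ := by
      apply Cfsg.Agent.Lib.Helper30.Psu.add_closure_pow_top_of_lt _
        (pow_ne_zero 2 (Units.ne_zero ζ))
      have ho : orderOf ((ζ : E) ^ 2) = orderOf (ζ ^ 2) := by
        rw [← Units.val_pow_eq_pow_val, orderOf_units]
      rw [ho, orderOf_pow' ζ (by norm_num), hord]
      have hg : Nat.gcd (Fintype.card E - 1) 2 ≤ 2 :=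
        Nat.le_of_dvd (by norm_num) (Nat.gcd_dvd_right _ _)
      have hg0 : 0 < Nat.gcd (Fintype.card E - 1) 2 :=
        Nat.gcd_pos_of_pos_right _ (by norm_num)
      have hdiv : (Fintype.card E - 1) / 2 ≤
          (Fintype.card E - 1) / Nat.gcd (Fintype.card E - 1) 2 :=
        Nat.div_le_div_left hg hg0
      obtain ⟨m, hm⟩ : ∃ m, m = (Fintype.card E - 1) / Nat.gcd (Fintype.card E - 1) 2 :=
        ⟨_, rfl⟩
      rw [← hm] at hdiv ⊢
      have h4 : 4 ≤ m := by omega
      have h5 : Fintype.card E ≤ 2 * m + 2 := by omega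
      nlinarith
    have hpow : ∀ (i : ℕ) (c : Matrix (Fin k) (Fin 1) F), c ∈ X →
        ∃ c' ∈ X, φ c' = ((ζ : E) ^ 2) ^ i * φ c := by
      intro i
      induction i with
      | zero => intro c hc; exact ⟨c, hc, by rw [pow_zero, one_mul]⟩
      | succ i ih =>
        intro c hc
        obtain ⟨c', hc', e'⟩ := ih c hc
        refine ⟨_, hX c' hc', ?_⟩
        rw [hφ2, e', pow_succ]
        ring
    have hstab : ∀ (y : E) (c : Matrix (Fin k) (Fin 1) F), c ∈ X →
        ∃ c' ∈ X, φ c' = y * φ c := by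
      intro y c hc
      have hy : y ∈ AddSubmonoid.closure (Set.range (fun i : ℕ => ((ζ : E) ^ 2) ^ i)) := by
        rw [hgen]; trivial
      induction hy using AddSubmonoid.closure_induction with
      | mem z hz =>
        obtain ⟨i, rfl⟩ := hz
        exact hpow i c hc
      | zero => exact ⟨0, X.zero_mem, by rw [map_zero, zero_mul]⟩
      | add a b' _ _ ha hb =>
        obtain ⟨c1, h1, e1⟩ := ha
        obtain ⟨c2, h2, e2⟩ := hb
        exact ⟨c1 + c2, X.add_mem h1 h2, by rw [map_add, e1, e2, add_mul]⟩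
    have he1 : φ c₁ ≠ 0 := by
      intro h0
      apply hc₁0
      apply hφbij.1
      rw [h0, map_zero]
    rw [eq_top_iff]
    intro d _
    obtain ⟨c', hc', e'⟩ := hstab (φ d / φ c₁) c₁ hc₁
    rw [div_mul_cancel₀ _ he1] at e'
    rw [← hφbij.1 e']
    exact hc'
  · intro c hc
    have h1 : (ζ : E) ^ 2 * φ c = φ c := by rw [← hφ2, hc]
    have h2 : ((ζ : E) ^ 2 - 1) * φ c = 0 := by rw [sub_mul, h1, one_mul, sub_self]
    have h3 : φ c = 0 := by
      rcases mul_eq_zero.mp h2 with h | h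
      · exact absurd (sub_eq_zero.mp h) hζ2
      · exact h
    apply hφbij.1
    rw [h3, map_zero]

theorem field_O {F : Type*} [Field F] [Fintype F] (hodd : Odd (Fintype.card F)) (k : ℕ)
    (hk : 2 ≤ k) :
    ∃ B B' G G' : Matrix (Fin k) (Fin k) F, B * B' = 1 ∧ B' * B = 1 ∧ G * G' = 1 ∧ G' * G = 1 ∧
      G * B = Bᵀ * G ∧ ¬ IsSquare B.det ∧
      (∀ X : AddSubgroup (Matrix (Fin k) (Fin 1) F), (∀ c ∈ X, B * B * c ∈ X) →
        ∀ c₁ ∈ X, c₁ ≠ 0 → X = ⊤) ∧
      (∀ c : Matrix (Fin k) (Fin 1) F, B * B * c = c → c = 0) := by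
  obtain ⟨p, hp⟩ := CharP.exists F
  haveI : CharP F p := hp
  haveI : Fact p.Prime := ⟨CharP.char_is_prime F p⟩
  haveI : NeZero k := ⟨by omega⟩
  exact field_O_aux hodd k hk (E := FiniteField.Extension F p k)
    (FiniteField.finrank_extension F p k)

end Cfsg.Agent.H89.O
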