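import Mathlib
import Cfsg.Agent.H42.UnDefs
import Cfsg.Agent.H48.ElEX1
import Cfsg.Agent.H50.GraphAutUBase

/-!
# UN-KUMEX (S5954): Kummer elements of `SU_n(q)` exist when `(q + 1)_r < (n)_r`

The element is the block diagonal matrix of `n / r` copies of the monomial matrix
`e_j ↦ d_j e_{j+1}` on `ZMod r` (`d_0 = c`, `d_j = 1` otherwise), `c` of norm one and not an
`r`-th power.
-/

set_option autoImplicit false

namespace Cfsg.Agent.H89.Un

open Cfsg.Agent.H42.Un Matrix

universe u

section Mono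

variable {F : Type u} [Field F] (r : ℕ) [NeZero r] (c : F)

/-- The monomial matrix `e_j ↦ d_j e_{j+1}` on `ZMod r`, `d_0 = c`, `d_j = 1` otherwise. -/
noncomputable def kumC : Matrix (ZMod r) (ZMod r) F :=
  Matrix.of fun i j => if i = j + 1 then (if j = 0 then c else 1) else 0

theorem kumC_pow (m : ℕ) : (kumC r c) ^ m = Matrix.of fun i j : ZMod r =>
    if i = j + (m : ZMod r) then
      ∏ t ∈ Finset.range m, (if j + (t : ZMod r) = 0 then c else 1) else 0 := by
  induction m with
  | zero =>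
    ext i j
    simp [Matrix.one_apply]
  | succ m ih =>
    rw [pow_succ, ih]
    ext i j
    rw [Matrix.mul_apply, Finset.sum_eq_single (j + 1)]
    · simp only [Matrix.of_apply, kumC, if_true]
      by_cases h : i = j + 1 + (m : ZMod r)
      · have h' : i = j + ((m + 1 : ℕ) : ZMod r) := by rw [h]; push_cast; ring
        rw [if_pos h, if_pos h', Finset.prod_range_succ']
        simp only [Nat.cast_zero, add_zero]
        congr 1
        apply Finset.prod_congr rfl
        intro t _
        have h2 : j + 1 + (t : ZMod r) = j + ((t + 1 : ℕ) : ZMod r) := by push_cast; ring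
        rw [h2]
      · have h' : ¬ i = j + ((m + 1 : ℕ) : ZMod r) := by
          intro h2; apply h; rw [h2]; push_cast; ring
        rw [if_neg h, if_neg h', zero_mul]
    · intro l _ hl
      simp only [kumC, Matrix.of_apply, if_neg hl, mul_zero]
    · intro h; exact absurd (Finset.mem_univ _) h

theorem kumC_pow_self : (kumC r c) ^ r = c • (1 : Matrix (ZMod r) (ZMod r) F) := by
  rw [kumC_pow]
  ext i j
  simp only [Matrix.of_apply, ZMod.natCast_self, add_zero, Matrix.smul_apply, Matrix.one_apply,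
    smul_eq_mul]
  by_cases h : i = j
  · rw [if_pos h, if_pos h, mul_one]
    have hkey : ∀ t ∈ Finset.range r, ((j + (t : ZMod r) = 0) ↔ t = (-j).val) := by
      intro t ht
      rw [Finset.mem_range] at ht
      constructor
      · intro h0
        have h1 : (t : ZMod r) = -j := eq_neg_of_add_eq_zero_right h0
        rw [← h1, ZMod.val_natCast_of_lt ht]
      · intro h0
        rw [h0, ZMod.natCast_zmod_val]; ring
    rw [Finset.prod_congr rfl (fun t ht => if_congr (hkey t ht) rfl rfl)]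
    rw [Finset.prod_ite_eq', if_pos (Finset.mem_range.mpr (ZMod.val_lt _))]
  · rw [if_neg h, if_neg h, mul_zero]

theorem kumC_unitary (φ : F →+* F) (hφ : c * φ c = 1) :
    (kumC r c)ᵀ * (kumC r c).map φ = 1 := by
  ext i j
  rw [Matrix.mul_apply, Finset.sum_eq_single (i + 1)]
  · simp only [Matrix.transpose_apply, Matrix.map_apply, kumC, Matrix.of_apply, if_true]
    by_cases h : i = j
    · subst h
      rw [if_pos rfl, Matrix.one_apply_eq]
      by_cases h0 : i = 0
      · rw [if_pos h0]; exact hφ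
      · rw [if_neg h0, map_one, mul_one]
    · have h2 : ¬ i + 1 = j + 1 := fun h2 => h (add_right_cancel h2)
      rw [if_neg h2, map_zero, mul_zero, Matrix.one_apply_ne h]
  · intro l _ hl
    simp only [Matrix.transpose_apply, kumC, Matrix.of_apply, if_neg hl, zero_mul]
  · intro h; exact absurd (Finset.mem_univ _) h

end Mono

theorem uKumEx : StUKumEx.{u} := by
  intro F _ _ q hq r hr hr2 hrq n hval
  classical
  haveI : Fact r.Prime := ⟨hr⟩
  haveI : NeZero r := ⟨hr.ne_zero⟩
  have hq2 : 2 ≤ q := by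
    by_contra hlt
    have h1 := Fintype.one_lt_card (α := F)
    have hq01 : q = 0 ∨ q = 1 := by omega
    rcases hq01 with h0 | h0 <;> rw [h0] at hq <;> simp at hq <;> omega
  have hn0 : n ≠ 0 := by
    rintro rfl
    simp at hval
  have hrq1 : ¬ r ∣ q - 1 := by
    intro h
    have h4 : r ∣ (q + 1) - (q - 1) := Nat.dvd_sub hrq h
    have h5 : (q + 1) - (q - 1) = 2 := by omega
    rw [h5] at h4
    have h6 := Nat.le_of_dvd (by norm_num) h4
    have h7 := hr.two_le
    omega
  have hcard : Fintype.card F - 1 = (q + 1) * (q - 1) := by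
    rw [hq]
    have h5 := Nat.sq_sub_sq q 1
    simpa using h5
  have hv : padicValNat r (Fintype.card F - 1) = padicValNat r (q + 1) := by
    rw [hcard, padicValNat.mul (by omega) (by omega), padicValNat.eq_zero_of_not_dvd hrq1,
      add_zero]
  have hrF : r ∣ Fintype.card F - 1 := by rw [hcard]; exact Dvd.dvd.mul_right hrq _
  obtain ⟨c, hc, hcpow⟩ := Cfsg.Agent.H48.El.exists_not_pow (F := F) r hr hrF
  rw [hv] at hcpow
  have hcq : c ^ (q + 1) = 1 := by
    obtain ⟨m, hm⟩ : r ^ padicValNat r (q + 1) ∣ q + 1 := pow_padicValNat_dvd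
    rw [hm, pow_mul, hcpow, one_pow]
  have hdvd : r ^ (padicValNat r (q + 1) + 1) ∣ n := (padicValNat_dvd_iff_le hn0).mpr hval
  have ha1 : 1 ≤ padicValNat r (q + 1) := one_le_padicValNat_of_dvd (by omega) hrq
  have hrn : r ∣ n := (dvd_pow_self r (Nat.succ_ne_zero _)).trans hdvd
  obtain ⟨k, hk⟩ := hrn
  have hdvdk : r ^ padicValNat r (q + 1) ∣ k := by
    rw [hk, pow_succ, mul_comm] at hdvd
    exact Nat.dvd_of_mul_dvd_mul_left hr.pos hdvd
  have hck : c ^ k = 1 := by
    obtain ⟨m, hm⟩ := hdvdk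
    rw [hm, pow_mul, hcpow, one_pow]
  have hrk : r ∣ k := (dvd_pow_self r (by omega)).trans hdvdk
  obtain ⟨φ, hφ⟩ : ∃ φ : F ≃+* F, φ = Cfsg.Agent.H50.GraphAutU.frobE hq := ⟨_, rfl⟩
  have hφc : c * (φ : F →+* F) c = 1 := by
    rw [hφ]
    show c * c ^ q = 1
    rw [← pow_succ', hcq]
  have hcard' : Fintype.card (ZMod r × Fin k) = Fintype.card (Fin n) := by
    rw [Fintype.card_prod, ZMod.card, Fintype.card_fin, Fintype.card_fin, hk]
  obtain ⟨e⟩ : Nonempty (ZMod r × Fin k ≃ Fin n) := ⟨Fintype.equivOfCardEq hcard'⟩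
  obtain ⟨D, hD⟩ : ∃ D : Matrix (ZMod r × Fin k) (ZMod r × Fin k) F,
      D = Matrix.blockDiagonal (fun _ : Fin k => kumC r c) := ⟨_, rfl⟩
  have hDpow : D ^ r = c • (1 : Matrix (ZMod r × Fin k) (ZMod r × Fin k) F) := by
    rw [hD, ← Matrix.blockDiagonal_pow]
    have h1 : (fun _ : Fin k => kumC r c) ^ r =
        c • (1 : Fin k → Matrix (ZMod r) (ZMod r) F) := by
      funext i
      rw [Pi.pow_apply, kumC_pow_self]
      rfl
    rw [h1, Matrix.blockDiagonal_smul, Matrix.blockDiagonal_one]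
  have hDdet : D.det = 1 := by
    rw [hD, Matrix.det_blockDiagonal, Finset.prod_const, Finset.card_univ, Fintype.card_fin]
    obtain ⟨k', hk'⟩ := hrk
    rw [hk', pow_mul, ← Matrix.det_pow, kumC_pow_self, Matrix.det_smul, Matrix.det_one, mul_one,
      ZMod.card, ← pow_mul, ← hk', hck]
  have hDU : Dᵀ * D.map (φ : F →+* F) = 1 := by
    rw [hD, Matrix.blockDiagonal_transpose, Matrix.blockDiagonal_map _ _ (map_zero _),
      ← Matrix.blockDiagonal_mul]
    have h1 : (fun _ : Fin k => (kumC r c)ᵀ * (kumC r c).map (φ : F →+* F)) =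
        (1 : Fin k → Matrix (ZMod r) (ZMod r) F) := by
      funext i
      exact kumC_unitary r c (φ : F →+* F) hφc
    rw [h1, Matrix.blockDiagonal_one]
  obtain ⟨x, hx⟩ : ∃ x : Matrix (Fin n) (Fin n) F, x = Matrix.reindexAlgEquiv F F e D :=
    ⟨_, rfl⟩
  have hxpow : x ^ r = c • (1 : Matrix (Fin n) (Fin n) F) := by
    rw [hx, ← map_pow, hDpow, map_smul, map_one]
  have hxdet : x.det = 1 := by rw [hx, Matrix.det_reindexAlgEquiv, hDdet]
  have hxU : xᵀ * x.map (Cfsg.Agent.H50.GraphAutU.frobE hq) = 1 := by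
    rw [hx, ← hφ]
    show (D.submatrix e.symm e.symm)ᵀ * (D.submatrix e.symm e.symm).map (φ : F →+* F) = 1
    rw [Matrix.transpose_submatrix, ← Matrix.submatrix_map, Matrix.submatrix_mul_equiv, hDU,
      Matrix.submatrix_one_equiv]
  obtain ⟨xs, hxs⟩ : ∃ xs : Matrix.SpecialLinearGroup (Fin n) F,
      (xs : Matrix (Fin n) (Fin n) F) = x := ⟨⟨x, hxdet⟩, rfl⟩
  refine ⟨xs, c, ?_, hc, ?_⟩
  · rw [Cfsg.Agent.H50.GraphAutU.mem_SU_iff hq, hxs]
    exact hxU
  · rw [Matrix.SpecialLinearGroup.coe_pow, hxs]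
    exact hxpow

example : Cfsg.Agent.H42.Un.StUKumEx.{u} := uKumEx

end Cfsg.Agent.H89.Un
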