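import Mathlib
import Cfsg.Agent.H42.UnDefs

/-!
# UN-KUMNT (S5954): a norm-one element which is not an `r`-th power of a norm-one element is
not an `r`-th power
-/

set_option autoImplicit false

namespace Cfsg.Agent.H89.Un

open Cfsg.Agent.H42.Un

universe u

theorem uKumNT : StUKumNT.{u} := by
  intro F _ _ q hq r hr hr2 hrq z hz hno b hb
  apply hno
  refine ⟨b, ?_, hb⟩
  have hq0 : q ≠ 0 := by
    rintro rfl
    have h0 : Fintype.card F = 0 := by rw [hq]; rfl
    exact Fintype.card_ne_zero h0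
  have hb0 : b ≠ 0 := by
    rintro rfl
    rw [zero_pow hr.ne_zero] at hb
    rw [← hb, zero_pow (by omega)] at hz
    exact zero_ne_one hz
  have h1 : b ^ (r * (q + 1)) = 1 := by rw [pow_mul, hb, hz]
  have h2 : b ^ ((q - 1) * (q + 1)) = 1 := by
    have h3 := FiniteField.pow_card_sub_one_eq_one b hb0
    rw [hq] at h3
    have h4 : q ^ 2 - 1 = (q - 1) * (q + 1) := by
      have h5 := Nat.sq_sub_sq q 1
      rw [mul_comm]; simpa using h5
    rwa [h4] at h3
  have hcop : Nat.Coprime r (q - 1) := by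
    rw [hr.coprime_iff_not_dvd]
    intro h
    have h4 : r ∣ (q + 1) - (q - 1) := Nat.dvd_sub hrq h
    have h5 : (q + 1) - (q - 1) = 2 := by omega
    rw [h5] at h4
    have h6 := Nat.le_of_dvd (by norm_num) h4
    have h7 := hr.two_le
    omega
  have h6 : orderOf b ∣ Nat.gcd (r * (q + 1)) ((q - 1) * (q + 1)) :=
    Nat.dvd_gcd (orderOf_dvd_of_pow_eq_one h1) (orderOf_dvd_of_pow_eq_one h2)
  rw [Nat.gcd_mul_right, hcop.gcd_eq_one, one_mul] at h6
  exact orderOf_dvd_iff_pow_eq_one.mp h6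

example : Cfsg.Agent.H42.Un.StUKumNT.{u} := uKumNT

end Cfsg.Agent.H89.Un
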