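import Mathlib
import Cfsg.Agent.H42.UnDefs
import Cfsg.Agent.H99.ElKUM
import Cfsg.Agent.H48.ElNT

/-!
# UN-KUMNEC (S5954): a Kummer element of `SU_n(q)` (`x ^ r = z • 1`, `z` not an `r`-th power,
`r ∣ q + 1` odd) forces `(q + 1)_r < (n)_r`
-/

set_option autoImplicit false

namespace Cfsg.Agent.H89.Un

open Cfsg.Agent.H42.Un

universe u

theorem uKumNec : StUKumNec.{u} := by
  intro F _ _ q hq r hr hr2 hrq n x z hn hx hc hxr
  classical
  haveI : Fact r.Prime := ⟨hr⟩
  obtain ⟨T, hT⟩ : ∃ T : Module.End F (Fin n → F),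
      T = Matrix.toLin' (x : Matrix (Fin n) (Fin n) F) := ⟨_, rfl⟩
  have hTr : T ^ r = z • (1 : Module.End F (Fin n → F)) := by
    rw [hT]
    have h1 : (Matrix.toLin' (x : Matrix (Fin n) (Fin n) F)) ^ r =
        Matrix.toLin' ((x : Matrix (Fin n) (Fin n) F) ^ r) :=
      (map_pow (Matrix.toLinAlgEquiv' (R := F) (n := Fin n)) _ r).symm
    rw [h1, ← Matrix.SpecialLinearGroup.coe_pow, hxr, map_smul, Matrix.toLin'_one]
    rfl
  have hdvd : r ∣ n := by
    have h2 := Cfsg.Agent.H99.Kum.kummer_dvd_finrank T r hr z hc hTr ⊤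
      (fun v _ => Submodule.mem_top)
    rwa [finrank_top, Module.finrank_fin_fun] at h2
  have hdet := Cfsg.Agent.H99.Kum.kummer_det T r hr z hc hTr
  rw [hT, LinearMap.det_toLin', x.det_coe, Module.finrank_fin_fun] at hdet
  have hodd : Even (r + 1) := by
    rcases hr.eq_two_or_odd' with h | h
    · exact absurd h hr2
    · exact h.add_one
  rw [hodd.neg_one_pow, one_mul] at hdet
  have hpow : r ^ padicValNat r (q + 1) ∣ Fintype.card F - 1 := by
    rw [hq]
    have h1 : r ^ padicValNat r (q + 1) ∣ q + 1 := pow_padicValNat_dvd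
    have h2 : q ^ 2 - 1 = (q + 1) * (q - 1) := by
      have h5 := Nat.sq_sub_sq q 1
      simpa using h5
    rw [h2]; exact Dvd.dvd.mul_right h1 _
  have h3 := Cfsg.Agent.H48.El.pow_dvd_of_not_pow r hr _ hpow z hc (n / r) hdet.symm
  obtain ⟨m, hm⟩ := hdvd
  rw [hm, Nat.mul_div_cancel_left m hr.pos] at h3
  have h4 : r ^ (padicValNat r (q + 1) + 1) ∣ n := by
    rw [hm, pow_succ, mul_comm]; exact Nat.mul_dvd_mul_left r h3
  exact (padicValNat_dvd_iff_le hn.ne').mp h4

example : Cfsg.Agent.H42.Un.StUKumNec.{u} := uKumNec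

end Cfsg.Agent.H89.Un
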