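import Mathlib
import Cfsg.Agent.H42.UnDefs
import Cfsg.Agent.H42.UnBase
import Cfsg.Agent.H99.ElKUM

/-!
# UN-KUMPEEL (S5954): for a Kummer isometry (`T ^ r = z`, `z` not an `r`-th power) there are
invariant nondegenerate subspaces of every dimension divisible by `r`
-/

set_option autoImplicit false

namespace Cfsg.Agent.H89.Un

open Cfsg.Agent.H45 Cfsg.Agent.H42.Un

universe u v

theorem uKumPeel (hH : StUHyp.{u,v}) (hP : StUPeel.{u,v}) : StUKumPeel.{u,v} := by
  intro F _ _ q σ V _ _ _ B T hq hσ hiso r hr hrF z hz hc hT j hj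
  classical
  suffices hkey : ∀ W : Submodule F V, W ≤ ⊤ → UNd B T W → W ≠ ⊥ →
      ∃ P : Submodule F V, P ≤ W ∧ UNd B T P ∧ Module.finrank F P = r by
    obtain ⟨U, -, hU, hUr⟩ := hP F σ V B T hiso r ⊤ hiso.und_top hkey j (by rwa [finrank_top])
    exact ⟨U, hU, hUr⟩
  intro W _ hW hW0
  obtain ⟨u, huW, huu⟩ := hiso.exists_ne W hW.2 hW0
  have hWinv : ∀ v ∈ W, T v ∈ W := fun v hv => (Module.End.mem_invtSubmodule_iff_forall_mem_of_mem T).mp hW.1 v hv
  have hWpow : ∀ k : ℕ, (T ^ k) u ∈ W := by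
    intro k
    induction k with
    | zero => simpa using huW
    | succ k ih => rw [pow_succ', Module.End.mul_apply]; exact hWinv _ ih
  obtain ⟨P, hPdef⟩ : ∃ P : Submodule F V,
      P = Submodule.span F (Set.range (fun i : Fin r => (T ^ (i : ℕ)) u)) := ⟨_, rfl⟩
  have huP : u ∈ P := by
    rw [hPdef]
    apply Submodule.subset_span
    exact ⟨⟨0, hr.pos⟩, by simp⟩
  have hPW : P ≤ W := by
    rw [hPdef, Submodule.span_le]
    rintro _ ⟨i, rfl⟩
    exact hWpow i
  have hPle : P ≤ P.comap T := by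
    have huP' := huP
    rw [hPdef] at huP' ⊢
    rw [Submodule.span_le]
    rintro _ ⟨i, rfl⟩
    show T ((T ^ (i : ℕ)) u) ∈ Submodule.span F _
    by_cases hi : (i : ℕ) + 1 < r
    · apply Submodule.subset_span
      refine ⟨⟨(i : ℕ) + 1, hi⟩, ?_⟩
      simp [pow_succ', Module.End.mul_apply]
    · have hi' : (i : ℕ) + 1 = r := by have := i.2; omega
      have h1 : T ((T ^ (i : ℕ)) u) = z • u := by
        rw [← Module.End.mul_apply, ← pow_succ', hi', hT]; simp
      rw [h1]
      exact Submodule.smul_mem _ _ huP'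
  have hPinv : ∀ v ∈ P, T v ∈ P := fun v hv => hPle hv
  have hPmem : P ∈ T.invtSubmodule := by
    rw [Module.End.mem_invtSubmodule]; exact hPle
  have hdvdP : r ∣ Module.finrank F P :=
    Cfsg.Agent.H99.Kum.kummer_dvd_finrank T r hr z hc hT P hPinv
  have hleP : Module.finrank F P ≤ r := by
    rw [hPdef]
    have h2 := finrank_range_le_card (R := F) (fun i : Fin r => (T ^ (i : ℕ)) u)
    simpa [Set.finrank] using h2
  have hposP : 0 < Module.finrank F P := by
    rw [Module.finrank_pos_iff_exists_ne_zero]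
    refine ⟨⟨u, huP⟩, ?_⟩
    intro h0
    have h3 : u = 0 := congrArg Subtype.val h0
    rw [h3] at huu
    simp at huu
  have hfinP : Module.finrank F P = r := by
    obtain ⟨m, hm⟩ := hdvdP
    have hm1 : m = 1 := by
      rcases Nat.lt_or_ge m 1 with h | h
      · have h0 : m = 0 := by omega
        rw [hm, h0, mul_zero] at hposP
        exact absurd hposP (lt_irrefl 0)
      · rcases Nat.lt_or_ge 1 m with h' | h'
        · have h4 : r * 2 ≤ r * m := Nat.mul_le_mul_left r h'
          have := hr.pos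
          omega
        · omega
    rw [hm, hm1, mul_one]
  have hRinv : ∀ v ∈ P ⊓ perp B P, T v ∈ P ⊓ perp B P := by
    intro v hv
    exact ⟨hPinv v hv.1, (Module.End.mem_invtSubmodule_iff_forall_mem_of_mem T).mp (hiso.perp_invt P hPmem) v hv.2⟩
  have hdvdR := Cfsg.Agent.H99.Kum.kummer_dvd_finrank T r hr z hc hT (P ⊓ perp B P) hRinv
  have hltR : Module.finrank F ↥(P ⊓ perp B P) < Module.finrank F P := by
    apply Submodule.finrank_lt_finrank_of_lt
    refine lt_of_le_of_ne inf_le_left ?_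
    intro heq
    have h5 : u ∈ P ⊓ perp B P := by rw [heq]; exact huP
    exact huu (h5.2 u huP)
  have hR0 : Module.finrank F ↥(P ⊓ perp B P) = 0 := by
    rw [hfinP] at hltR
    exact Nat.eq_zero_of_dvd_of_lt hdvdR hltR
  exact ⟨P, hPW, ⟨hPmem, Submodule.finrank_eq_zero.mp hR0⟩, hfinP⟩

example (hH : Cfsg.Agent.H42.Un.StUHyp.{u,v}) (hP : Cfsg.Agent.H42.Un.StUPeel.{u,v}) :
    Cfsg.Agent.H42.Un.StUKumPeel.{u,v} := uKumPeel hH hP

end Cfsg.Agent.H89.Un
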