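import Mathlib
import Cfsg.Agent.H86.Ev2Defs

/-!
# EV2-SPANND (helper89 for helper86): an orthogonal family of nonsingular vectors is linearly
independent and spans a nondegenerate subspace
-/

set_option autoImplicit false

namespace Cfsg.Agent.H89.Ev2

open Cfsg.Agent.H45 Cfsg.Agent.H42.Spd Cfsg.Agent.H42.Ti Cfsg.Agent.H14.Ot Cfsg.Agent.H95.Oh
  Cfsg.Agent.H86.Ev2 Module

universe u v

/-- `B (∑ c a • w a) (w b) = c b * B (w b) (w b)` for an orthogonal family. -/
theorem orthoFam_sum_left {F : Type u} [Field F] {V : Type v} [AddCommGroup V] [Module F V]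
    (B : V →ₗ[F] V →ₗ[F] F) {n : ℕ} (w : Fin n → V) (hw : OrthoFam B w) (c : Fin n → F)
    (b : Fin n) : B (∑ a, c a • w a) (w b) = c b * B (w b) (w b) := by
  rw [map_sum, LinearMap.sum_apply, Finset.sum_eq_single b]
  · rw [map_smul, LinearMap.smul_apply, smul_eq_mul]
  · intro a _ hab
    rw [map_smul, LinearMap.smul_apply, hw.1 a b hab, smul_zero]
  · intro h
    exact absurd (Finset.mem_univ b) h

theorem spanNd : StSpanNd.{u, v} := by
  intro F _ V _ _ _ B hsymm n w hw
  have hli : LinearIndependent F w := by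
    rw [Fintype.linearIndependent_iff]
    intro c hc b
    have h1 := orthoFam_sum_left B w hw c b
    rw [hc, map_zero, LinearMap.zero_apply] at h1
    rcases mul_eq_zero.mp h1.symm with h2 | h2
    · exact h2
    · exact absurd h2 (hw.2 b)
  refine ⟨hli, ?_, ?_⟩
  · rw [finrank_span_eq_card hli, Fintype.card_fin]
  · rw [eq_bot_iff]
    intro x hx
    obtain ⟨hx1, hx2⟩ := hx
    obtain ⟨c, rfl⟩ := (Submodule.mem_span_range_iff_exists_fun F).mp hx1
    rw [Submodule.mem_bot]
    have hc : ∀ b, c b = 0 := by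
      intro b
      have h1 := orthoFam_sum_left B w hw c b
      have h2 : B (w b) (∑ a, c a • w a) = 0 :=
        (mem_perp B _ _).mp hx2 (w b) (Submodule.subset_span ⟨b, rfl⟩)
      rw [hsymm, h2] at h1
      rcases mul_eq_zero.mp h1.symm with h3 | h3
      · exact h3
      · exact absurd h3 (hw.2 b)
    simp [hc]

example : StSpanNd.{u, v} := spanNd

end Cfsg.Agent.H89.Ev2
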