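import Mathlib
import Cfsg.Agent.Lib.Helper30.BG134Defs
import Cfsg.Agent.H58.FrobWielandt
import Cfsg.Agent.H28.NormalRank2
import Cfsg.Agent.H89.OmegaFix

/-!
# BG134-LW (S1428): a Frobenius-type group `K ⋊ R` acting coprimely on a `t`-group `T` of rank
`≥ 3` (`t` odd) with `C_T(R)` and `C_T(K)` cyclic has `C_T(KR) = 1`

`W = Ω₁(Z₂(T))` is a subgroup of exponent `t` normalized by `N(T)`, of order `≥ t²`; Wielandt's
fixed point formula on `W` gives the contradiction.
-/

set_option autoImplicit false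

namespace Cfsg.Agent.H89.BG134

open Cfsg Subgroup Cfsg.Agent.Lib.Helper30.BG134
open scoped commutatorElement

universe u

section Aux

variable {G : Type u} [Group G]

/-- `Ω₁(Z₂(T))` for odd `t`: the elements `x` of `T` with `x ^ t = 1` and `[x, T] ≤ Z(T)`. -/
def omegaTwo (T : Subgroup G) (t : ℕ) (ht : Odd t) : Subgroup G where
  carrier := {x | x ∈ T ∧ x ^ t = 1 ∧ ∀ y ∈ T, ∀ z ∈ T, Commute ⁅x, y⁆ z}
  one_mem' := ⟨T.one_mem, one_pow t, fun y _ z _ => by
    rw [commutatorElement_one_left]; exact Commute.one_left z⟩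
  mul_mem' := by
    rintro a b ⟨haT, hat, hac⟩ ⟨hbT, hbt, hbc⟩
    refine ⟨T.mul_mem haT hbT, ?_, ?_⟩
    · obtain ⟨c, hc⟩ : ∃ c, c = ⁅b, a⁆ := ⟨_, rfl⟩
      have hcomm : b * a = c * a * b := by rw [hc, commutatorElement_def]; group
      have hca : Commute c a := hc ▸ hbc a haT a haT
      have hcb : Commute c b := hc ▸ hbc a haT b hbT
      have h1 := Cfsg.Agent.H89.pow_mul_of_comm a b c hcomm hcb t
      rw [hbt, one_mul, mul_one] at h1
      have hct : c ^ t = 1 := by
        have h2 : c ^ t * a = 1 * a := by rw [one_mul]; exact h1.symm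
        exact mul_right_cancel h2
      rw [Cfsg.Agent.H89.mul_pow_of_comm a b c hcomm hca hcb t, hat, hbt, one_mul, one_mul]
      obtain ⟨k, hk⟩ := ht
      have h2 : t.choose 2 = t * k := by
        rw [Nat.choose_two_right, hk]
        have h3 : (2 * k + 1) * (2 * k + 1 - 1) = 2 * ((2 * k + 1) * k) := by
          simp only [Nat.add_sub_cancel]; ring
        rw [h3, Nat.mul_div_cancel_left _ (by norm_num : 0 < 2)]
      rw [h2, pow_mul, hct, one_pow]
    · intro y hy z hz
      have h1 : ⁅a * b, y⁆ = ⁅b, y⁆ * ⁅a, y⁆ := by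
        have h2 : Commute ⁅b, y⁆ a := hbc y hy a haT
        have h3 : ⁅a * b, y⁆ = a * ⁅b, y⁆ * a⁻¹ * ⁅a, y⁆ := by
          simp only [commutatorElement_def]; group
        rw [h3, ← h2.eq, mul_inv_cancel_right]
      rw [h1]
      exact (hbc y hy z hz).mul_left (hac y hy z hz)
  inv_mem' := by
    rintro a ⟨haT, hat, hac⟩
    refine ⟨T.inv_mem haT, by rw [inv_pow, hat, inv_one], ?_⟩
    intro y hy z hz
    have h1 : ⁅a⁻¹, y⁆ = (⁅a, y⁆)⁻¹ := by
      have h2 : Commute ⁅a, y⁆ a := hac y hy a haT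
      have h3 : ⁅a⁻¹, y⁆ = a⁻¹ * (⁅a, y⁆)⁻¹ * a := by
        simp only [commutatorElement_def]; group
      rw [h3, mul_assoc, h2.inv_left.eq, inv_mul_cancel_left]
    rw [h1]
    exact (hac y hy z hz).inv_left

theorem omegaTwo_le (T : Subgroup G) (t : ℕ) (ht : Odd t) : omegaTwo T t ht ≤ T :=
  fun _ hx => hx.1

theorem normalizer_le_omegaTwo (T : Subgroup G) (t : ℕ) (ht : Odd t) :
    normalizer (T : Set G) ≤ normalizer (omegaTwo T t ht : Set G) := by
  have key : ∀ g ∈ normalizer (T : Set G), ∀ x ∈ omegaTwo T t ht,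
      g * x * g⁻¹ ∈ omegaTwo T t ht := by
    rintro g hg x ⟨hxT, hxt, hxc⟩
    have hgT : ∀ h, h ∈ T → g * h * g⁻¹ ∈ T := fun h hh =>
      ((Subgroup.mem_normalizer_iff.mp hg) h).mp hh
    have hgT' : ∀ h, h ∈ T → g⁻¹ * h * g ∈ T := fun h hh =>
      ((Subgroup.mem_normalizer_iff''.mp hg) h).mp hh
    refine ⟨hgT x hxT, by rw [conj_pow, hxt, mul_one, mul_inv_cancel], ?_⟩
    intro y hy z hz
    have h1 : ⁅g * x * g⁻¹, y⁆ = g * ⁅x, g⁻¹ * y * g⁆ * g⁻¹ := by
      simp only [commutatorElement_def]; group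
    have h2 := hxc (g⁻¹ * y * g) (hgT' y hy) (g⁻¹ * z * g) (hgT' z hz)
    rw [h1]
    have h3 : g * ⁅x, g⁻¹ * y * g⁆ * g⁻¹ * z = z * (g * ⁅x, g⁻¹ * y * g⁆ * g⁻¹) := by
      have h4 := h2.eq
      calc g * ⁅x, g⁻¹ * y * g⁆ * g⁻¹ * z
          = g * (⁅x, g⁻¹ * y * g⁆ * (g⁻¹ * z * g)) * g⁻¹ := by simp only [mul_assoc, mul_inv_cancel, mul_one]
        _ = g * ((g⁻¹ * z * g) * ⁅x, g⁻¹ * y * g⁆) * g⁻¹ := by rw [h4]
        _ = z * (g * ⁅x, g⁻¹ * y * g⁆ * g⁻¹) := by
            simp only [mul_assoc, mul_inv_cancel_left]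
    exact h3
  intro g hg
  rw [Subgroup.mem_normalizer_iff]
  intro x
  constructor
  · exact key g hg x
  · intro hx
    have h5 := key g⁻¹ (inv_mem hg) _ hx
    have h6 : g⁻¹ * (g * x * g⁻¹) * g⁻¹⁻¹ = x := by group
    rwa [h6] at h5

/-- In a finite `p`-group, a normal subgroup of order `p ^ 2` satisfies `[U, P] ≤ Z(P)`. -/
theorem comm_mem_center_of_normal_sq {P : Type*} [Group P] [Finite P] (p : ℕ) [Fact p.Prime]
    (hP : IsPGroup p P) (U : Subgroup P) [hUn : U.Normal] (hU : Nat.card U = p ^ 2) :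
    ∀ u ∈ U, ∀ y : P, ⁅u, y⁆ ∈ Subgroup.center P := by
  have hpp : p.Prime := Fact.out
  have hUbot : U ≠ ⊥ := by
    intro h
    rw [h, Subgroup.card_bot] at hU
    have := hpp.one_lt
    nlinarith
  obtain ⟨z, hzU, hzc, hz1⟩ := Cfsg.Agent.H3.normal_exists_central_order_p hP U hUbot
  have hzcen : z ∈ Subgroup.center P := hzc.1
  have hoz : orderOf z = p := orderOf_eq_prime hzc.2 hz1
  have hZle : Subgroup.zpowers z ≤ Subgroup.center P := by
    rw [Subgroup.zpowers_le]; exact hzcen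
  have hZU : Subgroup.zpowers z ≤ U := by rw [Subgroup.zpowers_le]; exact hzU
  haveI hZn : (Subgroup.zpowers z).Normal := by
    constructor
    intro n hn g
    have h1 : g * n * g⁻¹ = n := by
      have h2 := Subgroup.mem_center_iff.mp (hZle hn) g
      rw [h2, mul_inv_cancel_right]
    rw [h1]; exact hn
  obtain ⟨Ub, hUb⟩ : ∃ Ub : Subgroup (P ⧸ Subgroup.zpowers z),
      Ub = U.map (QuotientGroup.mk' (Subgroup.zpowers z)) := ⟨_, rfl⟩
  haveI hUbn : Ub.Normal := by
    rw [hUb]; exact hUn.map _ (QuotientGroup.mk'_surjective _)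
  have hcardUb : Nat.card Ub = p := by
    have h1 := Cfsg.Agent.H3.card_comap_mk' (Subgroup.zpowers z) Ub
    rw [hUb, QuotientGroup.comap_map_mk', sup_eq_right.mpr hZU, hU, Nat.card_zpowers, hoz] at h1
    have h2 : p * p = p * Nat.card (U.map (QuotientGroup.mk' (Subgroup.zpowers z))) := by
      rw [← h1]; ring
    rw [hUb]
    exact (Nat.eq_of_mul_eq_mul_left hpp.pos h2).symm
  have hQ : IsPGroup p (P ⧸ Subgroup.zpowers z) := hP.to_quotient _
  have hUbbot : Ub ≠ ⊥ := by
    intro h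
    rw [h, Subgroup.card_bot] at hcardUb
    exact hpp.one_lt.ne hcardUb
  obtain ⟨w, hwU, hwc, hw1⟩ := Cfsg.Agent.H3.normal_exists_central_order_p hQ Ub hUbbot
  have how : orderOf w = p := orderOf_eq_prime hwc.2 hw1
  have hUbeq : Subgroup.zpowers w = Ub := by
    apply Subgroup.eq_of_le_of_card_ge (by rw [Subgroup.zpowers_le]; exact hwU)
    rw [Nat.card_zpowers, how, hcardUb]
  have hUbcen : Ub ≤ Subgroup.center (P ⧸ Subgroup.zpowers z) := by
    rw [← hUbeq, Subgroup.zpowers_le]; exact hwc.1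
  intro u hu y
  have h1 : (QuotientGroup.mk' (Subgroup.zpowers z)) u ∈ Ub := by
    rw [hUb]; exact Subgroup.mem_map_of_mem _ hu
  have h2 := Subgroup.mem_center_iff.mp (hUbcen h1) ((QuotientGroup.mk' (Subgroup.zpowers z)) y)
  have h3 : (QuotientGroup.mk' (Subgroup.zpowers z)) ⁅u, y⁆ = 1 := by
    rw [map_commutatorElement, commutatorElement_eq_one_iff_commute]
    exact h2.symm
  have h4 : ⁅u, y⁆ ∈ Subgroup.zpowers z := by
    rw [← QuotientGroup.eq_one_iff]; exact h3
  exact hZle h4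

/-- A subgroup of exponent `t` of a cyclic subgroup has order at most `t`; if equal, it contains
every element of the cyclic subgroup killed by `t`. -/
theorem card_le_of_cyclic [Finite G] (B A : Subgroup G) [hB : IsCyclic B] (hAB : A ≤ B) (t : ℕ)
    (ht : 0 < t) (hA : ∀ a ∈ A, a ^ t = 1) :
    Nat.card A ≤ t ∧ (Nat.card A = t → ∀ c ∈ B, c ^ t = 1 → c ∈ A) := by
  classical
  haveI : Fintype B := Fintype.ofFinite B
  haveI : Fintype A := Fintype.ofFinite A
  obtain ⟨S, hS⟩ : ∃ S : Finset B, S = Finset.univ.filter (fun a : B => a ^ t = 1) := ⟨_, rfl⟩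
  have hScard : S.card ≤ t := by
    rw [hS]; convert IsCyclic.card_pow_eq_one_le (α := B) ht
  obtain ⟨f, hf⟩ : ∃ f : A → B, ∀ x : A, ((f x : B) : G) = (x : G) :=
    ⟨fun x => ⟨x.1, hAB x.2⟩, fun _ => rfl⟩
  have hinj : Function.Injective f := by
    intro x y hxy
    apply Subtype.ext
    rw [← hf x, ← hf y, hxy]
  have hsub : Finset.univ.image f ⊆ S := by
    intro b hb
    rw [Finset.mem_image] at hb
    obtain ⟨x, -, rfl⟩ := hb
    rw [hS, Finset.mem_filter]
    refine ⟨Finset.mem_univ _, ?_⟩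
    apply Subtype.ext
    rw [Subgroup.coe_pow, hf x, Subgroup.coe_one]
    exact hA x x.2
  have hcardimg : (Finset.univ.image f).card = Nat.card A := by
    rw [Finset.card_image_of_injective _ hinj, Finset.card_univ, Nat.card_eq_fintype_card]
  refine ⟨?_, ?_⟩
  · rw [← hcardimg]; exact (Finset.card_le_card hsub).trans hScard
  · intro hAt c hc hct
    have heq : Finset.univ.image f = S :=
      Finset.eq_of_subset_of_card_le hsub (by rw [hcardimg, hAt]; exact hScard)
    have hcS : (⟨c, hc⟩ : B) ∈ S := by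
      rw [hS, Finset.mem_filter]
      refine ⟨Finset.mem_univ _, ?_⟩
      apply Subtype.ext
      rw [Subgroup.coe_pow, Subgroup.coe_one]
      exact hct
    rw [← heq, Finset.mem_image] at hcS
    obtain ⟨x, -, hx⟩ := hcS
    have h1 : (x : G) = c := by rw [← hf x, hx]
    rw [← h1]; exact x.2

end Aux

theorem lw {G : Type u} [Group G] [Finite G] : StLW G := by
  intro K R T q t hq ht ht2 hqt hK hRp hRq hRt hT hrk hRK hKR hKT hRT hCR hCK
  classical
  haveI : Fact t.Prime := ⟨ht⟩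
  haveI : Fact q.Prime := ⟨hq⟩
  by_contra hne
  have htodd : Odd t := ht.odd_of_ne_two ht2
  obtain ⟨X, hX⟩ : ∃ X : Subgroup G,
      X = T ⊓ centralizer (K : Set G) ⊓ centralizer (R : Set G) := ⟨_, rfl⟩
  rw [← hX] at hne
  have hXT : X ≤ T := by rw [hX]; exact inf_le_left.trans inf_le_left
  have hXp : IsPGroup t X := hT.to_le hXT
  have hXnt : Nontrivial X := (Subgroup.nontrivial_iff_ne_bot X).mpr hne
  obtain ⟨n, hn0, hn⟩ := hXp.nontrivial_iff_card.mp hXnt
  have hdvd : t ∣ Nat.card X := hn ▸ dvd_pow_self _ (ne_of_gt hn0)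
  obtain ⟨c', hc'⟩ := exists_prime_orderOf_dvd_card' t hdvd
  obtain ⟨c, hcX, hc1, hct⟩ : ∃ c ∈ X, c ≠ 1 ∧ c ^ t = 1 := by
    refine ⟨c', c'.2, ?_, ?_⟩
    · intro h
      have h2 : c' = 1 := Subtype.ext h
      rw [h2, orderOf_one] at hc'
      exact ht.one_lt.ne hc'
    · have h2 := pow_orderOf_eq_one c'
      rw [hc'] at h2
      have h3 := congrArg Subtype.val h2
      simpa using h3
  have hcT : c ∈ T := hXT hcX
  have hcK : c ∈ centralizer (K : Set G) := by rw [hX] at hcX; exact hcX.1.2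
  have hcR : c ∈ centralizer (R : Set G) := by rw [hX] at hcX; exact hcX.2
  have hoc : orderOf c = t := orderOf_eq_prime hct hc1
  obtain ⟨W, hW⟩ : ∃ W : Subgroup G, W = omegaTwo T t htodd := ⟨_, rfl⟩
  have hWT : W ≤ T := by rw [hW]; exact omegaTwo_le T t htodd
  have hWt : ∀ x ∈ W, x ^ t = 1 := by rw [hW]; exact fun x hx => hx.2.1
  have hWN : normalizer (T : Set G) ≤ normalizer (W : Set G) := by
    rw [hW]; exact normalizer_le_omegaTwo T t htodd
  have hWcard : t ^ 2 ≤ Nat.card W := by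
    obtain ⟨U, hUn, hUel, hUcard⟩ := Cfsg.Agent.H28.exists_normal_elemAb_sq t hT hrk
    haveI := hUn
    have hle : U.map T.subtype ≤ W := by
      rintro _ ⟨u, hu, rfl⟩
      rw [hW]
      refine ⟨u.2, ?_, ?_⟩
      · have h1 := hUel.2 u hu
        have h2 := congrArg Subtype.val h1
        simpa using h2
      · intro y hy z hz
        have h3 := comm_mem_center_of_normal_sq t hT U hUcard u hu ⟨y, hy⟩
        have h4 := Subgroup.mem_center_iff.mp h3 ⟨z, hz⟩
        have h5 := congrArg Subtype.val h4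
        simp only [Subgroup.coe_mul, commutatorElement_def, Subgroup.coe_inv] at h5
        show ⁅T.subtype u, y⁆ * z = z * ⁅T.subtype u, y⁆
        rw [commutatorElement_def]
        exact h5.symm
    calc t ^ 2 = Nat.card U := hUcard.symm
      _ = Nat.card (U.map T.subtype) :=
          (Subgroup.card_map_of_injective T.subtype_injective).symm
      _ ≤ Nat.card W := Subgroup.card_le_of_le hle
  have hfd : Cfsg.Agent.H58.FrobWielandt.FrobData K R W := by
    refine ⟨hRK, ?_, ?_, ?_, hKT.trans hWN, hRT.trans hWN, ?_, ?_, ?_⟩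
    · haveI := hK.isNilpotent
      infer_instance
    · obtain ⟨a, ha⟩ := IsPGroup.iff_card.mp hK
      rw [ha]
      exact Nat.Coprime.pow_left _ ((Nat.coprime_primes hq hRp).mpr (Ne.symm hRq))
    · intro r hr hr1
      rw [eq_bot_iff, ← hKR]
      intro x hx
      refine ⟨hx.1, ?_⟩
      show x ∈ centralizer (R : Set G)
      rw [Subgroup.mem_centralizer_iff]
      intro s hs
      haveI : Fact (Nat.card R).Prime := ⟨hRp⟩
      have hr' : (⟨r, hr⟩ : R) ≠ 1 := fun h => hr1 (congrArg Subtype.val h)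
      have htop := zpowers_eq_top_of_prime_card (G := R) (p := Nat.card R) rfl hr'
      have hmem : (⟨s, hs⟩ : R) ∈ Subgroup.zpowers (⟨r, hr⟩ : R) := by
        rw [htop]; exact Subgroup.mem_top _
      obtain ⟨k, hk⟩ := Subgroup.mem_zpowers_iff.mp hmem
      have hk' : r ^ k = s := by
        have h1 := congrArg Subtype.val hk
        simpa using h1
      have hxr : r * x = x * r :=
        (Subgroup.mem_centralizer_iff.mp hx.2) r (Set.mem_singleton r)
      rw [← hk']
      exact (Commute.zpow_left (show Commute r x from hxr) k).eq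
    · haveI := (hT.to_le hWT).isNilpotent
      infer_instance
    · obtain ⟨a, ha⟩ := IsPGroup.iff_card.mp (hT.to_le hWT)
      obtain ⟨b, hb⟩ := IsPGroup.iff_card.mp hK
      rw [ha, hb]
      exact Nat.Coprime.pow _ _ ((Nat.coprime_primes ht hq).mpr (Ne.symm hqt))
    · obtain ⟨a, ha⟩ := IsPGroup.iff_card.mp (hT.to_le hWT)
      rw [ha]
      exact Nat.Coprime.pow_left _ ((Nat.coprime_primes ht hRp).mpr (Ne.symm hRt))
  have hform := Cfsg.Agent.H58.FrobWielandt.wielandt_formula _ G K R W rfl hfd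
  unfold Cfsg.Agent.H58.FrobWielandt.Formula at hform
  haveI := hCR
  haveI := hCK
  obtain ⟨hb1, hb2⟩ := card_le_of_cyclic (T ⊓ centralizer (R : Set G))
    (W ⊓ centralizer (R : Set G)) (inf_le_inf_right _ hWT) t ht.pos (fun a ha => hWt a ha.1)
  obtain ⟨he1, -⟩ := card_le_of_cyclic (T ⊓ centralizer (K : Set G))
    (W ⊓ centralizer (K : Set G)) (inf_le_inf_right _ hWT) t ht.pos (fun a ha => hWt a ha.1)
  have ha_le : Nat.card ↥(W ⊓ centralizer ((K ⊔ R : Subgroup G) : Set G)) ≤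
      Nat.card ↥(W ⊓ centralizer (R : Set G)) := by
    apply Subgroup.card_le_of_le
    exact inf_le_inf_left _ (Subgroup.centralizer_le
      (SetLike.coe_subset_coe.mpr (le_sup_right : R ≤ K ⊔ R)))
  have ha_pos : 0 < Nat.card ↥(W ⊓ centralizer ((K ⊔ R : Subgroup G) : Set G)) := Nat.card_pos
  have ht1 := ht.one_lt
  have hfin : Nat.card W = Nat.card ↥(W ⊓ centralizer (K : Set G)) → False := by
    intro hwe
    have h9 : t ^ 2 ≤ t := hWcard.trans (hwe ▸ he1)
    have h10 : t * t ≤ t * 1 := by rw [← sq, mul_one]; exact h9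
    have h11 := Nat.le_of_mul_le_mul_left h10 ht.pos
    omega
  rcases Nat.lt_or_ge (Nat.card ↥(W ⊓ centralizer (R : Set G))) t with hlt | hge
  · obtain ⟨j, hj⟩ := IsPGroup.iff_card.mp
      (hT.to_le ((inf_le_left : W ⊓ centralizer (R : Set G) ≤ W).trans hWT))
    have hj0 : j = 0 := by
      by_contra hj0
      have h1 : t ^ 1 ≤ t ^ j := Nat.pow_le_pow_right ht.pos (by omega)
      rw [pow_one, ← hj] at h1
      omega
    rw [hj0, pow_zero] at hj
    have ha1 : Nat.card ↥(W ⊓ centralizer ((K ⊔ R : Subgroup G) : Set G)) = 1 := by omega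
    rw [ha1, hj, one_pow, one_mul, one_mul] at hform
    exact hfin hform
  · have hbt : Nat.card ↥(W ⊓ centralizer (R : Set G)) = t := le_antisymm hb1 hge
    have hcW : c ∈ W ⊓ centralizer (R : Set G) := hb2 hbt c ⟨hcT, hcR⟩ hct
    have hcKR : c ∈ W ⊓ centralizer ((K ⊔ R : Subgroup G) : Set G) :=
      ⟨hcW.1, Cfsg.Agent.H58.FrobWielandt.mem_centralizer_sup hcK hcR⟩
    have hat : Nat.card ↥(W ⊓ centralizer ((K ⊔ R : Subgroup G) : Set G)) = t := by
      apply le_antisymm (hbt ▸ ha_le)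
      have h1 : Subgroup.zpowers c ≤ W ⊓ centralizer ((K ⊔ R : Subgroup G) : Set G) := by
        rw [Subgroup.zpowers_le]; exact hcKR
      have h2 := Subgroup.card_le_of_le h1
      rwa [Nat.card_zpowers, hoc] at h2
    rw [hat, hbt] at hform
    exact hfin (Nat.eq_of_mul_eq_mul_left (pow_pos ht.pos _) hform)

example {G : Type u} [Group G] [Finite G] : Cfsg.Agent.Lib.Helper30.BG134.StLW G := lw

end Cfsg.Agent.H89.BG134
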