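import Mathlib
import Cfsg.Agent.H86.Ev2Defs
import Cfsg.Agent.H89.Ev2SpanNd

/-!
# EV2-DISCINV (helper89 for helper86): isometric spans of two orthogonal families of nonsingular
vectors have discriminants in the same square class (`diag d = P * diag d' * Pᵀ`)
-/

set_option autoImplicit false

namespace Cfsg.Agent.H89.Ev2

open Cfsg.Agent.H45 Cfsg.Agent.H42.Spd Cfsg.Agent.H42.Ti Cfsg.Agent.H14.Ot Cfsg.Agent.H95.Oh
  Cfsg.Agent.H86.Ev2 Module

universe u v

theorem discInv : StDiscInv.{u, v} := by
  intro F _ V _ _ _ B hsymm n w w' hw hw' he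
  classical
  obtain ⟨e, he⟩ := he
  -- coordinates of the images of the `w a` in the family `w'`
  have hex : ∀ a : Fin n, ∃ c : Fin n → F,
      ∑ b, c b • w' b = ((e ⟨w a, Submodule.subset_span ⟨a, rfl⟩⟩ :
        ↥(Submodule.span F (Set.range w'))) : V) := by
    intro a
    exact (Submodule.mem_span_range_iff_exists_fun F).mp (e ⟨w a, Submodule.subset_span ⟨a, rfl⟩⟩).2
  choose P hP using hex
  have hB : ∀ a c : Fin n, B (w a) (w c) = ∑ b, P a b * B (w' b) (w' b) * P c b := by
    intro a c
    have h1 := he ⟨w a, Submodule.subset_span ⟨a, rfl⟩⟩ ⟨w c, Submodule.subset_span ⟨c, rfl⟩⟩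
    rw [← hP a, ← hP c] at h1
    rw [← h1, map_sum]
    refine Finset.sum_congr rfl fun b _ => ?_
    rw [map_smul, smul_eq_mul, orthoFam_sum_left B w' hw' (P a) b]
    ring
  have hmat : Matrix.diagonal (fun a => B (w a) (w a))
      = Matrix.of P * Matrix.diagonal (fun b => B (w' b) (w' b)) * (Matrix.of P).transpose := by
    ext a c
    rw [Matrix.mul_apply]
    simp only [Matrix.mul_diagonal, Matrix.transpose_apply, Matrix.of_apply]
    rw [← hB a c]
    by_cases hac : a = c
    · rw [hac, Matrix.diagonal_apply_eq]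
    · rw [Matrix.diagonal_apply_ne _ hac, hw.1 a c hac]
  have hdet := congrArg Matrix.det hmat
  rw [Matrix.det_diagonal, Matrix.det_mul, Matrix.det_mul, Matrix.det_diagonal,
    Matrix.det_transpose] at hdet
  refine ⟨(Matrix.of P).det * ∏ a, B (w' a) (w' a), ?_⟩
  rw [hdet]
  ring

example : StDiscInv.{u, v} := discInv

end Cfsg.Agent.H89.Ev2
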