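import Mathlib
import Cfsg.Agent.H86.Ev2Defs

/-!
# EV2-JEVEN (helper89 for helper86): if `-1` is not a square, every subspace invariant under a
`T` with `T * T = -1` has even dimension (determinant of the restriction)
-/

set_option autoImplicit false

namespace Cfsg.Agent.H89.Ev2

open Cfsg.Agent.H45 Cfsg.Agent.H42.Spd Cfsg.Agent.H42.Ti Cfsg.Agent.H14.Ot Cfsg.Agent.H95.Oh
  Cfsg.Agent.H86.Ev2 Module

universe u v

theorem jEven : StJEven.{u, v} := by
  intro F _ V _ _ _ T hT hsq W hW
  have hW' : ∀ x ∈ W, T x ∈ W := (Module.End.mem_invtSubmodule_iff_forall_mem_of_mem T).mp hW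
  obtain ⟨T', hT'⟩ : ∃ T' : Module.End F W, ∀ x : W, ((T' x : W) : V) = T (x : V) :=
    ⟨T.restrict hW', fun _ => rfl⟩
  have hT'2 : T' * T' = (-1 : F) • (1 : Module.End F W) := by
    ext x
    rw [Module.End.mul_apply, hT', hT']
    have h1 : T (T (x : V)) = -(x : V) := by
      have h2 := LinearMap.congr_fun hT (x : V)
      rw [Module.End.mul_apply] at h2
      rw [h2]
      simp
    rw [h1]
    simp
  have hdet : LinearMap.det T' * LinearMap.det T' = (-1 : F) ^ Module.finrank F W := by
    rw [← map_mul, hT'2, LinearMap.det_smul, map_one, mul_one]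
  by_contra hodd
  rw [Nat.not_even_iff_odd] at hodd
  rw [Odd.neg_one_pow hodd] at hdet
  exact hsq ⟨LinearMap.det T', hdet.symm⟩

example : StJEven.{u, v} := jEven

end Cfsg.Agent.H89.Ev2
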