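import Mathlib
import Cfsg.Agent.H86.Ev2Defs
import Cfsg.Agent.H49.Spinor
import Cfsg.Agent.H49.GeoGlue

/-!
# EV2-JSPIN (helper89 for helper86): an isometry `x` with `x * x = -1` lies in `Ω` iff
`2 ^ (dim / 2)` is a square

With the planes `⟨v j, x v j⟩` of EV2-JPLANES: `x = ∏_j r_{v j} r_{v j - x v j}`, a product of
`2 n` reflections whose norms multiply to `2 ^ n (∏ Q (v j))²`; conclude with the spinor norm
criterion of helper49.
-/

set_option autoImplicit false

namespace Cfsg.Agent.H89.Ev2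

open Cfsg.Agent.H86.Ev2 Module Matrix

universe u

/-- Products over a list of consecutive pairs. -/
theorem flatMap_pair_prod {α β κ : Type*} [Monoid β] (f : α → β) (a b : κ → α) (l : List κ) :
    ((l.flatMap fun j => [a j, b j]).map f).prod = (l.map fun j => f (a j) * f (b j)).prod := by
  induction l with
  | nil => simp
  | cons j l ih =>
    rw [List.flatMap_cons, List.map_append, List.prod_append, ih, List.map_cons, List.prod_cons]
    simp [mul_assoc]

theorem flatMap_pair_length {α κ : Type*} (a b : κ → α) (l : List κ) :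
    (l.flatMap fun j => [a j, b j]).length = 2 * l.length := by
  induction l with
  | nil => simp
  | cons j l ih =>
    rw [List.flatMap_cons, List.length_append, ih, List.length_cons]
    simp
    omega

theorem jSpin (hP : StJPlanes.{u}) : StJSpin.{u} := by
  intro F _ _ ι _ _ Q h2 hnd x hx hxx
  classical
  obtain ⟨n, v, hcard, hQv, horth, hsup⟩ := hP F ι Q h2 hnd x hx hxx
  obtain ⟨xm, hxm⟩ : ∃ xm : Matrix ι ι F, xm = (x : Matrix ι ι F) := ⟨_, rfl⟩
  rw [← hxm] at hxx horth hsup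
  -- basic facts on `y ↦ xm *ᵥ y`
  have hTT : ∀ y : ι → F, xm *ᵥ (xm *ᵥ y) = -y := by
    intro y
    rw [Matrix.mulVec_mulVec, hxx, Matrix.neg_mulVec, Matrix.one_mulVec]
  have hTQ : ∀ y : ι → F, Q (xm *ᵥ y) = Q y := by
    intro y
    rw [hxm]
    exact (Cfsg.Agent.H49.mem_isometryGroup_iff).mp hx y
  have hTpol : ∀ y y' : ι → F,
      QuadraticMap.polar (⇑Q) (xm *ᵥ y) (xm *ᵥ y') = QuadraticMap.polar (⇑Q) y y' := by
    intro y y'
    unfold QuadraticMap.polar
    rw [← Matrix.mulVec_add, hTQ, hTQ, hTQ]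
  have hself : ∀ y : ι → F, QuadraticMap.polar (⇑Q) y (xm *ᵥ y) = 0 := by
    intro y
    have h1 := hTpol y (xm *ᵥ y)
    rw [hTT, QuadraticMap.polar_neg_right, QuadraticMap.polar_comm] at h1
    have h3 : (2 : F) * QuadraticMap.polar (⇑Q) y (xm *ᵥ y) = 0 := by linear_combination -h1
    rcases mul_eq_zero.mp h3 with h | h
    · exact absurd h h2
    · exact h
  have hself' : ∀ y : ι → F, QuadraticMap.polar (⇑Q) (xm *ᵥ y) y = 0 := by
    intro y
    rw [QuadraticMap.polar_comm]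
    exact hself y
  have hpolself : ∀ y : ι → F, QuadraticMap.polar (⇑Q) y y = 2 * Q y := by
    intro y
    rw [QuadraticMap.polar_self]
    simp [two_mul]
  -- the second vectors
  obtain ⟨b, hb⟩ : ∃ b : Fin n → ι → F, ∀ j, b j = v j - xm *ᵥ v j :=
    ⟨fun j => v j - xm *ᵥ v j, fun _ => rfl⟩
  have hQb : ∀ j, Q (b j) = 2 * Q (v j) := by
    intro j
    have h1 : QuadraticMap.polar (⇑Q) (v j) (-(xm *ᵥ v j))
        = Q (v j + -(xm *ᵥ v j)) - Q (v j) - Q (-(xm *ᵥ v j)) := rfl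
    rw [QuadraticMap.polar_neg_right, hself, neg_zero, QuadraticMap.map_neg, hTQ,
      ← sub_eq_add_neg, ← hb] at h1
    linear_combination -h1
  have hQv2 : ∀ j, (2 : F) * Q (v j) ≠ 0 := fun j => mul_ne_zero h2 (hQv j)
  have hQb0 : ∀ j, Q (b j) ≠ 0 := fun j => by rw [hQb]; exact hQv2 j
  have hpb_a : ∀ j, QuadraticMap.polar (⇑Q) (b j) (v j) = 2 * Q (v j) := by
    intro j
    rw [hb, QuadraticMap.polar_sub_left, hpolself, hself', sub_zero]
  have hpb_Ta : ∀ j, QuadraticMap.polar (⇑Q) (b j) (xm *ᵥ v j) = -(2 * Q (v j)) := by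
    intro j
    rw [hb, QuadraticMap.polar_sub_left, hself, hpolself, hTQ, zero_sub]
  have hpb_ak : ∀ j k, j ≠ k → QuadraticMap.polar (⇑Q) (b j) (v k) = 0 := by
    intro j k hjk
    rw [hb, QuadraticMap.polar_sub_left, (horth j k hjk).1,
      QuadraticMap.polar_comm (⇑Q) (xm *ᵥ v j) (v k), (horth k j (Ne.symm hjk)).2, sub_zero]
  have hpb_Tak : ∀ j k, j ≠ k → QuadraticMap.polar (⇑Q) (b j) (xm *ᵥ v k) = 0 := by
    intro j k hjk
    rw [hb, QuadraticMap.polar_sub_left, (horth j k hjk).2, hTpol, (horth j k hjk).1, sub_zero]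
  -- the products of two reflections
  obtain ⟨M, hM⟩ : ∃ M : Fin n → Matrix ι ι F, ∀ j,
      M j = Cfsg.reflectionMatrix (⇑Q) (v j) * Cfsg.reflectionMatrix (⇑Q) (b j) :=
    ⟨_, fun _ => rfl⟩
  have hMapp : ∀ j (y : ι → F), M j *ᵥ y
      = Cfsg.reflectionMatrix (⇑Q) (v j) *ᵥ (Cfsg.reflectionMatrix (⇑Q) (b j) *ᵥ y) := by
    intro j y
    rw [hM, Matrix.mulVec_mulVec]
  have hfix : ∀ (u y : ι → F), QuadraticMap.polar (⇑Q) u y = 0 →
      Cfsg.reflectionMatrix (⇑Q) u *ᵥ y = y := by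
    intro u y h
    rw [Cfsg.Agent.H49.reflectionMatrix_mulVec, h, mul_zero, zero_smul, sub_zero]
  have hA1 : ∀ j k, j ≠ k → M j *ᵥ v k = v k := by
    intro j k hjk
    rw [hMapp, hfix (b j) _ (hpb_ak j k hjk), hfix (v j) _ (horth j k hjk).1]
  have hA2 : ∀ j k, j ≠ k → M j *ᵥ (xm *ᵥ v k) = xm *ᵥ v k := by
    intro j k hjk
    rw [hMapp, hfix (b j) _ (hpb_Tak j k hjk), hfix (v j) _ (horth j k hjk).2]
  have hB1 : ∀ k, M k *ᵥ v k = xm *ᵥ v k := by
    intro k
    have e1 : Cfsg.reflectionMatrix (⇑Q) (b k) *ᵥ v k = xm *ᵥ v k := by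
      rw [Cfsg.Agent.H49.reflectionMatrix_mulVec, hpb_a, hQb, inv_mul_cancel₀ (hQv2 k),
        one_smul, hb]
      abel
    rw [hMapp, e1, Cfsg.Agent.H49.reflectionMatrix_mulVec, hself, mul_zero, zero_smul, sub_zero]
  have hB2 : ∀ k, M k *ᵥ (xm *ᵥ v k) = -v k := by
    intro k
    have e1 : Cfsg.reflectionMatrix (⇑Q) (b k) *ᵥ (xm *ᵥ v k) = v k := by
      rw [Cfsg.Agent.H49.reflectionMatrix_mulVec, hpb_Ta, hQb, mul_neg,
        inv_mul_cancel₀ (hQv2 k), neg_smul, one_smul, hb]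
      abel
    have e2 : (Q (v k))⁻¹ * (2 * Q (v k)) = 2 := by
      field_simp [hQv k]
    rw [hMapp, e1, Cfsg.Agent.H49.reflectionMatrix_mulVec, hpolself, e2, two_smul]
    abel
  -- products along a list of indices
  have hL1 : ∀ l : List (Fin n), ∀ k, k ∉ l →
      (l.map M).prod *ᵥ v k = v k ∧ (l.map M).prod *ᵥ (xm *ᵥ v k) = xm *ᵥ v k := by
    intro l
    induction l with
    | nil =>
      intro k _
      simp
    | cons j l ih =>
      intro k hk
      rw [List.mem_cons, not_or] at hk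
      obtain ⟨h1, h2'⟩ := ih k hk.2
      rw [List.map_cons, List.prod_cons, ← Matrix.mulVec_mulVec, ← Matrix.mulVec_mulVec, h1, h2']
      exact ⟨hA1 j k (Ne.symm hk.1), hA2 j k (Ne.symm hk.1)⟩
  have hL2 : ∀ l : List (Fin n), l.Nodup → ∀ k, k ∈ l →
      (l.map M).prod *ᵥ v k = xm *ᵥ v k ∧ (l.map M).prod *ᵥ (xm *ᵥ v k) = -v k := by
    intro l
    induction l with
    | nil =>
      intro _ k hk
      simp at hk
    | cons j l ih =>
      intro hnd' k hk
      rw [List.nodup_cons] at hnd'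
      rw [List.map_cons, List.prod_cons, ← Matrix.mulVec_mulVec, ← Matrix.mulVec_mulVec]
      rcases List.mem_cons.mp hk with hkj | hk'
      · rw [hkj]
        obtain ⟨h1, h2'⟩ := hL1 l j hnd'.1
        rw [h1, h2']
        exact ⟨hB1 j, hB2 j⟩
      · have hjk : j ≠ k := fun h => hnd'.1 (h ▸ hk')
        obtain ⟨h1, h2'⟩ := ih hnd'.2 k hk'
        rw [h1, h2', Matrix.mulVec_neg, hA1 j k hjk]
        exact ⟨hA2 j k hjk, rfl⟩
  obtain ⟨X, hX⟩ : ∃ X : Matrix ι ι F, X = ((List.finRange n).map M).prod := ⟨_, rfl⟩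
  have hXv : ∀ k, X *ᵥ v k = xm *ᵥ v k ∧ X *ᵥ (xm *ᵥ v k) = xm *ᵥ (xm *ᵥ v k) := by
    intro k
    obtain ⟨h1, h2'⟩ := hL2 (List.finRange n) (List.nodup_finRange n) k (List.mem_finRange k)
    rw [hX, h1, h2', hTT]
    exact ⟨rfl, rfl⟩
  have hxX : xm = X := by
    apply Cfsg.Agent.H49.matrix_ext_mulVec
    intro y
    have hle : (⨆ j, Submodule.span F {v j, xm *ᵥ v j})
        ≤ LinearMap.eqLocus (Matrix.toLin' xm) (Matrix.toLin' X) := by
      apply iSup_le
      intro j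
      rw [Submodule.span_le]
      intro z hz
      rw [Set.mem_insert_iff, Set.mem_singleton_iff] at hz
      rw [SetLike.mem_coe, LinearMap.mem_eqLocus, Matrix.toLin'_apply, Matrix.toLin'_apply]
      rcases hz with hz | hz
      · rw [hz, (hXv j).1]
      · rw [hz, (hXv j).2]
    have hy : y ∈ LinearMap.eqLocus (Matrix.toLin' xm) (Matrix.toLin' X) :=
      hle (by rw [hsup]; exact Submodule.mem_top)
    rw [LinearMap.mem_eqLocus, Matrix.toLin'_apply, Matrix.toLin'_apply] at hy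
    exact hy
  -- the list of reflection vectors
  obtain ⟨vs, hvs⟩ : ∃ vs : List (ι → F),
      vs = (List.finRange n).flatMap (fun j => [v j, b j]) := ⟨_, rfl⟩
  have hvsne : ∀ w ∈ vs, Q w ≠ 0 := by
    intro w hw
    rw [hvs, List.mem_flatMap] at hw
    obtain ⟨j, -, hj⟩ := hw
    simp only [List.mem_cons, List.not_mem_nil, or_false] at hj
    rcases hj with hj | hj
    · rw [hj]
      exact hQv j
    · rw [hj]
      exact hQb0 j
  have hprodM : (vs.map (fun w => Cfsg.reflectionMatrix (⇑Q) w)).prod = X := by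
    rw [hvs, flatMap_pair_prod (fun w => Cfsg.reflectionMatrix (⇑Q) w) v b, hX]
    congr 1
    apply List.map_congr_left
    intro j _
    exact (hM j).symm
  have hlen : vs.length = 2 * n := by
    rw [hvs, flatMap_pair_length, List.length_finRange]
  have hprodQ : (vs.map (fun w => Q w)).prod = 2 ^ n * (∏ j, Q (v j)) ^ 2 := by
    rw [hvs, flatMap_pair_prod (fun w => Q w) v b, ← Fin.prod_univ_def]
    have e : ∀ j : Fin n, Q (v j) * Q (b j) = 2 * Q (v j) ^ 2 := fun j => by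
      rw [hQb]
      ring
    simp only [e]
    rw [Finset.prod_mul_distrib, Finset.prod_const, Finset.card_univ, Fintype.card_fin,
      Finset.prod_pow]
  obtain ⟨g, hg⟩ : ∃ g : ↥(Cfsg.isometryGroup F (⇑Q)),
      (g : Matrix.GeneralLinearGroup ι F) = x := ⟨⟨x, hx⟩, rfl⟩
  have hgm : ((g : Matrix.GeneralLinearGroup ι F) : Matrix ι ι F)
      = (vs.map (fun w => Cfsg.reflectionMatrix (⇑Q) w)).prod := by
    rw [hg, hprodM, ← hxX, hxm]
  have hcrit := Cfsg.Agent.H49.mem_commutator_iff_of_prod_refl Q h2 g vs hvsne hgm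
  have hc0 : (∏ j, Q (v j)) ≠ 0 := Finset.prod_ne_zero_iff.mpr (fun j _ => hQv j)
  have hn2 : Fintype.card ι / 2 = n := by
    rw [hcard]
    omega
  rw [hn2, Cfsg.Agent.H49.mem_omegaGL_iff]
  constructor
  · rintro ⟨g', hg', hg'x⟩
    have hgg : g' = g := Subtype.ext (by rw [hg'x, hg])
    rw [hgg] at hg'
    obtain ⟨-, r, hr⟩ := hcrit.mp hg'
    rw [hprodQ] at hr
    refine ⟨r / (∏ j, Q (v j)), ?_⟩
    field_simp
    linear_combination hr
  · rintro ⟨s, hs⟩
    refine ⟨g, hcrit.mpr ⟨?_, ?_⟩, hg⟩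
    · rw [hlen]
      exact even_two_mul n
    · rw [hprodQ, hs]
      exact ⟨s * ∏ j, Q (v j), by ring⟩

example (hP : StJPlanes.{u}) : StJSpin.{u} := jSpin hP

end Cfsg.Agent.H89.Ev2
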