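import Cfsg.Agent.H89.JtOdd2Core
import Cfsg.Agent.H16.JtSum
import Cfsg.Agent.H64.JtOdd1

/-!
# helper89: piece JT-ODD2 of helper42's project S5996/S5995

Two odd Jordan blocks on the hyperbolic space.
-/

set_option autoImplicit false

namespace Cfsg.Agent.H89.Jt

open Cfsg.Agent.H42.Jt

/-- **JT-ODD2**. -/
theorem HD_odd_pair {F : Type*} [Field F] (h2 : (2 : F) ≠ 0) (t₁ t₂ : ℕ) :
    HD (Cfsg.quadFormPlus (t₁ + t₂ + 1) F) {2 * t₁ + 1, 2 * t₂ + 1} :=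
  HD_odd_pair_of h2 t₁ t₂ (fun γ hγ t => Cfsg.Agent.H64.Jt.HD_odd_single h2 γ hγ t)
    (fun Q₁ Q₂ μ₁ μ₂ h₁ h₂ => Cfsg.Agent.H16.Jt.HD_sum Q₁ Q₂ μ₁ μ₂ h₁ h₂)
    (fun Q Q' Φ hΦ μ h => Cfsg.Agent.H16.Jt.HD_transport Q Q' Φ hΦ μ h)

end Cfsg.Agent.H89.Jt
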