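import Mathlib
import Cfsg.Agent.H79.BrDefs
import Cfsg.Agent.H4.Chars
import Cfsg.Agent.H4.Irr
import Cfsg.Agent.H4.RealClasses
import Cfsg.Agent.H82.Irr
import Cfsg.Agent.H82.P1J

/-!
# S4504-TRIV3 (helper89 for helper79)

For `p ≡ 3 (mod 4)` the faithful character `χ` is trivial on the centre: the exceptional
character `θ₂` (trivial on the centre, with the values of `χ` on `x₁, x₂` swapped) is the
complex conjugate of `χ`, by the positivity of the `L`-functional on `χ · θ₂`.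
-/

set_option autoImplicit false

namespace Cfsg.Agent.H89.Br

open Cfsg Cfsg.Agent.H79.Br
open scoped ComplexConjugate

universe u

theorem triv3 (hE : StExc3.{u}) (hL : StDecL0.{u}) : StTriv3.{u} := by
  intro G _ _ p _ P χ x₁ x₂ hloc hp3 z hz
  classical
  haveI := Fintype.ofFinite G
  obtain ⟨θ₂, hθOv, hθ1, hθ2, hθdeg⟩ := hE p P χ x₁ x₂ hloc hp3
  obtain ⟨χI, hχI⟩ : ∃ χI : IrrCharacter G, χI.1 = χ := ⟨⟨χ, hloc.irr⟩, rfl⟩
  -- `χ x₂ = conj (χ x₁)`
  have hconj : χ x₂ = conj (χ x₁) := by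
    obtain ⟨c, hc⟩ := isConj_iff.mp (hloc.grp.par3 hp3)
    have h1 : χI.1 (c * x₁⁻¹ * c⁻¹) = χI.1 x₁⁻¹ := Cfsg.Agent.H82.irr_conj χI x₁⁻¹ c
    have h2 : χI.1 x₁⁻¹ = conj (χI.1 x₁) := Cfsg.Agent.H82.irr_inv χI x₁
    rw [hc, hχI] at h1
    rw [hχI] at h2
    rw [h1, h2]
  have hsq : χ x₁ * χ x₂ + χ x₂ * χ x₁ = (charDegree χ : ℂ) + 1 := by
    have h := hloc.sq
    rw [hconj, Complex.conj_conj] at h
    rw [hconj]
    exact h
  have hχ1 : χ 1 = (charDegree χ : ℂ) := by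
    have h := Cfsg.Agent.H82.irr_one_eq_charDegree χI
    rw [hχI] at h
    exact h
  have hθ1' : θ₂.1 1 = (charDegree χ : ℂ) := by
    have h := Cfsg.Agent.H82.irr_one_eq_charDegree θ₂
    rw [hθdeg] at h
    exact h
  have hp : (p : ℂ) = 2 * (charDegree χ : ℂ) + 1 := by
    have h := hloc.deg
    rw [← h]
    push_cast
    ring
  -- the product character
  have hΞchar : IsCharacter G (χ * θ₂.1) :=
    Cfsg.Agent.H4.isCharacter_mul (Cfsg.Agent.H4.isCharacter_of_isIrrCharacter hloc.irr)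
      (Cfsg.Agent.H4.isCharacter_of_isIrrCharacter θ₂.2)
  obtain ⟨m, hm⟩ := Cfsg.Agent.H4.isCharacter_iff.mp hΞchar
  obtain ⟨triv, htriv⟩ : ∃ t : IrrCharacter G, t.1 = 1 :=
    ⟨⟨1, Cfsg.Agent.H82.P1.isIrr_one_fun G⟩, rfl⟩
  have hLval : ((charDegree χ : ℂ) + 1) * ((χ * θ₂.1) x₁ + (χ * θ₂.1) x₂) - (χ * θ₂.1) 1
      = (p : ℂ) := by
    simp only [Pi.mul_apply]
    rw [hθ1, hθ2, hθ1', hχ1, hp]
    linear_combination ((charDegree χ : ℂ) + 1) * hsq
  have hpos : 0 < (((charDegree χ : ℂ) + 1) * ((χ * θ₂.1) x₁ + (χ * θ₂.1) x₂)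
      - (χ * θ₂.1) 1).re := by
    rw [hLval, Complex.natCast_re]
    have : 5 ≤ p := hloc.five
    exact_mod_cast (by omega : 0 < p)
  have hmne : m triv ≠ 0 := hL p P χ x₁ x₂ hloc m (χ * θ₂.1) hm triv htriv hpos
  have hinner : classInner (χ * θ₂.1) triv.1 = (m triv : ℂ) := by
    have h := Cfsg.Agent.H4.classInner_finsum_irr (fun ψ : IrrCharacter G => (m ψ : ℂ)) triv
    rw [← hm] at h
    exact h
  obtain ⟨χc, hχc⟩ : ∃ χc : IrrCharacter G, χc.1 = fun g => conj (χ g) :=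
    ⟨⟨fun g => conj (χ g), Cfsg.Agent.H4.isIrrCharacter_conj hloc.irr⟩, rfl⟩
  have hinner2 : classInner (χ * θ₂.1) triv.1 = classInner θ₂.1 χc.1 := by
    unfold classInner
    congr 1
    refine Finset.sum_congr rfl fun g _ => ?_
    rw [htriv, hχc]
    simp only [Pi.mul_apply, Pi.one_apply, map_one, Complex.conj_conj]
    ring
  have hθeq : θ₂ = χc := by
    by_contra hne
    have h0 := Cfsg.Agent.H4.irr_inner_ne hne
    rw [← hinner2, hinner] at h0
    exact hmne (by exact_mod_cast h0)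
  have hz' := hθOv z hz
  rw [hθeq, hχc] at hz'
  simp only [Pi.one_apply, mul_one, one_mul] at hz'
  exact (starRingEnd ℂ).injective hz'

example : StExc3.{u} → StDecL0.{u} → StTriv3.{u} := triv3

end Cfsg.Agent.H89.Br
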