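import Mathlib
import Cfsg.Agent.H81.CycDefs

/-!
S1502-ASM piece (team project S1502 of helper81): a combinatorial array with marked row
coordinates `a i` and column coordinates `b j` has the standard shape.
-/

set_option autoImplicit false

namespace Cfsg.Agent.H89.Cyc

open Cfsg Cfsg.Agent.H81.Cyc

universe u

/-- Three distinct support coordinates of a vector with `Supp3` exhaust its support. -/
theorem supp_three {ι : Type u} {v : ι → ℤ} (hs : Supp3 v) {x y z : ι} (hx : v x ≠ 0)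
    (hy : v y ≠ 0) (hz : v z ≠ 0) (hxy : x ≠ y) (hxz : x ≠ z) (hyz : y ≠ z) :
    ∀ t, v t ≠ 0 → x = t ∨ y = t ∨ z = t := by
  obtain ⟨t₁, t₂, t₃, d12, d13, d23, h⟩ := hs
  intro t ht
  have h1 := (h x).mp hx
  have h2 := (h y).mp hy
  have h3 := (h z).mp hz
  have h4 := (h t).mp ht
  rcases h1 with h1 | h1 | h1 <;> rcases h2 with h2 | h2 | h2 <;> rcases h3 with h3 | h3 | h3 <;>
    rcases h4 with h4 | h4 | h4 <;> subst h1 <;> subst h2 <;> subst h3 <;> subst h4 <;>
    simp_all

/-- A third support coordinate. -/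
theorem exists_third {ι : Type u} {v : ι → ℤ} (hs : Supp3 v) {p q : ι} (hp : v p ≠ 0)
    (hq : v q ≠ 0) : ∃ c, c ≠ p ∧ c ≠ q ∧ v c ≠ 0 := by
  obtain ⟨t₁, t₂, t₃, d12, d13, d23, h⟩ := hs
  have h1 : v t₁ ≠ 0 := (h t₁).mpr (Or.inl rfl)
  have h2 : v t₂ ≠ 0 := (h t₂).mpr (Or.inr (Or.inl rfl))
  have h3 : v t₃ ≠ 0 := (h t₃).mpr (Or.inr (Or.inr rfl))
  by_cases c1 : t₁ ≠ p ∧ t₁ ≠ q
  · exact ⟨t₁, c1.1, c1.2, h1⟩
  by_cases c2 : t₂ ≠ p ∧ t₂ ≠ q
  · exact ⟨t₂, c2.1, c2.2, h2⟩
  by_cases c3 : t₃ ≠ p ∧ t₃ ≠ q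
  · exact ⟨t₃, c3.1, c3.2, h3⟩
  exfalso
  have e1 : t₁ = p ∨ t₁ = q := by
    by_contra hc
    push Not at hc
    exact c1 hc
  have e2 : t₂ = p ∨ t₂ = q := by
    by_contra hc
    push Not at hc
    exact c2 hc
  have e3 : t₃ = p ∨ t₃ = q := by
    by_contra hc
    push Not at hc
    exact c3 hc
  rcases e1 with e1 | e1 <;> rcases e2 with e2 | e2 <;> rcases e3 with e3 | e3 <;>
    first
    | exact d12 (e1.trans e2.symm)
    | exact d13 (e1.trans e3.symm)
    | exact d23 (e2.trans e3.symm)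

theorem val_pm {ι : Type u} {v : ι → ℤ} (hv : Val v) {t : ι} (ht : v t ≠ 0) :
    v t = 1 ∨ v t = -1 := by
  rcases hv t with h | h | h
  · exact absurd h ht
  · exact Or.inl h
  · exact Or.inr h

/-- Non-mates cannot have exactly one common support coordinate. -/
theorem nonmate_false {ι : Type u} {v w : ι → ℤ} (n : NonMate v w) {c : ι} (hv : v c ≠ 0)
    (hw : w c ≠ 0) (hcommon : ∀ s, v s ≠ 0 → w s ≠ 0 → s = c) : False := by
  rcases n with h | ⟨t, r, htr, h1, h2, h3, h4, -⟩
  · rcases h c with h | h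
    · exact hv h
    · exact hw h
  · have ht : t = c := hcommon t h1 (by rw [← h2]; exact h1)
    have hr : r = c := hcommon r h3 (by
      intro h0
      rw [h0, neg_zero] at h4
      exact h3 h4)
    exact htr (ht.trans hr.symm)

theorem asm : StmtAsm.{u} := by
  intro I J ι X hX hI hJ a b hA1 hA2 hB1 hB2
  obtain ⟨i₀⟩ := hI
  obtain ⟨j₀⟩ := hJ
  have hrow : ∀ i j l, j ≠ l → ∀ s, s ≠ a i → X i j s = 0 ∨ X i l s = 0 := fun i j l hjl =>
    ((hX.row i j l hjl).at (hA1 i j) (hA1 i l)).2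
  have hroweq : ∀ i j l, X i j (a i) = X i l (a i) := by
    intro i j l
    by_cases hjl : j = l
    · rw [hjl]
    · exact ((hX.row i j l hjl).at (hA1 i j) (hA1 i l)).1
  have hcol : ∀ i k j, i ≠ k → ∀ s, s ≠ b j → X i j s = 0 ∨ X k j s = 0 := fun i k j hik =>
    ((hX.col i k j hik).at (hB1 i j) (hB1 k j)).2
  have hcoleq : ∀ i k j, X i j (b j) = X k j (b j) := by
    intro i k j
    by_cases hik : i = k
    · rw [hik]
    · exact ((hX.col i k j hik).at (hB1 i j) (hB1 k j)).1
  have hbz : ∀ k j l, j ≠ l → X k l (b j) = 0 := by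
    intro k j l hjl
    rcases hrow k j l hjl (b j) (hB2 k j) with h | h
    · exact absurd h (hB1 k j)
    · exact h
  have hthird : ∀ i j, ∃ c, c ≠ a i ∧ c ≠ b j ∧ X i j c ≠ 0 := fun i j =>
    exists_third (hX.supp i j) (hA1 i j) (hB1 i j)
  choose c hc1 hc2 hc3 using hthird
  have hsupp : ∀ i j t, X i j t ≠ 0 → a i = t ∨ b j = t ∨ c i j = t := fun i j =>
    supp_three (hX.supp i j) (hA1 i j) (hB1 i j) (hc3 i j) (fun h => hB2 i j h.symm)
      (hc1 i j).symm (hc2 i j).symm
  refine ⟨a, b, c, fun i => X i j₀ (a i), fun j => X i₀ j (b j), fun i j => X i j (c i j),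
    ?_, ?_, ?_, ?_, ?_, ?_, ?_, ?_, ?_, ?_, ?_, ?_, ?_⟩
  · exact fun i => val_pm (hX.val i j₀) (hA1 i j₀)
  · exact fun j => val_pm (hX.val i₀ j) (hB1 i₀ j)
  · exact fun i j => val_pm (hX.val i j) (hc3 i j)
  · intro i k hik
    by_contra hne
    have h0 := hA2 i k hne j₀
    rw [← hik] at h0
    exact hA1 i j₀ h0
  · intro j l hjl
    by_contra hne
    have h0 := hbz i₀ j l hne
    rw [hjl] at h0
    exact hB1 i₀ l h0
  · intro i j k l hcc
    by_cases hik : i = k
    · subst hik
      refine ⟨rfl, ?_⟩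
      by_contra hjl
      rcases hrow i j l hjl (c i j) (hc1 i j) with h | h
      · exact hc3 i j h
      · rw [hcc] at h
        exact hc3 i l h
    · exfalso
      by_cases hjl : j = l
      · subst hjl
        rcases hcol i k j hik (c i j) (hc2 i j) with h | h
        · exact hc3 i j h
        · rw [hcc] at h
          exact hc3 k j h
      · have hcommon : ∀ s, X i j s ≠ 0 → X k l s ≠ 0 → s = c i j := by
          intro s h1 h2
          rcases hsupp i j s h1 with h | h | h
          · rw [← h] at h2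
            exact absurd (hA2 k i (Ne.symm hik) l) h2
          · rw [← h] at h2
            exact absurd (hbz k j l hjl) h2
          · exact h.symm
        exact nonmate_false (hX.non i k j l hik hjl) (hc3 i j) (by rw [hcc]; exact hc3 k l)
          hcommon
  · exact fun i j h => hB2 i j h.symm
  · intro i k l h
    by_cases hik : i = k
    · subst hik
      exact hc1 i l h.symm
    · have h0 := hA2 k i (Ne.symm hik) l
      rw [h] at h0
      exact hc3 k l h0
  · intro j k l h
    by_cases hjl : j = l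
    · subst hjl
      exact hc2 k j h.symm
    · have h0 := hbz k j l hjl
      rw [h] at h0
      exact hc3 k l h0
  · exact fun i j => hroweq i j j₀
  · exact fun i j => hcoleq i i₀ j
  · exact fun i j => rfl
  · intro i j t h1 h2 h3
    by_contra h
    rcases hsupp i j t h with h' | h' | h'
    · exact h1 h'.symm
    · exact h2 h'.symm
    · exact h3 h'.symm

end Cfsg.Agent.H89.Cyc

namespace Cfsg.Agent.H89.Cyc
universe u
example : Cfsg.Agent.H81.Cyc.StmtAsm.{u} := asm
end Cfsg.Agent.H89.Cyc
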