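import Mathlib
import Cfsg.Agent.H81.CycDefs
import Cfsg.Agent.H89.CycAsm

/-!
S1502-SUN piece (team project S1502 of helper81): given NOTRANS, four columns of a row of a
combinatorial array with a second row share a support coordinate.
-/

set_option autoImplicit false

namespace Cfsg.Agent.H89.Cyc

open Cfsg Cfsg.Agent.H81.Cyc

universe u

/-- The triangle configuration `supp A₁ = {a, b, p}`, `supp A₂ = {a, c, q}`,
`supp A₃ = {b, c, r}` admits no common non-mate `B` with `B p = A₁ p`, `B q = B r = 0`. -/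
theorem sun_core {ι : Type u} {A₁ A₂ A₃ B : ι → ℤ} {a b c p q r : ι}
    (hS1 : ∀ t, A₁ t ≠ 0 → a = t ∨ b = t ∨ p = t)
    (hS2 : ∀ t, A₂ t ≠ 0 → a = t ∨ c = t ∨ q = t)
    (hS3 : ∀ t, A₃ t ≠ 0 → b = t ∨ c = t ∨ r = t)
    (h1p : A₁ p ≠ 0) (h2c : A₂ c ≠ 0) (h3c : A₃ c ≠ 0)
    (e12 : A₁ a = A₂ a) (e13 : A₁ b = A₃ b)
    (hab : a ≠ b) (hac : a ≠ c) (hbc : b ≠ c) (hpa : p ≠ a) (hpb : p ≠ b) (hpc : p ≠ c)
    (hB : Supp3 B) (hBp : A₁ p = B p) (hBq : B q = 0) (hBr : B r = 0)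
    (n1 : NonMate A₁ B) (n2 : NonMate A₂ B) (n3 : NonMate A₃ B) : False := by
  have hBp0 : B p ≠ 0 := by rw [← hBp]; exact h1p
  obtain ⟨r', hr'p, hr'1, hr'B, -⟩ := n1.of_eq h1p hBp
  have hBr'0 : B r' ≠ 0 := by
    intro h0
    rw [h0, neg_zero] at hr'B
    exact hr'1 hr'B
  rcases hS1 r' hr'1 with h | h | h
  · subst h
    have h2a : A₂ a ≠ 0 := by rw [← e12]; exact hr'1
    have h2aB : A₂ a = -B a := by rw [← e12]; exact hr'B
    obtain ⟨t, hta, ht2, ht2B, -⟩ := n2.of_neg h2a h2aB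
    have hBc0 : B c ≠ 0 := by
      rcases hS2 t ht2 with h | h | h
      · exact absurd h.symm hta
      · rw [h, ← ht2B]; exact ht2
      · exfalso
        rw [← h, hBq] at ht2B
        rw [← h] at ht2
        exact ht2 ht2B
    have hSB : ∀ s, B s ≠ 0 → p = s ∨ a = s ∨ c = s :=
      supp_three hB hBp0 hBr'0 hBc0 hpa hpc hac
    refine nonmate_false n3 h3c hBc0 ?_
    intro s h3s hBs
    rcases hS3 s h3s with h | h | h
    · exfalso
      rcases hSB s hBs with h' | h' | h'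
      · exact hpb (h'.trans h.symm)
      · exact hab (h'.trans h.symm)
      · exact hbc (h.trans h'.symm)
    · exact h.symm
    · exfalso
      rw [← h] at hBs
      exact hBs hBr
  · subst h
    have h3b : A₃ b ≠ 0 := by rw [← e13]; exact hr'1
    have h3bB : A₃ b = -B b := by rw [← e13]; exact hr'B
    obtain ⟨t, htb, ht3, ht3B, -⟩ := n3.of_neg h3b h3bB
    have hBc0 : B c ≠ 0 := by
      rcases hS3 t ht3 with h | h | h
      · exact absurd h.symm htb
      · rw [h, ← ht3B]; exact ht3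
      · exfalso
        rw [← h, hBr] at ht3B
        rw [← h] at ht3
        exact ht3 ht3B
    have hSB : ∀ s, B s ≠ 0 → p = s ∨ b = s ∨ c = s :=
      supp_three hB hBp0 hBr'0 hBc0 hpb hpc hbc
    refine nonmate_false n2 h2c hBc0 ?_
    intro s h2s hBs
    rcases hS2 s h2s with h | h | h
    · exfalso
      rcases hSB s hBs with h' | h' | h'
      · exact hpa (h'.trans h.symm)
      · exact hab (h.trans h'.symm)
      · exact hac (h.trans h'.symm)
    · exact h.symm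
    · exfalso
      rw [← h] at hBs
      exact hBs hBq
  · exact hr'p h.symm

theorem sun : StmtNoTrans.{u} → StmtSun.{u} := by
  intro hNT I J ι X hX i k hik j₁ j₂ j₃ j₄ h12 h13 h14 h23 h24 h34
  obtain ⟨a, ha1, ha12, haz⟩ := hX.row i j₁ j₂ h12
  have ha2 : X i j₂ a ≠ 0 := by rw [← ha12]; exact ha1
  by_cases ha3 : X i j₃ a ≠ 0
  · exact ⟨a, ha1, ha2, ha3,
      hNT X hX i k hik j₁ j₂ j₃ j₄ h12 h13 h14 h23 h24 h34 a ha1 ha2 ha3⟩
  push Not at ha3
  obtain ⟨b, hb1, hb13, hbz⟩ := hX.row i j₁ j₃ h13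
  have hb3 : X i j₃ b ≠ 0 := by rw [← hb13]; exact hb1
  obtain ⟨c, hc2, hc23, hcz⟩ := hX.row i j₂ j₃ h23
  have hc3 : X i j₃ c ≠ 0 := by rw [← hc23]; exact hc2
  have hab : a ≠ b := by
    intro h
    rw [← h] at hb3
    exact hb3 ha3
  have hac : a ≠ c := by
    intro h
    rw [← h] at hc3
    exact hc3 ha3
  have hb2 : X i j₂ b = 0 := by
    rcases haz b (Ne.symm hab) with h | h
    · exact absurd h hb1
    · exact h
  have hc1 : X i j₁ c = 0 := by
    rcases haz c (Ne.symm hac) with h | h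
    · exact h
    · exact absurd h hc2
  have hbc : b ≠ c := by
    intro h
    rw [← h] at hc1
    exact hb1 hc1
  have ha4 : X i j₄ a = 0 := by
    by_contra h
    exact hNT X hX i k hik j₁ j₂ j₄ j₃ h12 h14 h13 h24 h23 (Ne.symm h34) a ha1 ha2 h ha3
  have hb4 : X i j₄ b = 0 := by
    by_contra h
    exact hNT X hX i k hik j₁ j₃ j₄ j₂ h13 h14 h12 h34 (Ne.symm h23) (Ne.symm h24) b hb1 hb3 h
      hb2
  have hc4 : X i j₄ c = 0 := by
    by_contra h
    exact hNT X hX i k hik j₂ j₃ j₄ j₁ h23 h24 (Ne.symm h12) h34 (Ne.symm h13) (Ne.symm h14) c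
      hc2 hc3 h hc1
  obtain ⟨p, hp1, hp14, hpz⟩ := hX.row i j₁ j₄ h14
  have hp4 : X i j₄ p ≠ 0 := by rw [← hp14]; exact hp1
  obtain ⟨q, hq2, hq24, hqz⟩ := hX.row i j₂ j₄ h24
  have hq4 : X i j₄ q ≠ 0 := by rw [← hq24]; exact hq2
  obtain ⟨r, hr3, hr34, hrz⟩ := hX.row i j₃ j₄ h34
  have hr4 : X i j₄ r ≠ 0 := by rw [← hr34]; exact hr3
  have hpa : p ≠ a := by
    intro h
    rw [h] at hp4
    exact hp4 ha4
  have hpb : p ≠ b := by
    intro h
    rw [h] at hp4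
    exact hp4 hb4
  have hpc : p ≠ c := by
    intro h
    rw [h] at hp4
    exact hp4 hc4
  have hqa : q ≠ a := by
    intro h
    rw [h] at hq4
    exact hq4 ha4
  have hqb : q ≠ b := by
    intro h
    rw [h] at hq4
    exact hq4 hb4
  have hqc : q ≠ c := by
    intro h
    rw [h] at hq4
    exact hq4 hc4
  have hra : r ≠ a := by
    intro h
    rw [h] at hr4
    exact hr4 ha4
  have hrb : r ≠ b := by
    intro h
    rw [h] at hr4
    exact hr4 hb4
  have hrc : r ≠ c := by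
    intro h
    rw [h] at hr4
    exact hr4 hc4
  have hpq : p ≠ q := by
    intro h
    rw [← h] at hq2
    rcases haz p hpa with h' | h'
    · exact hp1 h'
    · exact hq2 h'
  have hpr : p ≠ r := by
    intro h
    rw [← h] at hr3
    rcases hbz p hpb with h' | h'
    · exact hp1 h'
    · exact hr3 h'
  have hqr : q ≠ r := by
    intro h
    rw [← h] at hr3
    rcases hcz q hqc with h' | h'
    · exact hq2 h'
    · exact hr3 h'
  have hS1 : ∀ t, X i j₁ t ≠ 0 → a = t ∨ b = t ∨ p = t :=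
    supp_three (hX.supp i j₁) ha1 hb1 hp1 hab (Ne.symm hpa) (Ne.symm hpb)
  have hS2 : ∀ t, X i j₂ t ≠ 0 → a = t ∨ c = t ∨ q = t :=
    supp_three (hX.supp i j₂) ha2 hc2 hq2 hac (Ne.symm hqa) (Ne.symm hqc)
  have hS3 : ∀ t, X i j₃ t ≠ 0 → b = t ∨ c = t ∨ r = t :=
    supp_three (hX.supp i j₃) hb3 hc3 hr3 hbc (Ne.symm hrb) (Ne.symm hrc)
  have hS4 : ∀ t, X i j₄ t ≠ 0 → p = t ∨ q = t ∨ r = t :=
    supp_three (hX.supp i j₄) hp4 hq4 hr4 hpq hpr hqr
  obtain ⟨u, hu4, huB, huz⟩ := hX.col i k j₄ hik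
  have n1 := hX.non i k j₁ j₄ hik h14
  have n2 := hX.non i k j₂ j₄ hik h24
  have n3 := hX.non i k j₃ j₄ hik h34
  have hBz : ∀ s, s ≠ u → X i j₄ s ≠ 0 → X k j₄ s = 0 := by
    intro s hs h4
    rcases huz s hs with h' | h'
    · exact absurd h' h4
    · exact h'
  exfalso
  rcases hS4 u hu4 with h | h | h
  · subst h
    exact sun_core hS1 hS2 hS3 hp1 hc2 hc3 ha12 hb13 hab hac hbc hpa hpb hpc (hX.supp k j₄)
      (hp14.trans huB) (hBz q (Ne.symm hpq) hq4) (hBz r (Ne.symm hpr) hr4) n1 n2 n3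
  · subst h
    exact sun_core hS2 hS1
      (supp_three (hX.supp i j₃) hc3 hb3 hr3 (Ne.symm hbc) (Ne.symm hrc) (Ne.symm hrb))
      hq2 hb1 hb3 ha12.symm hc23 hac hab (Ne.symm hbc) hqa hqc hqb (hX.supp k j₄)
      (hq24.trans huB) (hBz p hpq hp4) (hBz r (Ne.symm hqr) hr4) n2 n1 n3
  · subst h
    exact sun_core hS3
      (supp_three (hX.supp i j₁) hb1 ha1 hp1 (Ne.symm hab) (Ne.symm hpb) (Ne.symm hpa))
      (supp_three (hX.supp i j₂) hc2 ha2 hq2 (Ne.symm hac) (Ne.symm hqc) (Ne.symm hqa))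
      hr3 ha1 ha2 hb13.symm hc23.symm hbc (Ne.symm hab) (Ne.symm hac) hrb hrc hra
      (hX.supp k j₄) (hr34.trans huB) (hBz p hpr hp4) (hBz q hqr hq4) n3 n1 n2

end Cfsg.Agent.H89.Cyc

namespace Cfsg.Agent.H89.Cyc
universe u
example : Cfsg.Agent.H81.Cyc.StmtNoTrans.{u} → Cfsg.Agent.H81.Cyc.StmtSun.{u} := sun
end Cfsg.Agent.H89.Cyc
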