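import Mathlib
import Cfsg.Agent.H99.EmDefs

/-!
# EM-ARFWD (S5990, helper89 for helper99): the arithmetic of the forward direction

If the right-hand side `RhsOddE` fails, the number `A = ⌊2 d / c⌋` of blocks is admissible and
either admits no shape, or `m < c` and the fixed space is too large / of the wrong type.
-/

set_option autoImplicit false

namespace Cfsg.Agent.H89.Em

open Cfsg.Agent.H99.Em

theorem arFwd : StArFwd := by
  intro d m i c hi hc hm hm2 hmd hd hR
  have hcpos : 0 < c := by
    rw [hc]
    split_ifs <;> omega
  obtain ⟨q, hq⟩ : ∃ q, q = 2 * d / c := ⟨_, rfl⟩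
  obtain ⟨ρ, hρ⟩ : ∃ ρ, ρ = 2 * d % c := ⟨_, rfl⟩
  have hn : c * q + ρ = 2 * d := by
    rw [hq, hρ]
    exact Nat.div_add_mod _ _
  have hρc : ρ < c := by
    rw [hρ]
    exact Nat.mod_lt _ hcpos
  -- `A = q` is admissible
  have hadm : c * q = 2 * d → ¬ (Odd i ∨ Even q) := by
    intro h h'
    have hρ0 : ρ = 0 := by omega
    apply hR
    unfold RhsOddE
    rw [← hρ]
    rcases Nat.even_or_odd i with hie | hio
    · right
      refine ⟨hie, Or.inl ⟨hρ0, Or.inl ?_⟩⟩
      have hci : c = i := by rw [hc, if_pos hie]
      rw [← hci, ← hq]
      rcases h' with h' | h'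
      · exact absurd h' (Nat.not_odd_iff_even.mpr hie)
      · exact h'
    · left
      exact ⟨hio, Or.inl hρ0⟩
  by_cases hmc : m < c
  · by_cases hnc : 2 * d < c
    · right
      exact ⟨hmc, Or.inl hnc⟩
    · have hq1 : 1 ≤ q := by
        rcases Nat.eq_zero_or_pos q with h0 | h0
        · rw [h0] at hn
          omega
        · exact h0
      have hnq : 2 * d - c * q = ρ := by omega
      by_cases hII : m < ρ ∨ (m = ρ ∧ (Odd i ∨ Even q))
      · right
        refine ⟨hmc, Or.inr ⟨q, hq1, by omega, hadm, ?_, ?_⟩⟩
        · rw [hnq]
          exact hρc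
        · rw [hnq]
          exact hII
      · left
        refine ⟨q, hq1, by omega, hadm, ?_⟩
        intro j e hj he hje h0 hlast
        rw [hnq] at he hlast
        have hj0 : j = 0 := by
          by_contra hj0
          have h1 : c ≤ c * j := Nat.le_mul_of_pos_right c (Nat.pos_of_ne_zero hj0)
          omega
        subst hj0
        have hem : e = m := by simpa using hje
        have hmρ : m = ρ := by
          have h1 : ¬ m < ρ := fun h => hII (Or.inl h)
          omega
        have h2 : ¬ (Odd i ∨ Even q) := fun h => hII (Or.inr ⟨hmρ, h⟩)
        have h3 := hlast (by omega) (by omega)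
        rw [Nat.sub_zero] at h3
        exact h2 h3
  · have hcm : c ≤ m := by omega
    have hq1 : 1 ≤ q := by
      rcases Nat.eq_zero_or_pos q with h0 | h0
      · rw [h0] at hn
        omega
      · exact h0
    have hnq : 2 * d - c * q = ρ := by omega
    left
    refine ⟨q, hq1, by omega, hadm, ?_⟩
    intro j e hj he hje h0 hlast
    rw [hnq] at he hlast
    have heρ : e < c := by omega
    have hσ : m % c = e := by
      rw [← hje, Nat.mul_add_mod]
      exact Nat.mod_eq_of_lt heρ
    have hμ : m / c = j := by
      rw [← hje, Nat.mul_add_div hcpos, Nat.div_eq_of_lt heρ, add_zero]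
    apply hR
    unfold RhsOddE
    rw [← hρ, hσ]
    rcases Nat.even_or_odd i with hie | hio
    · right
      have hci : c = i := by rw [hc, if_pos hie]
      have hnotodd : ¬ Odd i := Nat.not_odd_iff_even.mpr hie
      refine ⟨hie, ?_⟩
      rcases Nat.eq_zero_or_pos ρ with hρ0 | hρpos
      · left
        refine ⟨hρ0, Or.inr ⟨by omega, ?_⟩⟩
        rw [← hci, hμ]
        have he0 : e = 0 := by omega
        exact Nat.not_even_iff_odd.mp (fun hje' => h0 he0 (Or.inr hje'))
      · right
        refine ⟨hρpos, by omega, ?_⟩
        rcases Nat.eq_zero_or_pos e with he0 | hepos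
        · right
          left
          refine ⟨he0, ?_⟩
          rw [← hci, hμ]
          exact Nat.not_even_iff_odd.mp (fun hje' => h0 he0 (Or.inr hje'))
        · rcases Nat.lt_or_ge e ρ with hlt | hge
          · left
            exact ⟨hepos, hlt⟩
          · right
            right
            have heq : e = ρ := by omega
            refine ⟨heq, ?_⟩
            have hev : Even (q - j) := by
              rcases hlast heq (by omega) with h | h
              · exact absurd h hnotodd
              · exact h
            have hval : (2 * d + m - 2 * ρ) / i = q + j := by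
              rw [← hci]
              have h5 : 2 * d + m - 2 * ρ = c * (q + j) := by
                rw [mul_add]
                omega
              rw [h5, Nat.mul_div_cancel_left _ hcpos]
            rw [hval]
            have h6 : q + j = (q - j) + 2 * j := by omega
            rw [h6]
            exact Even.add hev (even_two_mul j)
    · left
      refine ⟨hio, Or.inr ⟨hcm, ?_, he⟩⟩
      rcases Nat.eq_zero_or_pos e with he0 | hepos
      · exact absurd (Or.inl hio) (h0 he0)
      · exact hepos

example : StArFwd := arFwd

end Cfsg.Agent.H89.Em
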