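import Mathlib
import Cfsg.Agent.H95.FlagDefs

/-!
# helper89: Bruhat existence for `GL_n` (piece S2423-BR of helper95's project)

Every invertible matrix is `b * pmat σ * b'` with `b`, `b'` invertible upper triangular.
Proof by a potential argument: among all `h` with `g = c * h * c'` take one with the largest
weighted number of zero entries.
-/

set_option autoImplicit false

namespace Cfsg.Agent.H89.Flag

open Matrix Cfsg.Agent.H95.Flag

/-- The potential: zero entries in row `i` weigh `2 ^ i`. -/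
noncomputable def bruPhi {n : ℕ} {F : Type*} [Field F] (h : Matrix (Fin n) (Fin n) F) : ℕ :=
  open Classical in ∑ p : Fin n × Fin n, if h p.1 p.2 = 0 then 2 ^ (p.1 : ℕ) else 0

/-- The matrices `h` with `g = c * h * c'`, `c`, `c'` invertible upper triangular. -/
def bruT {n : ℕ} {F : Type*} [Field F] (g : Matrix (Fin n) (Fin n) F) :
    Set (Matrix (Fin n) (Fin n) F) :=
  {h | ∃ c c' : Matrix (Fin n) (Fin n) F, c.BlockTriangular id ∧ c'.BlockTriangular id ∧
    IsUnit c.det ∧ IsUnit c'.det ∧ g = c * h * c'}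

theorem bruT_self {n : ℕ} {F : Type*} [Field F] (g : Matrix (Fin n) (Fin n) F) : g ∈ bruT g :=
  ⟨1, 1, blockTriangular_one, blockTriangular_one, by simp, by simp, by simp⟩

theorem bruT_left {n : ℕ} {F : Type*} [Field F] {g h : Matrix (Fin n) (Fin n) F}
    (hh : h ∈ bruT g) (i k : Fin n) (hik : i < k) (a : F) :
    transvection i k a * h ∈ bruT g := by
  obtain ⟨c, c', hc, hc', hcu, hcu', hg⟩ := hh
  refine ⟨c * transvection i k (-a), c', hc.mul (blockTriangular_transvection hik.le _), hc', ?_,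
    hcu', ?_⟩
  · rw [det_mul, det_transvection_of_ne _ _ (ne_of_lt hik), mul_one]; exact hcu
  · rw [hg, Matrix.mul_assoc c (transvection i k (-a)), ← Matrix.mul_assoc (transvection i k (-a)),
      transvection_mul_transvection_same _ _ (ne_of_lt hik), neg_add_cancel, transvection_zero,
      Matrix.one_mul]

theorem bruT_right {n : ℕ} {F : Type*} [Field F] {g h : Matrix (Fin n) (Fin n) F}
    (hh : h ∈ bruT g) (i k : Fin n) (hik : i < k) (a : F) :
    h * transvection i k a ∈ bruT g := by
  obtain ⟨c, c', hc, hc', hcu, hcu', hg⟩ := hh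
  refine ⟨c, transvection i k (-a) * c', hc, (blockTriangular_transvection hik.le _).mul hc', hcu,
    ?_, ?_⟩
  · rw [det_mul, det_transvection_of_ne _ _ (ne_of_lt hik), one_mul]; exact hcu'
  · rw [hg, ← Matrix.mul_assoc (c * (h * transvection i k a)), ← Matrix.mul_assoc c,
      Matrix.mul_assoc (c * h), transvection_mul_transvection_same _ _ (ne_of_lt hik),
      add_neg_cancel, transvection_zero, Matrix.mul_one]

theorem bruT_det {n : ℕ} {F : Type*} [Field F] {g h : Matrix (Fin n) (Fin n) F}
    (hg : IsUnit g.det) (hh : h ∈ bruT g) : IsUnit h.det := by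
  obtain ⟨c, c', -, -, -, -, hgc⟩ := hh
  rw [hgc, det_mul, det_mul] at hg
  exact isUnit_of_mul_isUnit_right (isUnit_of_mul_isUnit_left hg)

theorem bruPhi_le {n : ℕ} {F : Type*} [Field F] (h : Matrix (Fin n) (Fin n) F) :
    bruPhi h ≤ ∑ p : Fin n × Fin n, 2 ^ (p.1 : ℕ) := by
  classical
  unfold bruPhi
  refine Finset.sum_le_sum fun p _ => ?_
  split_ifs
  · exact le_rfl
  · exact Nat.zero_le _

/-- There is a member of `bruT g` of maximal potential. -/
theorem exists_bruMax {n : ℕ} {F : Type*} [Field F] (g : Matrix (Fin n) (Fin n) F) :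
    ∃ h ∈ bruT g, ∀ h' ∈ bruT g, bruPhi h' ≤ bruPhi h := by
  by_contra hcon
  push Not at hcon
  have key : ∀ m : ℕ, ∃ h ∈ bruT g, m ≤ bruPhi h := by
    intro m
    induction m with
    | zero => exact ⟨g, bruT_self g, Nat.zero_le _⟩
    | succ m ih =>
      obtain ⟨h, hh, hm⟩ := ih
      obtain ⟨h', hh', hlt⟩ := hcon h hh
      exact ⟨h', hh', by omega⟩
  obtain ⟨h, -, hm⟩ := key (∑ p : Fin n × Fin n, 2 ^ (p.1 : ℕ) + 1)
  have := bruPhi_le h
  omega

/-- A sum of powers of two below `i`. -/
theorem sum_two_pow_lt {n : ℕ} (i : Fin n) :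
    ∑ k : Fin n, (if k < i then 2 ^ (k : ℕ) else 0) < 2 ^ (i : ℕ) := by
  have h1 : ∑ k : Fin n, (if k < i then 2 ^ (k : ℕ) else 0)
      = ∑ m ∈ Finset.range n, (if m < (i : ℕ) then 2 ^ m else 0) := by
    rw [← Fin.sum_univ_eq_sum_range (fun m => if m < (i : ℕ) then 2 ^ m else 0) n]
    rfl
  rw [h1, ← Finset.sum_filter]
  exact Nat.geomSum_lt le_rfl (fun k hk => (Finset.mem_filter.mp hk).2)

/-- Case 1 of the potential argument: a row `k` below `i` with a single nonzero entry, in a column
where row `i` is nonzero, contradicts maximality. -/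
theorem bruMax_case1 {n : ℕ} {F : Type*} [Field F] {g h : Matrix (Fin n) (Fin n) F}
    (hh : h ∈ bruT g) (hmax : ∀ h' ∈ bruT g, bruPhi h' ≤ bruPhi h)
    (i k j : Fin n) (hik : i < k) (hkj : h k j ≠ 0) (hij : h i j ≠ 0)
    (huniq : ∀ j', h k j' ≠ 0 → j' = j) : False := by
  classical
  have hmem := bruT_left hh i k hik (-(h i j / h k j))
  have hlt : bruPhi h < bruPhi (transvection i k (-(h i j / h k j)) * h) := by
    unfold bruPhi
    refine Finset.sum_lt_sum (fun p _ => ?_) ⟨(i, j), Finset.mem_univ _, ?_⟩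
    · by_cases hp : p.1 = i
      · by_cases hp2 : p.2 = j
        · rw [if_neg (by rw [hp, hp2]; exact hij)]
          exact Nat.zero_le _
        · have hk0 : h k p.2 = 0 := by
            by_contra hne
            exact hp2 (huniq _ hne)
          rw [hp, transvection_mul_apply_same, hk0, mul_zero, add_zero]
      · rw [transvection_mul_apply_of_ne _ _ _ _ hp]
    · have h0 : (transvection i k (-(h i j / h k j)) * h) i j = 0 := by
        rw [transvection_mul_apply_same]
        field_simp
        ring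
      rw [if_neg hij, if_pos h0]
      exact Nat.pos_of_ne_zero (by positivity)
  exact absurd (hmax _ hmem) (not_le.mpr hlt)

/-- Case 2 of the potential argument. -/
theorem bruMax_case2 {n : ℕ} {F : Type*} [Field F] {g h : Matrix (Fin n) (Fin n) F}
    (hh : h ∈ bruT g) (hmax : ∀ h' ∈ bruT g, bruPhi h' ≤ bruPhi h)
    (i j0 j1 : Fin n) (hj : j0 < j1) (h0 : h i j0 ≠ 0) (h1 : h i j1 ≠ 0)
    (hbelow : ∀ k, i < k → h k j0 = 0) : False := by
  classical
  have hmem := bruT_right hh j0 j1 hj (-(h i j1 / h i j0))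
  have hne : ∀ (a b : Fin n), b ≠ j1 →
      (h * transvection j0 j1 (-(h i j1 / h i j0))) a b = h a b :=
    fun a b hb => mul_transvection_apply_of_ne _ _ _ _ hb _ _
  have hi1 : (h * transvection j0 j1 (-(h i j1 / h i j0))) i j1 = 0 := by
    rw [mul_transvection_apply_same]
    field_simp
    ring
  have hk1 : ∀ k, i < k → (h * transvection j0 j1 (-(h i j1 / h i j0))) k j1 = h k j1 := by
    intro k hk
    rw [mul_transvection_apply_same, hbelow k hk, mul_zero, add_zero]
  have hsum : bruPhi h + ∑ p : Fin n × Fin n, (if p = (i, j1) then 2 ^ (i : ℕ) else 0)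
      ≤ bruPhi (h * transvection j0 j1 (-(h i j1 / h i j0)))
        + ∑ p : Fin n × Fin n, (if p.1 < i ∧ p.2 = j1 then 2 ^ (p.1 : ℕ) else 0) := by
    unfold bruPhi
    rw [← Finset.sum_add_distrib, ← Finset.sum_add_distrib]
    refine Finset.sum_le_sum fun p _ => ?_
    obtain ⟨a, b⟩ := p
    show (if h a b = 0 then 2 ^ (a : ℕ) else 0) + (if (a, b) = (i, j1) then 2 ^ (i : ℕ) else 0)
      ≤ (if (h * transvection j0 j1 (-(h i j1 / h i j0))) a b = 0 then 2 ^ (a : ℕ) else 0)
        + (if a < i ∧ b = j1 then 2 ^ (a : ℕ) else 0)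
    by_cases hb : b = j1
    · rw [hb]
      rcases lt_trichotomy a i with hai | hai | hai
      · have e1 : ¬ ((a, j1) = (i, j1)) := by
          intro h; exact absurd (Prod.mk.inj h).1 (ne_of_lt hai)
        have e2 : a < i ∧ j1 = j1 := ⟨hai, rfl⟩
        rw [if_neg e1, if_pos e2, add_zero]
        have hle : (if h a j1 = 0 then 2 ^ (a : ℕ) else 0) ≤ 2 ^ (a : ℕ) := by
          split_ifs
          · exact le_rfl
          · exact Nat.zero_le _
        exact le_trans hle (Nat.le_add_left _ _)
      · rw [hai]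
        have e1 : (i, j1) = (i, j1) := rfl
        have e2 : ¬ (i < i ∧ j1 = j1) := fun h => lt_irrefl _ h.1
        rw [if_pos e1, if_neg e2, if_neg h1, if_pos hi1]
        omega
      · have e1 : ¬ ((a, j1) = (i, j1)) := by
          intro h; exact absurd (Prod.mk.inj h).1 (ne_of_gt hai)
        have e2 : ¬ (a < i ∧ j1 = j1) := fun h => lt_asymm h.1 hai
        rw [if_neg e1, if_neg e2, hk1 a hai]
    · have e1 : ¬ ((a, b) = (i, j1)) := by
        intro h; exact hb (Prod.mk.inj h).2
      have e2 : ¬ (a < i ∧ b = j1) := fun h => hb h.2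
      rw [if_neg e1, if_neg e2, hne a b hb]
  have hA : ∑ p : Fin n × Fin n, (if p = (i, j1) then 2 ^ (i : ℕ) else 0) = 2 ^ (i : ℕ) := by
    rw [Finset.sum_ite_eq' Finset.univ (i, j1) (fun _ => 2 ^ (i : ℕ))]
    simp
  have hB : ∑ p : Fin n × Fin n, (if p.1 < i ∧ p.2 = j1 then 2 ^ (p.1 : ℕ) else 0)
      < 2 ^ (i : ℕ) := by
    rw [Fintype.sum_prod_type]
    have : ∀ a : Fin n, ∑ b : Fin n, (if a < i ∧ b = j1 then 2 ^ (a : ℕ) else 0)
        = if a < i then 2 ^ (a : ℕ) else 0 := by
      intro a
      by_cases ha : a < i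
      · simp [ha]
      · simp [ha]
    simp only [this]
    exact sum_two_pow_lt i
  have := hmax _ hmem
  omega

theorem bruhat_exists {n : ℕ} {F : Type*} [Field F] (g : Matrix (Fin n) (Fin n) F)
    (hg : IsUnit g.det) :
    ∃ (b b' : Matrix (Fin n) (Fin n) F) (σ : Equiv.Perm (Fin n)),
      b.BlockTriangular id ∧ b'.BlockTriangular id ∧ IsUnit b.det ∧ IsUnit b'.det ∧
      g = b * pmat F σ * b' := by
  classical
  obtain ⟨h, hh, hmax⟩ := exists_bruMax g
  have hdet : IsUnit h.det := bruT_det hg hh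
  -- every row has a nonzero entry
  have hrow : ∀ i, ∃ j, h i j ≠ 0 := by
    intro i
    by_contra hcon
    push Not at hcon
    rw [det_eq_zero_of_row_eq_zero i hcon] at hdet
    exact not_isUnit_zero hdet
  -- every row has at most one nonzero entry
  have huniq : ∀ i j j', h i j ≠ 0 → h i j' ≠ 0 → j = j' := by
    by_contra hcon
    push Not at hcon
    obtain ⟨i0, hi0⟩ := hcon
    obtain ⟨i, hi, himax⟩ := Finset.exists_max_image
      (Finset.univ.filter fun i : Fin n => ∃ j j', h i j ≠ 0 ∧ h i j' ≠ 0 ∧ j ≠ j') id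
      ⟨i0, Finset.mem_filter.mpr ⟨Finset.mem_univ _, hi0⟩⟩
    obtain ⟨j, j', hj, hj', hne⟩ := (Finset.mem_filter.mp hi).2
    have hbel : ∀ k, i < k → ∀ a b, h k a ≠ 0 → h k b ≠ 0 → a = b := by
      intro k hk a b ha hb
      by_contra hab
      have := himax k (Finset.mem_filter.mpr ⟨Finset.mem_univ _, a, b, ha, hb, hab⟩)
      exact absurd hk (not_lt.mpr this)
    -- case 1 excluded
    have hc1 : ∀ k, i < k → ∀ a, h k a ≠ 0 → h i a = 0 := by
      intro k hk a ha
      by_contra hia
      exact bruMax_case1 hh hmax i k a hk ha hia (fun b hb => hbel k hk b a hb ha)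
    have hz : ∀ c, h i c ≠ 0 → ∀ k, i < k → h k c = 0 := by
      intro c hc k hk
      by_contra hkc
      exact hc (hc1 k hk c hkc)
    rcases lt_or_gt_of_ne hne with hlt | hlt
    · exact bruMax_case2 hh hmax i j j' hlt hj hj' (hz j hj)
    · exact bruMax_case2 hh hmax i j' j hlt hj' hj (hz j' hj')
  choose π hπ using hrow
  have hπ' : ∀ i j, h i j ≠ 0 → j = π i := fun i j hj => huniq i j (π i) hj (hπ i)
  have hinj : Function.Injective π := by
    intro i k hik
    by_contra hne
    rcases lt_or_gt_of_ne hne with hlt | hlt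
    · exact bruMax_case1 hh hmax i k (π k) hlt (hπ k) (by rw [← hik]; exact hπ i)
        (fun b hb => hπ' k b hb)
    · exact bruMax_case1 hh hmax k i (π i) hlt (hπ i) (by rw [hik]; exact hπ k)
        (fun b hb => hπ' i b hb)
  have hbij : Function.Bijective π := Finite.injective_iff_bijective.mp hinj
  obtain ⟨c, c', hc, hc', hcu, hcu', hgc⟩ := hh
  have hform : h = diagonal (fun i => h i (π i)) * pmat F (Equiv.ofBijective π hbij)⁻¹ := by
    ext i j
    rw [diagonal_mul, pmat_apply]
    by_cases hj : j = π i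
    · subst hj
      rw [if_pos, mul_one]
      rw [Equiv.Perm.eq_inv_iff_eq]
      rfl
    · rw [if_neg, mul_zero]
      · by_contra hne
        exact hj (hπ' i j hne)
      · intro hi
        apply hj
        rw [Equiv.Perm.eq_inv_iff_eq] at hi
        exact hi.symm
  refine ⟨c * diagonal (fun i => h i (π i)), c', (Equiv.ofBijective π hbij)⁻¹,
    hc.mul (blockTriangular_diagonal _), hc', ?_, hcu', ?_⟩
  · rw [det_mul, det_diagonal]
    exact hcu.mul (isUnit_iff_ne_zero.mpr (Finset.prod_ne_zero_iff.mpr fun i _ => hπ i))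
  · rw [Matrix.mul_assoc c, ← hform]
    exact hgc

end Cfsg.Agent.H89.Flag
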