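import Mathlib
import Cfsg.Agent.H95.FlagDefs

/-!
# helper89: piece S2422-C2L of helper95's project (coefficient of the left side)

The coefficient at `(lam, lam')` of
`Vandermonde(x) * Vandermonde(y) * ∏ i j, ∑ k < D, (x_i y_j)^k` in terms of `margCount`.
-/

set_option autoImplicit false

namespace Cfsg.Agent.H89.Flag

open Cfsg.Agent.H95.Flag

theorem c2l_prod_mon {n : ℕ} {ι : Type*} (s : Finset ι) (u v : ι → Fin n → ℕ) :
    ∏ i ∈ s, mon (u i) (v i) = mon (∑ i ∈ s, u i) (∑ i ∈ s, v i) := by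
  classical
  induction s using Finset.induction_on with
  | empty =>
    simp only [Finset.prod_empty, Finset.sum_empty]
    exact mon_zero.symm
  | insert a s ha ih =>
    rw [Finset.prod_insert ha, Finset.sum_insert ha, Finset.sum_insert ha, ih, mon_mul]

theorem c2l_mon_pow {n : ℕ} (u v : Fin n → ℕ) (k : ℕ) : mon u v ^ k = mon (k • u) (k • v) := by
  induction k with
  | zero =>
    simp only [pow_zero, zero_smul]
    exact mon_zero.symm
  | succ k ih => rw [pow_succ, ih, mon_mul, succ_nsmul, succ_nsmul]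

theorem c2l_smul_single {n : ℕ} (i : Fin n) (k : ℕ) :
    k • (Pi.single i 1 : Fin n → ℕ) = Pi.single i k := by
  ext a
  by_cases ha : a = i
  · subst ha; simp
  · simp [ha]

theorem c2l_gx_pow {n : ℕ} (i : Fin n) (k : ℕ) : (gx i : GF n) ^ k = mon (Pi.single i k) 0 := by
  unfold gx
  rw [c2l_mon_pow, c2l_smul_single, smul_zero]

theorem c2l_gy_pow {n : ℕ} (i : Fin n) (k : ℕ) : (gy i : GF n) ^ k = mon 0 (Pi.single i k) := by
  unfold gy
  rw [c2l_mon_pow, c2l_smul_single, smul_zero]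

theorem c2l_gxy_pow {n : ℕ} (i j : Fin n) (k : ℕ) :
    (gx i * gy j : GF n) ^ k = mon (Pi.single i k) (Pi.single j k) := by
  rw [mul_pow, c2l_gx_pow, c2l_gy_pow, mon_mul, add_zero, zero_add]

theorem c2l_prod_gx_pow {n : ℕ} (e : Fin n → ℕ) : ∏ i, (gx i : GF n) ^ e i = mon e 0 := by
  simp_rw [c2l_gx_pow]
  rw [c2l_prod_mon, Finset.univ_sum_single e, Finset.sum_const_zero]

theorem c2l_prod_gy_pow {n : ℕ} (e : Fin n → ℕ) : ∏ i, (gy i : GF n) ^ e i = mon 0 e := by
  simp_rw [c2l_gy_pow]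
  rw [c2l_prod_mon, Finset.univ_sum_single e, Finset.sum_const_zero]

theorem c2l_cast_mul_mon {n : ℕ} (z : ℤ) (u v : Fin n → ℕ) :
    ((z : ℤ) : GF n) * mon u v = AddMonoidAlgebra.single (u, v) z := by
  rw [AddMonoidAlgebra.intCast_def]
  unfold mon
  rw [AddMonoidAlgebra.single_mul_single, zero_add, mul_one, Int.cast_id]

theorem c2l_vand_gx {n : ℕ} :
    (∏ i : Fin n, ∏ j ∈ Finset.Ioi i, (gx j - gx i : GF n)) =
      ∑ κ : Equiv.Perm (Fin n), AddMonoidAlgebra.single
        ((fun i => ((κ i : Fin n) : ℕ)), (0 : Fin n → ℕ)) (Equiv.Perm.sign κ : ℤ) := by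
  rw [← Matrix.det_vandermonde, ← Matrix.det_transpose, Matrix.det_apply']
  refine Finset.sum_congr rfl fun κ _ => ?_
  have h1 : ∏ i, (Matrix.vandermonde (gx : Fin n → GF n)).transpose (κ i) i
      = mon (fun i => ((κ i : Fin n) : ℕ)) 0 := by
    simp_rw [Matrix.transpose_apply, Matrix.vandermonde_apply]
    exact c2l_prod_gx_pow _
  rw [h1, c2l_cast_mul_mon]

theorem c2l_vand_gy {n : ℕ} :
    (∏ i : Fin n, ∏ j ∈ Finset.Ioi i, (gy j - gy i : GF n)) =
      ∑ κ : Equiv.Perm (Fin n), AddMonoidAlgebra.single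
        ((0 : Fin n → ℕ), (fun i => ((κ i : Fin n) : ℕ))) (Equiv.Perm.sign κ : ℤ) := by
  rw [← Matrix.det_vandermonde, ← Matrix.det_transpose, Matrix.det_apply']
  refine Finset.sum_congr rfl fun κ _ => ?_
  have h1 : ∏ i, (Matrix.vandermonde (gy : Fin n → GF n)).transpose (κ i) i
      = mon 0 (fun i => ((κ i : Fin n) : ℕ)) := by
    simp_rw [Matrix.transpose_apply, Matrix.vandermonde_apply]
    exact c2l_prod_gy_pow _
  rw [h1, c2l_cast_mul_mon]

theorem c2l_geom {n : ℕ} (D : ℕ) :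
    (∏ i : Fin n, ∏ j : Fin n, ∑ k ∈ Finset.range D, (gx i * gy j : GF n) ^ k) =
      ∑ M ∈ Fintype.piFinset
          (fun _ : Fin n => Fintype.piFinset (fun _ : Fin n => Finset.range D)),
        AddMonoidAlgebra.single ((fun i => ∑ j, M i j), (fun j => ∑ i, M i j)) (1 : ℤ) := by
  have h2 : ∀ i : Fin n, ∏ j : Fin n, ∑ k ∈ Finset.range D, (gx i * gy j : GF n) ^ k
      = ∑ r ∈ Fintype.piFinset (fun _ : Fin n => Finset.range D),
          mon (Pi.single i (∑ j, r j)) r := by
    intro i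
    simp_rw [c2l_gxy_pow]
    rw [Finset.prod_univ_sum]
    refine Finset.sum_congr rfl fun r _ => ?_
    rw [c2l_prod_mon, Finset.univ_sum_single r]
    congr 1
    ext a
    rw [Finset.sum_apply]
    by_cases ha : a = i
    · subst ha; simp
    · simp [ha]
  simp_rw [h2]
  rw [Finset.prod_univ_sum]
  refine Finset.sum_congr rfl fun M _ => ?_
  rw [c2l_prod_mon, Finset.univ_sum_single (fun i => ∑ j, M i j)]
  have h3 : (∑ i, M i) = fun j => ∑ i, M i j := by
    ext j
    rw [Finset.sum_apply]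
  rw [h3]
  rfl

/-- The counting step. -/
theorem c2l_count {n : ℕ} (lam lam' : Fin n → ℕ) (D : ℕ) (hD : ∀ i, lam i < D)
    (K K' : Fin n → ℕ) :
    ((Fintype.piFinset
        (fun _ : Fin n => Fintype.piFinset (fun _ : Fin n => Finset.range D))).filter
      (fun M : Fin n → Fin n → ℕ => ((K, (0 : Fin n → ℕ)) + ((0 : Fin n → ℕ), K')
        + ((fun i => ∑ j, M i j), (fun j => ∑ i, M i j))) = (lam, lam'))).card
      = if (∀ i, K i ≤ lam i) ∧ (∀ i, K' i ≤ lam' i) then
          margCount (fun i => lam i - K i) (fun j => lam' j - K' j) else 0 := by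
  classical
  have hiff : ∀ M : Fin n → Fin n → ℕ,
      (((K, (0 : Fin n → ℕ)) + ((0 : Fin n → ℕ), K')
        + ((fun i => ∑ j, M i j), (fun j => ∑ i, M i j))) = (lam, lam'))
      ↔ (∀ i, K i + ∑ j, M i j = lam i) ∧ (∀ j, K' j + ∑ i, M i j = lam' j) := by
    intro M
    rw [Prod.ext_iff]
    simp only [Prod.fst_add, Prod.snd_add, add_zero, zero_add, funext_iff, Pi.add_apply]
  split_ifs with hc
  · unfold margCount
    rw [← Nat.card_eq_finsetCard]
    refine Nat.card_congr (Equiv.subtypeEquivRight fun M => ?_)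
    rw [Finset.mem_filter, hiff]
    constructor
    · rintro ⟨-, h1, h2⟩
      refine ⟨fun i => ?_, fun j => ?_⟩
      · show ∑ j, M i j = lam i - K i
        have := h1 i; omega
      · show ∑ i, M i j = lam' j - K' j
        have := h2 j; omega
    · rintro ⟨h1, h2⟩
      have h1' : ∀ i, ∑ j, M i j = lam i - K i := h1
      have h2' : ∀ j, ∑ i, M i j = lam' j - K' j := h2
      refine ⟨?_, fun i => by have := h1' i; have := hc.1 i; omega,
        fun j => by have := h2' j; have := hc.2 j; omega⟩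
      rw [Fintype.mem_piFinset]
      intro i
      rw [Fintype.mem_piFinset]
      intro j
      rw [Finset.mem_range]
      have h3 : M i j ≤ ∑ j, M i j :=
        Finset.single_le_sum (f := fun j => M i j) (fun _ _ => Nat.zero_le _) (Finset.mem_univ j)
      have := h1' i
      have := hD i
      omega
  · rw [Finset.card_eq_zero, Finset.filter_eq_empty_iff]
    intro M _ hM
    rw [hiff] at hM
    apply hc
    exact ⟨fun i => by have := hM.1 i; omega, fun j => by have := hM.2 j; omega⟩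

theorem coeff_vand_geom {n : ℕ} (lam lam' : Fin n → ℕ) (D : ℕ) (hD : ∀ i, lam i < D)
    (hD' : ∀ i, lam' i < D) :
    ((∏ i, ∏ j ∈ Finset.Ioi i, (gx j - gx i : GF n)) *
        (∏ i, ∏ j ∈ Finset.Ioi i, (gy j - gy i : GF n)) *
        ∏ i, ∏ j, ∑ k ∈ Finset.range D, (gx i * gy j : GF n) ^ k).coeff (lam, lam') =
      ∑ κ : Equiv.Perm (Fin n), ∑ κ' : Equiv.Perm (Fin n),
        if (∀ i, (κ i).val ≤ lam i) ∧ (∀ i, (κ' i).val ≤ lam' i) then
          ((Equiv.Perm.sign κ : ℤ) * (Equiv.Perm.sign κ' : ℤ)) *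
            (margCount (fun i => lam i - (κ i).val) (fun j => lam' j - (κ' j).val) : ℤ)
        else 0 := by
  classical
  rw [c2l_vand_gx, c2l_vand_gy, c2l_geom, Finset.sum_mul_sum, Finset.sum_mul,
    AddMonoidAlgebra.coeff_sum, Finsupp.finsetSum_apply]
  refine Finset.sum_congr rfl fun κ _ => ?_
  rw [Finset.sum_mul, AddMonoidAlgebra.coeff_sum, Finsupp.finsetSum_apply]
  refine Finset.sum_congr rfl fun κ' _ => ?_
  rw [AddMonoidAlgebra.single_mul_single, Finset.mul_sum, AddMonoidAlgebra.coeff_sum,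
    Finsupp.finsetSum_apply]
  simp_rw [AddMonoidAlgebra.single_mul_single, AddMonoidAlgebra.coeff_single, Finsupp.single_apply]
  rw [Finset.sum_ite, Finset.sum_const_zero, add_zero, Finset.sum_const, nsmul_eq_mul,
    c2l_count lam lam' D hD]
  split_ifs
  · rw [mul_one, mul_comm]
  · simp
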