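import Mathlib
import Cfsg.Agent.H77.FxDefs
import Cfsg.Agent.H17.Symp

/-!
S5975-INVOL piece (team project S5975 of helper77): the involution `-1` on a hyperbolic plane
and `1` on its orthogonal complement.
-/

set_option autoImplicit false

namespace Cfsg.Agent.H89.Fx

open Cfsg.Agent.H45 Cfsg.Agent.H42.Spd Cfsg.Agent.H77.Fx Module

universe u

variable {F : Type u} [Field F]

/-- The sign vector: `-1` at the two coordinates of index `i₀`, `1` elsewhere. -/
def sgn (d : ℕ) (F : Type u) [Field F] (i₀ : Fin d) : Fin d ⊕ Fin d → F :=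
  Sum.elim (fun i => if i = i₀ then -1 else 1) (fun i => if i = i₀ then -1 else 1)

theorem sgn_inl (d : ℕ) (i₀ i : Fin d) :
    sgn d F i₀ (Sum.inl i) = if i = i₀ then -1 else 1 := rfl

theorem sgn_inr (d : ℕ) (i₀ i : Fin d) :
    sgn d F i₀ (Sum.inr i) = if i = i₀ then -1 else 1 := rfl

theorem sgn_mul_self (d : ℕ) (i₀ : Fin d) (j : Fin d ⊕ Fin d) :
    sgn d F i₀ j * sgn d F i₀ j = 1 := by
  rcases j with i | i
  · rw [sgn_inl]
    split_ifs <;> ring
  · rw [sgn_inr]
    split_ifs <;> ring

theorem diag_mul_self (d : ℕ) (i₀ : Fin d) :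
    (Matrix.diagonal (sgn d F i₀) : Mat d F) * Matrix.diagonal (sgn d F i₀) = 1 := by
  rw [Matrix.diagonal_mul_diagonal, ← Matrix.diagonal_one]
  congr 1
  funext j
  exact sgn_mul_self d i₀ j

/-- The involution as an element of `GL`. -/
def invEl (d : ℕ) (F : Type u) [Field F] (i₀ : Fin d) :
    Matrix.GeneralLinearGroup (Fin d ⊕ Fin d) F :=
  ⟨Matrix.diagonal (sgn d F i₀), Matrix.diagonal (sgn d F i₀), diag_mul_self d i₀,
    diag_mul_self d i₀⟩

theorem invEl_coe (d : ℕ) (i₀ : Fin d) :
    ((invEl d F i₀ : Matrix.GeneralLinearGroup (Fin d ⊕ Fin d) F) : Mat d F) =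
      Matrix.diagonal (sgn d F i₀) := rfl

theorem mem_spGL_iff (d : ℕ) (x : Matrix.GeneralLinearGroup (Fin d ⊕ Fin d) F) :
    x ∈ Cfsg.spGL d F ↔ ∀ u v, Cfsg.sympForm d F (Matrix.mulVec (x : Mat d F) u)
      (Matrix.mulVec (x : Mat d F) v) = Cfsg.sympForm d F u v := Iff.rfl

theorem invEl_mem (d : ℕ) (i₀ : Fin d) : invEl d F i₀ ∈ Cfsg.spGL d F := by
  rw [mem_spGL_iff]
  intro u v
  rw [invEl_coe, Cfsg.Agent.H17.sympForm_eq_sum, Cfsg.Agent.H17.sympForm_eq_sum]
  refine Finset.sum_congr rfl (fun i _ => ?_)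
  rw [Matrix.mulVec_diagonal, Matrix.mulVec_diagonal, Matrix.mulVec_diagonal,
    Matrix.mulVec_diagonal, sgn_inl, sgn_inr]
  have ht : (if i = i₀ then (-1 : F) else 1) * (if i = i₀ then (-1 : F) else 1) = 1 := by
    split_ifs <;> ring
  linear_combination (u (Sum.inr i) * v (Sum.inl i) - u (Sum.inl i) * v (Sum.inr i)) * ht

theorem mem_fix_iff (h2 : (2 : F) ≠ 0) (d : ℕ) (i₀ : Fin d) (v : Vec d F) :
    v ∈ fixSp d (Matrix.diagonal (sgn d F i₀) : Mat d F) ↔
      v (Sum.inl i₀) = 0 ∧ v (Sum.inr i₀) = 0 := by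
  rw [LinearMap.mem_ker, LinearMap.sub_apply, Matrix.toLin'_apply, Module.End.one_apply,
    sub_eq_zero]
  constructor
  · intro h
    have key : ∀ j, sgn d F i₀ j = -1 → v j = 0 := by
      intro j hj
      have hj' := congrFun h j
      rw [Matrix.mulVec_diagonal, hj] at hj'
      have h0 : (2 : F) * v j = 0 := by linear_combination -hj'
      rcases mul_eq_zero.mp h0 with h0 | h0
      · exact absurd h0 h2
      · exact h0
    exact ⟨key _ (by rw [sgn_inl, if_pos rfl]), key _ (by rw [sgn_inr, if_pos rfl])⟩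
  · rintro ⟨h1, h2'⟩
    funext j
    rw [Matrix.mulVec_diagonal]
    rcases j with i | i
    · rw [sgn_inl]
      by_cases hi : i = i₀
      · rw [hi, h1, mul_zero]
      · rw [if_neg hi, one_mul]
    · rw [sgn_inr]
      by_cases hi : i = i₀
      · rw [hi, h2', mul_zero]
      · rw [if_neg hi, one_mul]

theorem symp_single_inr (d : ℕ) (i : Fin d) (v : Vec d F) :
    Cfsg.sympForm d F (Pi.single (Sum.inr i) 1) v = v (Sum.inl i) := by
  rw [Cfsg.Agent.H17.sympForm_eq_sum, Finset.sum_eq_single i]
  · simp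
  · intro b _ hb
    simp [hb]
  · intro h
    exact absurd (Finset.mem_univ i) h

theorem symp_single_inl (d : ℕ) (i : Fin d) (v : Vec d F) :
    Cfsg.sympForm d F (Pi.single (Sum.inl i) 1) v = -v (Sum.inr i) := by
  rw [Cfsg.Agent.H17.sympForm_eq_sum, Finset.sum_eq_single i]
  · simp
  · intro b _ hb
    simp [hb]
  · intro h
    exact absurd (Finset.mem_univ i) h

theorem fix_nondeg (h2 : (2 : F) ≠ 0) (d : ℕ) (i₀ : Fin d) :
    fixSp d (Matrix.diagonal (sgn d F i₀) : Mat d F) ⊓
      perp (stdB d F) (fixSp d (Matrix.diagonal (sgn d F i₀) : Mat d F)) = ⊥ := by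
  rw [eq_bot_iff]
  rintro v ⟨hv1, hv2⟩
  have hv1' := (mem_fix_iff h2 d i₀ v).mp hv1
  have hv2' : ∀ u ∈ fixSp d (Matrix.diagonal (sgn d F i₀) : Mat d F),
      Cfsg.sympForm d F u v = 0 := by
    intro u hu
    rw [← stdB_apply]
    exact hv2 u hu
  rw [Submodule.mem_bot]
  funext j
  rcases j with i | i
  · by_cases hi : i = i₀
    · rw [hi]
      exact hv1'.1
    · have hmem : (Pi.single (Sum.inr i) 1 : Vec d F) ∈
          fixSp d (Matrix.diagonal (sgn d F i₀) : Mat d F) := by
        rw [mem_fix_iff h2]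
        constructor
        · simp
        · simp [Ne.symm hi]
      have h := hv2' _ hmem
      rw [symp_single_inr] at h
      exact h
  · by_cases hi : i = i₀
    · rw [hi]
      exact hv1'.2
    · have hmem : (Pi.single (Sum.inl i) 1 : Vec d F) ∈
          fixSp d (Matrix.diagonal (sgn d F i₀) : Mat d F) := by
        rw [mem_fix_iff h2]
        constructor
        · simp [Ne.symm hi]
        · simp
      have h := hv2' _ hmem
      rw [symp_single_inl] at h
      exact neg_eq_zero.mp h

theorem fix_finrank [Fintype F] (h2 : (2 : F) ≠ 0) (d : ℕ) (i₀ : Fin d) :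
    Module.finrank F ↥(fixSp d (Matrix.diagonal (sgn d F i₀) : Mat d F)) + 2 = 2 * d := by
  classical
  have hrn := LinearMap.finrank_range_add_finrank_ker
    (Matrix.toLin' (Matrix.diagonal (sgn d F i₀) : Mat d F) - 1)
  have hV : Module.finrank F (Vec d F) = 2 * d := by
    rw [Module.finrank_pi]
    simp
    ring
  have hsub : Matrix.toLin' (Matrix.diagonal (sgn d F i₀) : Mat d F) - 1 =
      (Matrix.diagonal (fun j => sgn d F i₀ j - 1) : Mat d F).mulVecLin := by
    have h1 : (1 : Module.End F (Vec d F)) = Matrix.toLin' (1 : Mat d F) := by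
      rw [Matrix.toLin'_one]
      rfl
    rw [h1, ← map_sub, Matrix.toLin'_apply', ← Matrix.diagonal_one, Matrix.diagonal_sub]
  have hrank : Module.finrank F ↥(LinearMap.range
      (Matrix.toLin' (Matrix.diagonal (sgn d F i₀) : Mat d F) - 1)) = 2 := by
    rw [hsub]
    have := Matrix.rank_diagonal (fun j => sgn d F i₀ j - 1)
    unfold Matrix.rank at this
    rw [this, Fintype.card_subtype]
    have hfilter : (Finset.univ.filter (fun j : Fin d ⊕ Fin d => sgn d F i₀ j - 1 ≠ 0)) =
        {Sum.inl i₀, Sum.inr i₀} := by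
      ext j
      simp only [Finset.mem_filter, Finset.mem_univ, true_and, Finset.mem_insert,
        Finset.mem_singleton]
      rcases j with i | i
      · rw [sgn_inl]
        by_cases hi : i = i₀
        · rw [if_pos hi, hi]
          constructor
          · intro _
            exact Or.inl rfl
          · intro _ h0
            apply h2
            linear_combination -h0
        · rw [if_neg hi]
          constructor
          · intro h
            exact absurd (sub_self 1) h
          · rintro (h | h)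
            · exact absurd (Sum.inl.inj h) hi
            · exact absurd h (by simp)
      · rw [sgn_inr]
        by_cases hi : i = i₀
        · rw [if_pos hi, hi]
          constructor
          · intro _
            exact Or.inr rfl
          · intro _ h0
            apply h2
            linear_combination -h0
        · rw [if_neg hi]
          constructor
          · intro h
            exact absurd (sub_self 1) h
          · rintro (h | h)
            · exact absurd h (by simp)
            · exact absurd (Sum.inr.inj h) hi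
    rw [hfilter, Finset.card_insert_of_notMem (by simp), Finset.card_singleton]
  rw [hrank, hV] at hrn
  exact (add_comm _ _).trans hrn

theorem invol : StInvol.{u} := by
  intro F _ _ d hd h2
  obtain ⟨i₀, hi₀⟩ : ∃ i₀ : Fin d, i₀ = ⟨0, by omega⟩ := ⟨_, rfl⟩
  obtain ⟨i₁, hi₁⟩ : ∃ i₁ : Fin d, i₁ = ⟨1, by omega⟩ := ⟨_, rfl⟩
  have h01 : i₁ ≠ i₀ := by
    rw [hi₀, hi₁]
    intro h
    have := congrArg Fin.val h
    simp at this
  refine ⟨invEl d F i₀, invEl_mem d i₀, ?_, ?_, ?_, ?_⟩
  · rw [invEl_coe]
    exact diag_mul_self d i₀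
  · intro z hz
    rw [invEl_coe] at hz
    have e0 := congrFun (congrFun hz (Sum.inl i₀)) (Sum.inl i₀)
    have e1 := congrFun (congrFun hz (Sum.inl i₁)) (Sum.inl i₁)
    rw [Matrix.diagonal_apply_eq, Matrix.smul_apply, Matrix.one_apply_eq, sgn_inl, smul_eq_mul,
      mul_one] at e0 e1
    rw [if_pos rfl] at e0
    rw [if_neg h01] at e1
    apply h2
    linear_combination e1 - e0
  · rw [invEl_coe]
    exact fix_nondeg h2 d i₀
  · rw [invEl_coe]
    exact fix_finrank h2 d i₀

end Cfsg.Agent.H89.Fx

namespace Cfsg.Agent.H89.Fx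
universe u
example : Cfsg.Agent.H77.Fx.StInvol.{u} := invol
end Cfsg.Agent.H89.Fx
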