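import Mathlib
import Cfsg.Agent.H77.FxDefs

/-!
S5975-KDVD piece (team project S5975 of helper77): a subspace invariant under a field
subalgebra `K` of degree `k` has dimension divisible by `k`.
-/

set_option autoImplicit false

namespace Cfsg.Agent.H89.Fx

open Cfsg.Agent.H77.Fx Module

universe u

/-- The `K`-module structure on a `K`-invariant subspace. -/
abbrev modOfInv {F : Type u} [Field F] {d : ℕ} (K : Subalgebra F (Mat d F))
    (W : Submodule F (Vec d F)) (hW : ∀ a ∈ K, ∀ w ∈ W, Matrix.mulVec a w ∈ W) :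
    Module ↥K ↥W where
  smul a w := ⟨Matrix.mulVec (a : Mat d F) (w : Vec d F), hW a a.2 w w.2⟩
  one_smul w := Subtype.ext (by
    show Matrix.mulVec ((1 : ↥K) : Mat d F) (w : Vec d F) = (w : Vec d F)
    rw [OneMemClass.coe_one, Matrix.one_mulVec])
  mul_smul a b w := Subtype.ext (by
    show Matrix.mulVec ((a : Mat d F) * (b : Mat d F)) (w : Vec d F) =
      Matrix.mulVec (a : Mat d F) (Matrix.mulVec (b : Mat d F) (w : Vec d F))
    rw [Matrix.mulVec_mulVec])
  smul_zero a := Subtype.ext (by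
    show Matrix.mulVec (a : Mat d F) ((0 : ↥W) : Vec d F) = ((0 : ↥W) : Vec d F)
    rw [ZeroMemClass.coe_zero, Matrix.mulVec_zero])
  smul_add a w w' := Subtype.ext (by
    show Matrix.mulVec (a : Mat d F) ((w + w' : ↥W) : Vec d F) =
      Matrix.mulVec (a : Mat d F) (w : Vec d F) + Matrix.mulVec (a : Mat d F) (w' : Vec d F)
    rw [Submodule.coe_add, Matrix.mulVec_add])
  add_smul a b w := Subtype.ext (by
    show Matrix.mulVec ((a + b : ↥K) : Mat d F) (w : Vec d F) =
      Matrix.mulVec (a : Mat d F) (w : Vec d F) + Matrix.mulVec (b : Mat d F) (w : Vec d F)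
    rw [AddMemClass.coe_add, Matrix.add_mulVec])
  zero_smul w := Subtype.ext (by
    show Matrix.mulVec ((0 : ↥K) : Mat d F) (w : Vec d F) = ((0 : ↥W) : Vec d F)
    rw [ZeroMemClass.coe_zero, ZeroMemClass.coe_zero, Matrix.zero_mulVec])

theorem tower_of {F : Type u} [Field F] {d : ℕ} (K : Subalgebra F (Mat d F))
    (W : Submodule F (Vec d F)) (hW : ∀ a ∈ K, ∀ w ∈ W, Matrix.mulVec a w ∈ W) :
    @IsScalarTower F ↥K ↥W _ (modOfInv K W hW).toDistribMulAction.toMulAction.toSMul _ := by
  refine @IsScalarTower.mk F ↥K ↥W _ (modOfInv K W hW).toDistribMulAction.toMulAction.toSMul _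
    (fun c a w => Subtype.ext ?_)
  show Matrix.mulVec (c • (a : Mat d F)) (w : Vec d F) =
        c • Matrix.mulVec (a : Mat d F) (w : Vec d F)
  rw [Matrix.smul_mulVec]

/-- A vector space over a field extension `L` of `F` has `F`-dimension divisible by
`[L : F]`. -/
theorem dvd_finrank_of_field {F : Type*} [Field F] {L : Type*} [Field L] [Algebra F L]
    {W : Type*} [AddCommGroup W] [Module F W] [Module L W] [IsScalarTower F L W] :
    Module.finrank F L ∣ Module.finrank F W :=
  ⟨_, (Module.finrank_mul_finrank F L W).symm⟩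

/-- A field subalgebra of the matrices of positive size is a field. -/
theorem isField_of {F : Type u} [Field F] {d k : ℕ} (hd : 0 < d) {K : Subalgebra F (Mat d F)}
    (hK : Cfsg.Geo.IsFieldSubalgebra k K) : IsField ↥K := by
  have hne : Nonempty (Fin d ⊕ Fin d) := ⟨Sum.inl ⟨0, hd⟩⟩
  refine ⟨⟨0, 1, fun h => ?_⟩, fun a b => Subtype.ext (hK.comm a a.2 b b.2), fun {a} ha => ?_⟩
  · have h' : (0 : Mat d F) = 1 := congrArg Subtype.val h
    exact zero_ne_one h'
  · obtain ⟨y, hy, hxy⟩ := hK.inv a a.2 (fun h => ha (Subtype.ext h))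
    exact ⟨⟨y, hy⟩, Subtype.ext hxy⟩

theorem kDvd_pos {F : Type u} [Field F] {d k : ℕ} (hd : 0 < d) (K : Subalgebra F (Mat d F))
    (hK : Cfsg.Geo.IsFieldSubalgebra k K) (W : Submodule F (Vec d F))
    (hW : ∀ a ∈ K, ∀ w ∈ W, Matrix.mulVec a w ∈ W) : k ∣ Module.finrank F W := by
  have h : Module.finrank F ↥K ∣ Module.finrank F ↥W :=
    @dvd_finrank_of_field F _ ↥K (isField_of hd hK).toField K.algebra ↥W _ _
      (modOfInv K W hW) (tower_of K W hW)
  rw [hK.finrank_eq] at h
  exact h

theorem kDvd : StKDvd.{u} := by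
  intro F _ _ d k K hK W hW
  rcases Nat.eq_zero_or_pos d with hd | hd
  · subst hd
    have h0 : Module.finrank F W = 0 := by
      have hs : Subsingleton (Vec 0 F) := ⟨fun a b => funext fun j => by
        rcases j with i | i <;> exact i.elim0⟩
      exact Module.finrank_zero_of_subsingleton
    rw [h0]
    exact dvd_zero k
  · exact kDvd_pos hd K hK W hW

end Cfsg.Agent.H89.Fx

namespace Cfsg.Agent.H89.Fx
universe u
example : Cfsg.Agent.H77.Fx.StKDvd.{u} := kDvd
end Cfsg.Agent.H89.Fx
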