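import Mathlib
import Cfsg.Agent.H48.GUCDefs
import Cfsg.Agent.H97.Nilp

/-!
GUC-CONJ piece of S2646: a matrix conjugate to the (reindexed) Jordan-type matrix is unipotent,
and any matrix with the same ranks of powers as `u - 1` is conjugate to the (reindexed) nilpotent
Jordan matrix.
-/

set_option autoImplicit false

namespace Cfsg.Agent.H89.GUC

open Finset Cfsg.Agent.H61 Cfsg.Agent.H48.GUC

universe u

theorem jordanNil_pow_sup {K : Type u} [Field K] {t : ℕ} (d : Fin t → ℕ) :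
    jordanNil d K ^ (univ.sup d) = 0 := by
  ext x y
  have h := mul_jordanNil_pow_apply (1 : Matrix (JI d) (JI d) K) (univ.sup d) x y
  rw [one_mul] at h
  rw [h, dif_neg, Matrix.zero_apply]
  have h1 : d y.1 ≤ univ.sup d := Finset.le_sup (Finset.mem_univ y.1)
  omega

theorem reindex_pow {K : Type u} [Field K] {n : ℕ} {ι : Type} [Fintype ι] [DecidableEq ι]
    (e : ι ≃ Fin n) (M : Matrix ι ι K) (j : ℕ) :
    Matrix.reindex e e (M ^ j) = (Matrix.reindex e e M) ^ j :=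
  map_pow (Matrix.reindexAlgEquiv K K e) M j

theorem conj : ConjStmt.{u} := by
  intro K _ n t d e u hconj
  obtain ⟨c, hc⟩ := hconj
  have hc' : (c : Matrix (Fin n) (Fin n) K) * Matrix.reindex e e (Cfsg.jordanTypeMatrix d K) =
      u * (c : Matrix (Fin n) (Fin n) K) := hc
  obtain ⟨N', hN'⟩ : ∃ N' : Matrix (Fin n) (Fin n) K, N' = Matrix.reindex e e (jordanNil d K) :=
    ⟨_, rfl⟩
  have hJ : Matrix.reindex e e (Cfsg.jordanTypeMatrix d K) = 1 + N' := by
    rw [jordanTypeMatrix_eq, hN']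
    have h1 : Matrix.reindex e e (1 + jordanNil d K) =
        Matrix.reindex e e (1 : Matrix (JI d) (JI d) K) + Matrix.reindex e e (jordanNil d K) :=
      map_add (Matrix.reindexAlgEquiv K K e) 1 (jordanNil d K)
    have h2 : Matrix.reindex e e (1 : Matrix (JI d) (JI d) K) = 1 :=
      map_one (Matrix.reindexAlgEquiv K K e)
    rw [h1, h2]
  rw [hJ, mul_add, mul_one] at hc'
  have hsc : (c : Matrix (Fin n) (Fin n) K) * N' = (u - 1) * (c : Matrix (Fin n) (Fin n) K) := by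
    rw [sub_mul, one_mul, ← hc']
    abel
  have hpow : ∀ j : ℕ, (c : Matrix (Fin n) (Fin n) K) * N' ^ j =
      (u - 1) ^ j * (c : Matrix (Fin n) (Fin n) K) := by
    intro j
    have h1 : SemiconjBy (c : Matrix (Fin n) (Fin n) K) N' (u - 1) := hsc
    exact (h1.pow_right j)
  have hN0 : N' ^ (univ.sup d) = 0 := by
    rw [hN', ← reindex_pow, jordanNil_pow_sup]
    exact map_zero (Matrix.reindexAlgEquiv K K e)
  have hcu : IsUnit (c : Matrix (Fin n) (Fin n) K).det :=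
    (Matrix.isUnit_iff_isUnit_det _).mp c.isUnit
  have hu0 : (u - 1) ^ (univ.sup d) = 0 := by
    have h1 := hpow (univ.sup d)
    rw [hN0, mul_zero] at h1
    have h2 : (u - 1) ^ (univ.sup d) * (c : Matrix (Fin n) (Fin n) K) *
        ((c⁻¹ : (Matrix (Fin n) (Fin n) K)ˣ) : Matrix (Fin n) (Fin n) K) = 0 := by
      rw [← h1, zero_mul]
    rwa [mul_assoc, Units.mul_inv, mul_one] at h2
  have hrank : ∀ j : ℕ, ((u - 1) ^ j).rank = (N' ^ j).rank := by
    intro j
    rw [← Matrix.rank_mul_eq_left_of_isUnit_det (c : Matrix (Fin n) (Fin n) K) ((u - 1) ^ j) hcu,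
      ← hpow j, Matrix.rank_mul_eq_right_of_isUnit_det (c : Matrix (Fin n) (Fin n) K) (N' ^ j) hcu]
  refine ⟨⟨univ.sup d, hu0⟩, ?_⟩
  intro s hs
  have hs0 : s ^ (univ.sup d) = 0 := by
    apply Cfsg.Agent.H97.Nilp.mat_eq_zero_of_rank
    rw [hs, hu0, Matrix.rank_zero]
  obtain ⟨P, Q, hPQ, hQP, hPs⟩ := Cfsg.Agent.H97.Nilp.mat_conj_of_rank s N' ⟨_, hs0⟩
    (fun k => by rw [hs k, hrank k])
  refine ⟨⟨Q, P, hQP, hPQ⟩, ?_⟩
  rw [← hN']
  show s * Q = Q * N'
  calc s * Q = (Q * P) * s * Q := by rw [hQP, one_mul]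
    _ = Q * (P * s) * Q := by rw [mul_assoc Q P s]
    _ = Q * (N' * P) * Q := by rw [hPs]
    _ = Q * N' * (P * Q) := by simp only [mul_assoc]
    _ = Q * N' := by rw [hPQ, mul_one]

end Cfsg.Agent.H89.GUC

namespace Cfsg.Agent.H89.GUC
universe u
example : Cfsg.Agent.H48.GUC.ConjStmt.{u} := conj
end Cfsg.Agent.H89.GUC
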