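import Mathlib
import Cfsg.Agent.H48.GUCDefs

/-!
GUC-SAPAR piece of S2646: the nondegenerate hermitian forms for which the nilpotent Jordan matrix
is self-adjoint are parametrised by `ParSA`.
-/

set_option autoImplicit false

namespace Cfsg.Agent.H89.GUC

open Finset Cfsg.Agent.H61 Cfsg.Agent.H48.GUC

universe u

variable {t : ℕ} {d : Fin t → ℕ}

/-- Reverse the position inside each Jordan block. -/
def flip (x : JI d) : JI d := ⟨x.1, ⟨d x.1 - 1 - x.2.val, by have := x.2.2; omega⟩⟩

@[simp] theorem flip_fst (x : JI d) : (flip x).1 = x.1 := rfl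
@[simp] theorem flip_snd (x : JI d) : (flip x).2.val = d x.1 - 1 - x.2.val := rfl

theorem flip_flip (x : JI d) : flip (flip x) = x := by
  rw [JI_ext_iff]
  refine ⟨rfl, ?_⟩
  have := x.2.2
  simp only [flip_fst, flip_snd]
  omega

/-- `flip` as a permutation. -/
def flipPerm : Equiv.Perm (JI d) := ⟨flip, flip, flip_flip, flip_flip⟩

variable {K : Type u} [Field K]

theorem transpose_jordanNil_mul_apply (G : Matrix (JI d) (JI d) K) (x y : JI d) :
    ((jordanNil d K).transpose * G) x y =
      if h : x.2.val + 1 < d x.1 then G ⟨x.1, ⟨x.2.val + 1, h⟩⟩ y else 0 := by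
  have h1 : (jordanNil d K).transpose * G = (G.transpose * jordanNil d K).transpose := by
    rw [Matrix.transpose_mul, Matrix.transpose_transpose]
  rw [h1, Matrix.transpose_apply, mul_jordanNil_apply]
  rfl

theorem sub_mul_jordanNil (G : Matrix (JI d) (JI d) K) (x y : JI d) :
    ((G.submatrix flip id) * jordanNil d K) x y = (G * jordanNil d K) (flip x) y := by
  rw [mul_jordanNil_apply, mul_jordanNil_apply]
  rfl

theorem jordanNil_mul_sub (G : Matrix (JI d) (JI d) K) (x y : JI d) :
    (jordanNil d K * (G.submatrix flip id)) x y =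
      ((jordanNil d K).transpose * G) (flip x) y := by
  rw [jordanNil_mul_apply, transpose_jordanNil_mul_apply]
  have hx := x.2.2
  by_cases h : 1 ≤ x.2.val
  · rw [if_pos h, dif_pos (by simp only [flip_fst, flip_snd]; omega)]
    show G (flip (jsub x 1)) y = _
    congr 1
    rw [JI_ext_iff]
    refine ⟨rfl, ?_⟩
    simp only [flip_fst, flip_snd, jsub_fst, jsub_snd]
    omega
  · rw [if_neg h, dif_neg (by simp only [flip_fst, flip_snd]; omega)]

theorem comm_iff (G : Matrix (JI d) (JI d) K) :
    (jordanNil d K).transpose * G = G * jordanNil d K ↔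
      (G.submatrix flip id) * jordanNil d K = jordanNil d K * (G.submatrix flip id) := by
  constructor
  · intro h
    ext x y
    rw [sub_mul_jordanNil, jordanNil_mul_sub, h]
  · intro h
    ext x y
    have h1 := congrFun (congrFun h (flip x)) y
    rw [sub_mul_jordanNil, jordanNil_mul_sub, flip_flip] at h1
    exact h1.symm

theorem det_sub_ne_zero_iff (G : Matrix (JI d) (JI d) K) :
    (G.submatrix flip id).det ≠ 0 ↔ G.det ≠ 0 := by
  have h1 : (G.submatrix flip id).det = ((Equiv.Perm.sign (flipPerm (d := d)) : ℤ) : K) * G.det :=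
    Matrix.det_permute (flipPerm (d := d)) G
  rw [h1]
  rcases Int.units_eq_one_or (Equiv.Perm.sign (flipPerm (d := d))) with h | h
  · rw [h]
    simp
  · rw [h]
    simp

omit [Field K] in
theorem sub_sub (M : Matrix (JI d) (JI d) K) :
    (M.submatrix flip id).submatrix flip id = M := by
  ext x y
  simp only [Matrix.submatrix_apply, id, flip_flip]

variable (hd : ∀ k, 1 ≤ d k)

include hd in
theorem entry_eq (G : Matrix (JI d) (JI d) K)
    (hg : (G.submatrix flip id) * jordanNil d K = jordanNil d K * (G.submatrix flip id))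
    (x y : JI d) :
    G x y = if y.2.val ≤ (flip x).2.val then
      G (flip (jsub (flip x) y.2.val)) (jtop hd y.1) else 0 := by
  have h := comm_apply_eq hd _ hg (flip x) y
  simp only [Matrix.submatrix_apply, id, flip_flip] at h
  exact h

theorem herm_of_symm (σ : K →+* K) (f : JI d × Fin t → K)
    (hz : ∀ p : JI d × Fin t, p.1.2.val < d p.1.1 - d p.2 → f p = 0)
    (hs : ∀ (k l : Fin t) (s : ℕ) (hk : s < d k) (hl : s < d l),
      f ((⟨l, ⟨d l - 1 - s, by omega⟩⟩ : JI d), k) =
        σ (f ((⟨k, ⟨d k - 1 - s, by omega⟩⟩ : JI d), l))) :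
    (((matOfParam f).submatrix flip id).map σ).transpose = (matOfParam f).submatrix flip id := by
  ext x y
  simp only [Matrix.transpose_apply, Matrix.map_apply, Matrix.submatrix_apply, id,
    matOfParam_apply]
  have hx := x.2.2
  have hy := y.2.2
  by_cases h1 : x.2.val + y.2.val < d x.1
  · by_cases h2 : x.2.val + y.2.val < d y.1
    · rw [if_pos (by simp only [flip_snd]; omega), if_pos (by simp only [flip_snd]; omega)]
      have h3 := hs y.1 x.1 (x.2.val + y.2.val) h2 h1
      have e1 : jsub (flip y) x.2.val =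
          (⟨y.1, ⟨d y.1 - 1 - (x.2.val + y.2.val), by omega⟩⟩ : JI d) := by
        rw [JI_ext_iff]
        refine ⟨rfl, ?_⟩
        simp only [jsub_snd, flip_snd]
        omega
      have e2 : jsub (flip x) y.2.val =
          (⟨x.1, ⟨d x.1 - 1 - (x.2.val + y.2.val), by omega⟩⟩ : JI d) := by
        rw [JI_ext_iff]
        refine ⟨rfl, ?_⟩
        simp only [jsub_snd, flip_snd]
        omega
      rw [e1, e2]
      exact h3.symm
    · rw [if_neg (by simp only [flip_snd]; omega), if_pos (by simp only [flip_snd]; omega),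
        map_zero]
      symm
      apply hz
      simp only [jsub_fst, jsub_snd, flip_fst, flip_snd]
      omega
  · by_cases h2 : x.2.val + y.2.val < d y.1
    · rw [if_pos (by simp only [flip_snd]; omega), if_neg (by simp only [flip_snd]; omega)]
      rw [hz, map_zero]
      simp only [jsub_fst, jsub_snd, flip_fst, flip_snd]
      omega
    · rw [if_neg (by simp only [flip_snd]; omega), if_neg (by simp only [flip_snd]; omega),
        map_zero]

theorem saPar : SAParStmt.{u} := by
  intro K _ t σ hσ d hd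
  refine ⟨{ toFun := fun G => ⟨fun p => G.1 (flip p.1) (jtop hd p.2), ?_, ?_, ?_⟩
            invFun := fun f => ⟨(matOfParam f.1).submatrix flip id, ?_, ?_, ?_⟩
            left_inv := ?_
            right_inv := ?_ }⟩
  · -- zero condition
    intro p hp
    exact comm_apply_zero hd (G.1.submatrix flip id) ((comm_iff G.1).mp G.2.2.2) p.1 p.2 hp
  · -- symmetry
    intro k l s hk hl
    have hg := (comm_iff G.1).mp G.2.2.2
    have hH : ∀ x y, σ (G.1 y x) = G.1 x y := fun x y => congrFun (congrFun G.2.1 x) y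
    have e1 : flip (⟨l, ⟨d l - 1 - s, by omega⟩⟩ : JI d) = (⟨l, ⟨s, hl⟩⟩ : JI d) := by
      rw [JI_ext_iff]
      refine ⟨rfl, ?_⟩
      simp only [flip_snd]
      omega
    have e3 : flip (⟨k, ⟨d k - 1 - s, by omega⟩⟩ : JI d) = (⟨k, ⟨s, hk⟩⟩ : JI d) := by
      rw [JI_ext_iff]
      refine ⟨rfl, ?_⟩
      simp only [flip_snd]
      omega
    show G.1 (flip (⟨l, ⟨d l - 1 - s, by omega⟩⟩ : JI d)) (jtop hd k) =
      σ (G.1 (flip (⟨k, ⟨d k - 1 - s, by omega⟩⟩ : JI d)) (jtop hd l))
    rw [e1, e3, ← hH (⟨l, ⟨s, hl⟩⟩ : JI d) (jtop hd k)]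
    congr 1
    have h4 := entry_eq hd G.1 hg (jtop hd k) (⟨l, ⟨s, hl⟩⟩ : JI d)
    have hk1 := hd k
    rw [if_pos (by simp only [flip_snd, jtop_fst, jtop_snd]; omega)] at h4
    have e5 : flip (jsub (flip (jtop hd k)) s) = (⟨k, ⟨s, hk⟩⟩ : JI d) := by
      rw [JI_ext_iff]
      refine ⟨rfl, ?_⟩
      simp only [flip_fst, flip_snd, jsub_fst, jsub_snd, jtop_fst, jtop_snd]
      omega
    rw [h4]
    show G.1 (flip (jsub (flip (jtop hd k)) s)) (jtop hd l) = _
    rw [e5]
  · -- determinant
    intro i
    have hg := (comm_iff G.1).mp G.2.2.2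
    exact (comm_det_ne_zero_iff hd (G.1.submatrix flip id) hg).mp
      ((det_sub_ne_zero_iff G.1).mpr G.2.2.1) i
  · -- hermitian
    exact herm_of_symm σ f.1 f.2.1 f.2.2.1
  · -- determinant
    rw [← det_sub_ne_zero_iff, sub_sub]
    rw [comm_det_ne_zero_iff hd (matOfParam f.1) (matOfParam_comm f.1 f.2.1)]
    intro i
    have h1 : diagBlock hd (matOfParam f.1) i.val = paramBlock hd f.1 i.val := by
      ext k l
      simp [diagBlock, paramBlock, matOfParam, jsub, jtop]
    rw [h1]
    exact f.2.2.2 i
  · -- commutation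
    rw [comm_iff, sub_sub]
    exact matOfParam_comm f.1 f.2.1
  · -- left inverse
    intro G
    apply Subtype.ext
    ext x y
    have hg := (comm_iff G.1).mp G.2.2.2
    exact (entry_eq hd G.1 hg x y).symm
  · -- right inverse
    intro f
    apply Subtype.ext
    funext p
    show matOfParam f.1 (flip (flip p.1)) (jtop hd p.2) = f.1 p
    rw [flip_flip]
    simp [matOfParam, jsub]

end Cfsg.Agent.H89.GUC

namespace Cfsg.Agent.H89.GUC
universe u
example : Cfsg.Agent.H48.GUC.SAParStmt.{u} := saPar
end Cfsg.Agent.H89.GUC
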