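import Mathlib
import Cfsg.Agent.H42.JtDefs

/-!
# helper89: piece JT-ODD2 of helper42's project S5996/S5995 (hypothesis form)

Two odd Jordan blocks on the hyperbolic space: `z² + ∑ x y - z'² + ∑ x' y'` is carried to
`quadFormPlus (t₁ + t₂ + 1)` by `(z, z') ↦ (z + z', z - z')`.
-/

set_option autoImplicit false

namespace Cfsg.Agent.H89.Jt

open Cfsg.Agent.H42.Jt

/-- The index type of the orthogonal sum of the two odd forms. -/
abbrev OddIdx (t₁ t₂ : ℕ) : Type := (Unit ⊕ (Fin t₁ ⊕ Fin t₁)) ⊕ (Unit ⊕ (Fin t₂ ⊕ Fin t₂))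

/-- A coordinate projection. -/
noncomputable def oddPr (F : Type*) [Field F] {t₁ t₂ : ℕ} (a : OddIdx t₁ t₂) :
    (OddIdx t₁ t₂ → F) →ₗ[F] F :=
  LinearMap.proj (R := F) (φ := fun _ : OddIdx t₁ t₂ => F) a

theorem oddPr_apply {F : Type*} [Field F] {t₁ t₂ : ℕ} (a : OddIdx t₁ t₂)
    (v : OddIdx t₁ t₂ → F) : oddPr F a v = v a := rfl

/-- The change of coordinates as a linear map. -/
noncomputable def oddPhi (F : Type*) [Field F] (t₁ t₂ : ℕ) :
    (OddIdx t₁ t₂ → F) →ₗ[F] (Fin (t₁ + t₂ + 1) ⊕ Fin (t₁ + t₂ + 1) → F) :=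
  LinearMap.pi (Sum.elim
    (fun k : Fin (t₁ + t₂ + 1) =>
      Fin.lastCases (motive := fun _ => (OddIdx t₁ t₂ → F) →ₗ[F] F)
        (oddPr F (Sum.inl (Sum.inl ())) + oddPr F (Sum.inr (Sum.inl ())))
        (fun k' : Fin (t₁ + t₂) =>
          Fin.addCases (motive := fun _ => (OddIdx t₁ t₂ → F) →ₗ[F] F)
            (fun i => oddPr F (Sum.inl (Sum.inr (Sum.inl i))))
            (fun j => oddPr F (Sum.inr (Sum.inr (Sum.inl j)))) k') k)
    (fun k : Fin (t₁ + t₂ + 1) =>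
      Fin.lastCases (motive := fun _ => (OddIdx t₁ t₂ → F) →ₗ[F] F)
        (oddPr F (Sum.inl (Sum.inl ())) - oddPr F (Sum.inr (Sum.inl ())))
        (fun k' : Fin (t₁ + t₂) =>
          Fin.addCases (motive := fun _ => (OddIdx t₁ t₂ → F) →ₗ[F] F)
            (fun i => oddPr F (Sum.inl (Sum.inr (Sum.inr i))))
            (fun j => oddPr F (Sum.inr (Sum.inr (Sum.inr j)))) k') k))

theorem oddPhi_inl_last {F : Type*} [Field F] (t₁ t₂ : ℕ) (v : OddIdx t₁ t₂ → F) :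
    oddPhi F t₁ t₂ v (Sum.inl (Fin.last _)) =
      v (Sum.inl (Sum.inl ())) + v (Sum.inr (Sum.inl ())) := by
  simp only [oddPhi, LinearMap.pi_apply, Sum.elim_inl, Sum.elim_inr, Fin.lastCases_last,
    Fin.lastCases_castSucc, Fin.addCases_left, Fin.addCases_right, LinearMap.add_apply,
    LinearMap.sub_apply, oddPr_apply]

theorem oddPhi_inr_last {F : Type*} [Field F] (t₁ t₂ : ℕ) (v : OddIdx t₁ t₂ → F) :
    oddPhi F t₁ t₂ v (Sum.inr (Fin.last _)) =
      v (Sum.inl (Sum.inl ())) - v (Sum.inr (Sum.inl ())) := by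
  simp only [oddPhi, LinearMap.pi_apply, Sum.elim_inl, Sum.elim_inr, Fin.lastCases_last,
    Fin.lastCases_castSucc, Fin.addCases_left, Fin.addCases_right, LinearMap.add_apply,
    LinearMap.sub_apply, oddPr_apply]

theorem oddPhi_inl_left {F : Type*} [Field F] (t₁ t₂ : ℕ) (v : OddIdx t₁ t₂ → F) (i : Fin t₁) :
    oddPhi F t₁ t₂ v (Sum.inl (Fin.castSucc (Fin.castAdd t₂ i))) =
      v (Sum.inl (Sum.inr (Sum.inl i))) := by
  simp only [oddPhi, LinearMap.pi_apply, Sum.elim_inl, Sum.elim_inr, Fin.lastCases_last,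
    Fin.lastCases_castSucc, Fin.addCases_left, Fin.addCases_right, LinearMap.add_apply,
    LinearMap.sub_apply, oddPr_apply]

theorem oddPhi_inl_right {F : Type*} [Field F] (t₁ t₂ : ℕ) (v : OddIdx t₁ t₂ → F) (j : Fin t₂) :
    oddPhi F t₁ t₂ v (Sum.inl (Fin.castSucc (Fin.natAdd t₁ j))) =
      v (Sum.inr (Sum.inr (Sum.inl j))) := by
  simp only [oddPhi, LinearMap.pi_apply, Sum.elim_inl, Sum.elim_inr, Fin.lastCases_last,
    Fin.lastCases_castSucc, Fin.addCases_left, Fin.addCases_right, LinearMap.add_apply,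
    LinearMap.sub_apply, oddPr_apply]

theorem oddPhi_inr_left {F : Type*} [Field F] (t₁ t₂ : ℕ) (v : OddIdx t₁ t₂ → F) (i : Fin t₁) :
    oddPhi F t₁ t₂ v (Sum.inr (Fin.castSucc (Fin.castAdd t₂ i))) =
      v (Sum.inl (Sum.inr (Sum.inr i))) := by
  simp only [oddPhi, LinearMap.pi_apply, Sum.elim_inl, Sum.elim_inr, Fin.lastCases_last,
    Fin.lastCases_castSucc, Fin.addCases_left, Fin.addCases_right, LinearMap.add_apply,
    LinearMap.sub_apply, oddPr_apply]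

theorem oddPhi_inr_right {F : Type*} [Field F] (t₁ t₂ : ℕ) (v : OddIdx t₁ t₂ → F) (j : Fin t₂) :
    oddPhi F t₁ t₂ v (Sum.inr (Fin.castSucc (Fin.natAdd t₁ j))) =
      v (Sum.inr (Sum.inr (Sum.inr j))) := by
  simp only [oddPhi, LinearMap.pi_apply, Sum.elim_inl, Sum.elim_inr, Fin.lastCases_last,
    Fin.lastCases_castSucc, Fin.addCases_left, Fin.addCases_right, LinearMap.add_apply,
    LinearMap.sub_apply, oddPr_apply]

theorem oddPhi_injective {F : Type*} [Field F] (h2 : (2 : F) ≠ 0) (t₁ t₂ : ℕ) :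
    Function.Injective (oddPhi F t₁ t₂) := by
  rw [← LinearMap.ker_eq_bot, LinearMap.ker_eq_bot']
  intro v hv
  have h1 := congrFun hv (Sum.inl (Fin.last _))
  have h1' := congrFun hv (Sum.inr (Fin.last _))
  rw [oddPhi_inl_last] at h1
  rw [oddPhi_inr_last] at h1'
  have hz : v (Sum.inl (Sum.inl ())) = 0 := by
    have h3 : (2 : F) * v (Sum.inl (Sum.inl ())) = 0 := by
      have : (2 : F) * v (Sum.inl (Sum.inl ())) =
          (v (Sum.inl (Sum.inl ())) + v (Sum.inr (Sum.inl ()))) +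
            (v (Sum.inl (Sum.inl ())) - v (Sum.inr (Sum.inl ()))) := by ring
      rw [this, h1, h1']
      simp
    rcases mul_eq_zero.mp h3 with h | h
    · exact absurd h h2
    · exact h
  have hz' : v (Sum.inr (Sum.inl ())) = 0 := by
    rw [hz, zero_add] at h1
    exact h1
  funext a
  rcases a with (⟨⟨⟩⟩ | i | i) | (⟨⟨⟩⟩ | j | j)
  · exact hz
  · have := congrFun hv (Sum.inl (Fin.castSucc (Fin.castAdd t₂ i)))
    rw [oddPhi_inl_left] at this
    exact this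
  · have := congrFun hv (Sum.inr (Fin.castSucc (Fin.castAdd t₂ i)))
    rw [oddPhi_inr_left] at this
    exact this
  · exact hz'
  · have := congrFun hv (Sum.inl (Fin.castSucc (Fin.natAdd t₁ j)))
    rw [oddPhi_inl_right] at this
    exact this
  · have := congrFun hv (Sum.inr (Fin.castSucc (Fin.natAdd t₁ j)))
    rw [oddPhi_inr_right] at this
    exact this

theorem oddPhi_form {F : Type*} [Field F] (t₁ t₂ : ℕ) (v : OddIdx t₁ t₂ → F) :
    Cfsg.quadFormPlus (t₁ + t₂ + 1) F (oddPhi F t₁ t₂ v) =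
      ((1 : F) * v (Sum.inl (Sum.inl ())) ^ 2 +
          ∑ i : Fin t₁, v (Sum.inl (Sum.inr (Sum.inl i))) * v (Sum.inl (Sum.inr (Sum.inr i)))) +
        ((-1 : F) * v (Sum.inr (Sum.inl ())) ^ 2 +
          ∑ j : Fin t₂, v (Sum.inr (Sum.inr (Sum.inl j))) * v (Sum.inr (Sum.inr (Sum.inr j)))) := by
  unfold Cfsg.quadFormPlus
  rw [Fin.sum_univ_castSucc, Fin.sum_univ_add]
  simp_rw [oddPhi_inl_last, oddPhi_inr_last, oddPhi_inl_left, oddPhi_inr_left, oddPhi_inl_right,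
    oddPhi_inr_right]
  ring

/-- **JT-ODD2**, hypothesis form: from `HD_odd_single`, `HD_sum`, `HD_transport`. -/
theorem HD_odd_pair_of {F : Type*} [Field F] (h2 : (2 : F) ≠ 0) (t₁ t₂ : ℕ)
    (hsingle : ∀ (γ : F), γ ≠ 0 → ∀ t : ℕ,
      HD (fun v : Unit ⊕ (Fin t ⊕ Fin t) → F => γ * v (Sum.inl ()) ^ 2 +
        ∑ i : Fin t, v (Sum.inr (Sum.inl i)) * v (Sum.inr (Sum.inr i))) {2 * t + 1})
    (hsum : ∀ {ι₁ ι₂ : Type} [Fintype ι₁] [DecidableEq ι₁] [Fintype ι₂] [DecidableEq ι₂]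
      (Q₁ : (ι₁ → F) → F) (Q₂ : (ι₂ → F) → F) (μ₁ μ₂ : Multiset ℕ), HD Q₁ μ₁ → HD Q₂ μ₂ →
        HD (fun v : ι₁ ⊕ ι₂ → F => Q₁ (fun i => v (Sum.inl i)) + Q₂ (fun i => v (Sum.inr i)))
          (μ₁ + μ₂))
    (htrans : ∀ {ι ι' : Type} [Fintype ι] [DecidableEq ι] [Fintype ι'] [DecidableEq ι']
      (Q : (ι → F) → F) (Q' : (ι' → F) → F) (Φ : (ι → F) ≃ₗ[F] (ι' → F)),
        (∀ v, Q' (Φ v) = Q v) → ∀ μ : Multiset ℕ, HD Q μ → HD Q' μ) :
    HD (Cfsg.quadFormPlus (t₁ + t₂ + 1) F) {2 * t₁ + 1, 2 * t₂ + 1} := by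
  have h1 := hsingle 1 one_ne_zero t₁
  have h1' := hsingle (-1) (neg_ne_zero.mpr one_ne_zero) t₂
  have hS := hsum _ _ _ _ h1 h1'
  have hdim : Module.finrank F (OddIdx t₁ t₂ → F) =
      Module.finrank F (Fin (t₁ + t₂ + 1) ⊕ Fin (t₁ + t₂ + 1) → F) := by
    rw [Module.finrank_fintype_fun_eq_card, Module.finrank_fintype_fun_eq_card]
    simp only [Fintype.card_sum, Fintype.card_fin, Fintype.card_unit]
    omega
  have hμ : ({2 * t₁ + 1, 2 * t₂ + 1} : Multiset ℕ) = {2 * t₁ + 1} + {2 * t₂ + 1} := rfl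
  rw [hμ]
  refine htrans _ _ (LinearMap.linearEquivOfInjective (oddPhi F t₁ t₂) (oddPhi_injective h2 t₁ t₂)
    hdim) ?_ _ hS
  intro v
  rw [LinearMap.linearEquivOfInjective_apply]
  exact oddPhi_form t₁ t₂ v

end Cfsg.Agent.H89.Jt
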