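import Mathlib
import Cfsg.Agent.H56.OrdDefs
import Cfsg.Agent.S0292

/-!
# S2363-ODD: the order bounds for `PΩ_{2m+1}(q)`, `q` odd, `m ≥ 3`
-/

set_option autoImplicit false

namespace Cfsg.Agent.H89.Ord

open Cfsg Cfsg.Agent.H56.Ord

/-- `∏_{i<m} (q^(2(i+1)) - 1) < q^(m(m+1))` for `m ≥ 1`, `q ≥ 2`. -/
theorem prod_sq_lt (q : ℕ) (hq : 2 ≤ q) : ∀ m : ℕ, 1 ≤ m →
    ∏ i ∈ Finset.range m, (q ^ (2 * (i + 1)) - 1) < q ^ (m * (m + 1)) := by
  intro m hm
  induction m, hm using Nat.le_induction with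
  | base =>
    simp only [Finset.prod_range_one]
    exact Nat.sub_lt (by positivity) one_pos
  | succ m hm ih =>
    rw [Finset.prod_range_succ]
    have h1 : q ^ (2 * (m + 1)) - 1 < q ^ (2 * (m + 1)) := Nat.sub_lt (by positivity) one_pos
    calc (∏ i ∈ Finset.range m, (q ^ (2 * (i + 1)) - 1)) * (q ^ (2 * (m + 1)) - 1)
        < q ^ (m * (m + 1)) * q ^ (2 * (m + 1)) := Nat.mul_lt_mul'' ih h1
      _ = q ^ ((m + 1) * (m + 1 + 1)) := by rw [← pow_add]; congr 1; ring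

/-- `q` is coprime to `∏_{i<m} (q^(2(i+1)) - 1)`. -/
theorem prod_sq_coprime (q : ℕ) (hq : q ≠ 0) (m : ℕ) :
    Nat.Coprime q (∏ i ∈ Finset.range m, (q ^ (2 * (i + 1)) - 1)) := by
  apply Nat.Coprime.prod_right
  intro i _
  exact coprime_pow_sub_one hq (by omega)

theorem pOdd : POddStmt := by
  intro p hp F _ _ _ m hm hodd
  obtain ⟨f, hf, hq⟩ := card_eq_pow p F
  have hq2 : 2 ≤ Fintype.card F := by
    rw [hq]
    calc 2 ≤ p := hp.two_le
      _ = p ^ 1 := (pow_one p).symm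
      _ ≤ p ^ f := Nat.pow_le_pow_right hp.pos (by omega)
  have h := Cfsg.Agent.S0292.result (F := F) rfl hodd m hm
  have hlt := prod_sq_lt (Fintype.card F) hq2 m (by omega)
  refine good_of_eq_q hp hq hf h ?_ (prod_sq_coprime _ (by omega) m) ?_ ?_
  · exact Nat.coprime_two_right.mpr hodd
  · calc ∏ i ∈ Finset.range m, (Fintype.card F ^ (2 * (i + 1)) - 1)
        < Fintype.card F ^ (m * (m + 1)) := hlt
      _ ≤ Fintype.card F ^ (2 * m ^ 2) := Nat.pow_le_pow_right (by omega) (by nlinarith)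
  · calc (∏ i ∈ Finset.range m, (Fintype.card F ^ (2 * (i + 1)) - 1)) ^ 3
        < (Fintype.card F ^ (m * (m + 1))) ^ 3 := Nat.pow_lt_pow_left hlt (by norm_num)
      _ = Fintype.card F ^ (3 * (m * (m + 1))) := by rw [← pow_mul]; congr 1; ring
      _ ≤ Fintype.card F ^ (5 * m ^ 2) := Nat.pow_le_pow_right (by omega) (by nlinarith)

example : Cfsg.Agent.H56.Ord.POddStmt := pOdd

end Cfsg.Agent.H89.Ord
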