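import Mathlib
import Cfsg.Agent.H56.OrdDefs
import Cfsg.Agent.H89.OrdOdd
import Cfsg.Agent.S0293

/-!
# S2363-PLUS: the order bounds for `PΩ⁺_{2m}(q)`, `m ≥ 4`
-/

set_option autoImplicit false

namespace Cfsg.Agent.H89.Ord

open Cfsg Cfsg.Agent.H56.Ord

theorem pPlus : PPlusStmt := by
  intro p hp F _ _ _ m hm
  obtain ⟨f, hf, hq⟩ := card_eq_pow p F
  have hq2 : 2 ≤ Fintype.card F := by
    rw [hq]
    calc 2 ≤ p := hp.two_le
      _ = p ^ 1 := (pow_one p).symm
      _ ≤ p ^ f := Nat.pow_le_pow_right hp.pos (by omega)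
  have h := Cfsg.Agent.S0293.result (F := F) rfl m hm
  rw [mul_assoc] at h
  have hlt := prod_sq_lt (Fintype.card F) hq2 (m - 1) (by omega)
  have hm1 : Fintype.card F ^ m - 1 < Fintype.card F ^ m := Nat.sub_lt (by positivity) one_pos
  have hcm : Nat.Coprime (Fintype.card F) (Fintype.card F ^ m - 1) :=
    coprime_pow_sub_one (by omega) (by omega)
  have hM : (Fintype.card F ^ m - 1) *
      ∏ i ∈ Finset.range (m - 1), (Fintype.card F ^ (2 * (i + 1)) - 1)
        < Fintype.card F ^ (m ^ 2) := by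
    calc (Fintype.card F ^ m - 1) *
        ∏ i ∈ Finset.range (m - 1), (Fintype.card F ^ (2 * (i + 1)) - 1)
        < Fintype.card F ^ m * Fintype.card F ^ ((m - 1) * (m - 1 + 1)) :=
          Nat.mul_lt_mul'' hm1 hlt
      _ = Fintype.card F ^ (m ^ 2) := by
          rw [← pow_add]; congr 1
          obtain ⟨k, rfl⟩ : ∃ k, m = k + 1 := ⟨m - 1, by omega⟩
          simp only [Nat.add_sub_cancel]; ring
  obtain ⟨k, rfl⟩ : ∃ k, m = k + 4 := ⟨m - 4, by omega⟩
  refine good_of_eq_q hp hq hf h ?_ ?_ ?_ ?_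
  · exact Nat.Coprime.coprime_dvd_right (Nat.gcd_dvd_right _ _) hcm
  · exact Nat.Coprime.mul_right hcm (prod_sq_coprime _ (by omega) _)
  · refine lt_of_lt_of_le hM (Nat.pow_le_pow_right (by omega) ?_)
    simp only [show k + 4 - 1 = k + 3 by omega]
    nlinarith
  · calc ((Fintype.card F ^ (k + 4) - 1) *
        ∏ i ∈ Finset.range (k + 4 - 1), (Fintype.card F ^ (2 * (i + 1)) - 1)) ^ 3
        < (Fintype.card F ^ ((k + 4) ^ 2)) ^ 3 := Nat.pow_lt_pow_left hM (by norm_num)
      _ = Fintype.card F ^ (3 * (k + 4) ^ 2) := by rw [← pow_mul]; congr 1; ring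
      _ ≤ Fintype.card F ^ (5 * ((k + 4) * (k + 4 - 1))) := by
          refine Nat.pow_le_pow_right (by omega) ?_
          simp only [show k + 4 - 1 = k + 3 by omega]
          nlinarith

example : Cfsg.Agent.H56.Ord.PPlusStmt := pPlus

end Cfsg.Agent.H89.Ord
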