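import Cfsg.Agent.H46.OutDefs

/-!
# S2124-DAUT (helper89 for helper46): diagonal automorphisms over a finite field

From a torus element over the algebraic closure (DIAGN), descended to a matrix over `F` (DESC,
with `F` the fixed field of the `|F|`-th power map, FIX), conjugation gives an automorphism of the
Chevalley group over `F` acting on every root subgroup through a scalar.
-/

set_option autoImplicit false

namespace Cfsg.Agent.H89.OutE

open Cfsg.Lie Cfsg.Agent.H23 Cfsg.Agent.H23.Stb Cfsg.Agent.H46.OutE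

universe u

/-- Conjugation by an element normalising a subgroup (in both directions), as an automorphism
of the subgroup. -/
theorem exists_conj_equiv {Γ : Type*} [Group Γ] (S : Subgroup Γ) (g : Γ)
    (hf : ∀ y ∈ S, g * y * g⁻¹ ∈ S) (hb : ∀ y ∈ S, g⁻¹ * y * g ∈ S) :
    ∃ δ : ↥S ≃* ↥S, ∀ y : ↥S, ((δ y : ↥S) : Γ) = g * (y : Γ) * g⁻¹ :=
  ⟨{ toFun := fun y => ⟨g * y.1 * g⁻¹, hf y.1 y.2⟩
     invFun := fun y => ⟨g⁻¹ * y.1 * g, hb y.1 y.2⟩
     left_inv := fun y => Subtype.ext (by simp [mul_assoc])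
     right_inv := fun y => Subtype.ext (by simp [mul_assoc])
     map_mul' := fun a b => Subtype.ext (by simp [mul_assoc]) }, fun _ => rfl⟩

/-- A matrix conjugating every root element into its root subgroup normalises the group. -/
theorem conj_mem_group {D : ChevalleyDatum} {F : Type u} [Field F] {z : ℕ → ℕ → ℤ}
    (hS : Sem D F z) (g : GL D.Idx F)
    (h : ∀ r < D.nroots, ∀ u : F, ∃ u' : F, g * xU hS r u * g⁻¹ = xU hS r u') :
    ∀ y ∈ D.group F, g * y * g⁻¹ ∈ D.group F := by
  have hle : D.group F ≤ (D.group F).comap (MulAut.conj g).toMonoidHom := by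
    unfold ChevalleyDatum.group
    rw [Subgroup.closure_le]
    rintro y ⟨r, t, hy⟩
    have hy' : y = xU hS r.val t :=
      eq_xU hS y r.val t (by rw [hy, ChevalleyDatum.x, dif_pos r.isLt])
    obtain ⟨u', hu'⟩ := h r.val r.isLt t
    show g * y * g⁻¹ ∈ Subgroup.closure _
    rw [hy', hu']
    exact xU_mem_group hS r.val u'
  intro y hy
  exact hle hy

theorem dAut (h1 : StDiagN.{u}) (h2 : StFix.{u}) (h3 : StDesc.{u}) : StDAut.{u} := by
  intro D F _ _ z η hPF hPK N Ai hN hA1 hA2 hneg hComm c hc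
  classical
  haveI : Fintype F := Fintype.ofFinite F
  -- the Frobenius of the algebraic closure
  obtain ⟨τ, hτ⟩ : ∃ τ : AlgebraicClosure F →+* AlgebraicClosure F,
      ∀ x, τ x = x ^ Nat.card F :=
    ⟨(FiniteField.frobeniusAlgHom F (AlgebraicClosure F)).toRingHom, fun x => by
      rw [Nat.card_eq_fintype_card]
      rfl⟩
  -- `N`-th roots
  have hroot : ∀ i < D.rank, ∃ d : AlgebraicClosure F, d ≠ 0 ∧
      d ^ N = (fun i => algebraMap F (AlgebraicClosure F) (c i)) i := by
    intro i hi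
    obtain ⟨d, hd⟩ :=
      IsAlgClosed.exists_pow_nat_eq (algebraMap F (AlgebraicClosure F) (c i)) hN
    refine ⟨d, ?_, hd⟩
    rintro rfl
    rw [zero_pow hN.ne'] at hd
    exact hc i hi ((map_eq_zero (algebraMap F (AlgebraicClosure F))).mp hd.symm)
  obtain ⟨h, hH, hact⟩ := h1 D (AlgebraicClosure F) z η hPK N Ai hA1 hA2 hneg
    (fun i => algebraMap F (AlgebraicClosure F) (c i)) hroot
  have hfix : ∀ x : AlgebraicClosure F, τ x = x →
      ∃ a : F, algebraMap F (AlgebraicClosure F) a = x := by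
    intro x hx
    rw [hτ] at hx
    exact h2 F (AlgebraicClosure F) x hx
  have hτι : ∀ a : F, τ (algebraMap F (AlgebraicClosure F) a)
      = algebraMap F (AlgebraicClosure F) a := by
    intro a
    rw [hτ, ← map_pow, Nat.card_eq_fintype_card, FiniteField.pow_card]
  obtain ⟨χ, g₀, hχ, hconj, hχc⟩ := h3 D F (AlgebraicClosure F)
    (algebraMap F (AlgebraicClosure F)) τ z η hPF hPK hfix hτι hComm c h hH hact
  -- the inverse conjugation
  have hconj' : ∀ r < D.nroots, ∀ u : F,
      g₀⁻¹ * xU hPF.sem r u * g₀ = xU hPF.sem r ((χ r)⁻¹ * u) := by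
    intro r hr u
    have h4 := hconj r hr ((χ r)⁻¹ * u)
    rw [mul_inv_cancel_left₀ (hχ r hr)] at h4
    rw [← h4]
    group
  have hf := conj_mem_group hPF.sem g₀ (fun r hr u => ⟨_, hconj r hr u⟩)
  have hb : ∀ y ∈ D.group F, g₀⁻¹ * y * g₀ ∈ D.group F := by
    have h5 := conj_mem_group hPF.sem g₀⁻¹ (fun r hr u => ⟨_, by
      rw [inv_inv]
      exact hconj' r hr u⟩)
    intro y hy
    have h6 := h5 y hy
    rwa [inv_inv] at h6
  obtain ⟨δ, hδ⟩ := exists_conj_equiv (D.group F) g₀ hf hb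
  refine ⟨χ, δ, hχ, ?_, hχc⟩
  intro r hr u
  apply Subtype.ext
  rw [hδ]
  exact hconj r hr u

example : StDiagN.{u} → StFix.{u} → StDesc.{u} → StDAut.{u} := dAut

end Cfsg.Agent.H89.OutE
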