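import Mathlib
import Cfsg.Prelude.Def_GeometricClasses
import Cfsg.Prelude.Def_LieClassical
import Cfsg.Agent.H95.Herm
import Cfsg.Agent.H17.GUBlock

/-!
S5984-MK piece (team project S5984 of helper99): two complementary totally singular subspaces
for the Hermitian form form a good pair (both have dimension `n / 2`).
-/

set_option autoImplicit false

open scoped MatrixGroups

namespace Cfsg.Agent.H89.Pair

variable {F : Type*} [Field F] [Fintype F]

/-- If `A` is totally singular and `A ⊔ B = ⊤` then `dim A ≤ dim B`. -/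
theorem finrank_le_of_ts {q n : ℕ} (hq : Fintype.card F = q ^ 2)
    (A B : Submodule F (Fin n → F))
    (hA : Cfsg.Geo.IsTotallySingularFor (Cfsg.hermForm n F q) A) (hsup : A ⊔ B = ⊤) :
    Module.finrank F A ≤ Module.finrank F B := by
  obtain ⟨b⟩ : Nonempty (Module.Basis (Fin (Module.finrank F B)) F B) :=
    ⟨Module.finBasis F B⟩
  obtain ⟨φ, hφ⟩ : ∃ φ : ↥A →ₗ[F] (Fin (Module.finrank F B) → F),
      ∀ u j, φ u j = Cfsg.hermForm n F q (u : Fin n → F) (b j : Fin n → F) :=
    ⟨LinearMap.pi (fun j => (Cfsg.Agent.H95.hermL q (b j : Fin n → F)).comp A.subtype),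
      fun u j => rfl⟩
  have hinj : Function.Injective φ := by
    rw [← LinearMap.ker_eq_bot, eq_bot_iff]
    intro u hu
    rw [LinearMap.mem_ker] at hu
    rw [Submodule.mem_bot]
    have hb : ∀ j, Cfsg.hermForm n F q (u : Fin n → F) (b j : Fin n → F) = 0 := by
      intro j
      rw [← hφ, hu]
      rfl
    have hB : ∀ w ∈ B, Cfsg.hermForm n F q (u : Fin n → F) w = 0 := by
      intro w hw
      have hrep : w = ∑ j, b.repr ⟨w, hw⟩ j • (b j : Fin n → F) := by
        have h := congrArg Subtype.val (b.sum_repr ⟨w, hw⟩)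
        rw [Submodule.coe_sum] at h
        simp only [Submodule.coe_smul] at h
        exact h.symm
      rw [hrep, Cfsg.Agent.H17.hermForm_sum_right hq n]
      refine Finset.sum_eq_zero (fun j _ => ?_)
      rw [hb j, mul_zero]
    have hall : ∀ x, Cfsg.hermForm n F q (u : Fin n → F) x = 0 := by
      intro x
      have hx : x ∈ A ⊔ B := by
        rw [hsup]
        exact Submodule.mem_top
      obtain ⟨a, ha, w, hw, rfl⟩ := Submodule.mem_sup.mp hx
      rw [Cfsg.Agent.H95.hermForm_add_right hq, hA u u.2 a ha, hB w hw, add_zero]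
    exact Subtype.ext (Cfsg.Agent.H17.hermForm_nd_right hq n _ hall)
  have h := LinearMap.finrank_le_finrank_of_injective hinj
  rwa [Module.finrank_fin_fun] at h

theorem good_pair_of_ts {q n : ℕ} (hq : Fintype.card F = q ^ 2) (hn : 2 ≤ n)
    (A B : Submodule F (Fin n → F))
    (hA : Cfsg.Geo.IsTotallySingularFor (Cfsg.hermForm n F q) A)
    (hB : Cfsg.Geo.IsTotallySingularFor (Cfsg.hermForm n F q) B)
    (hAB : A ⊓ B = ⊥) (hsup : A ⊔ B = ⊤) :
    ∃ E : Fin 2 → Submodule F (Fin n → F), Cfsg.Geo.IsMDecomposition (n / 2) E ∧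
      (∀ i, Cfsg.Geo.IsTotallySingularFor (Cfsg.hermForm n F q) (E i)) ∧
      E 0 = A ∧ E 1 = B := by
  have hfA := finrank_le_of_ts hq A B hA hsup
  have hfB := finrank_le_of_ts hq B A hB (by rw [sup_comm]; exact hsup)
  have hsum : Module.finrank F A + Module.finrank F B = n := by
    have h := Submodule.finrank_sup_add_finrank_inf_eq A B
    rw [hsup, hAB, finrank_top, finrank_bot, add_zero, Module.finrank_fin_fun] at h
    exact h.symm
  have hAn : Module.finrank F A = n / 2 := by omega
  have hBn : Module.finrank F B = n / 2 := by omega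
  refine ⟨![A, B], ⟨le_refl 2, by omega, ?_, ?_, ?_⟩, ?_, rfl, rfl⟩
  · intro i
    fin_cases i
    · exact hAn
    · exact hBn
  · refine (iSupIndep_pair (i := (0 : Fin 2)) (j := 1) (by decide) ?_).mpr ?_
    · intro k
      fin_cases k
      · exact Or.inl rfl
      · exact Or.inr rfl
    · exact disjoint_iff.mpr hAB
  · rw [eq_top_iff, ← hsup]
    exact sup_le (le_iSup (![A, B]) 0) (le_iSup (![A, B]) 1)
  · intro i
    fin_cases i
    · exact hA
    · exact hB

end Cfsg.Agent.H89.Pair

namespace Cfsg.Agent.H89.Pair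

variable {F : Type*} [Field F] [Fintype F]

example {q n : ℕ} (hq : Fintype.card F = q ^ 2) (hn : 2 ≤ n)
    (A B : Submodule F (Fin n → F))
    (hA : Cfsg.Geo.IsTotallySingularFor (Cfsg.hermForm n F q) A)
    (hB : Cfsg.Geo.IsTotallySingularFor (Cfsg.hermForm n F q) B)
    (hAB : A ⊓ B = ⊥) (hsup : A ⊔ B = ⊤) :
    ∃ E : Fin 2 → Submodule F (Fin n → F), Cfsg.Geo.IsMDecomposition (n / 2) E ∧
      (∀ i, Cfsg.Geo.IsTotallySingularFor (Cfsg.hermForm n F q) (E i)) ∧
      E 0 = A ∧ E 1 = B :=
  good_pair_of_ts hq hn A B hA hB hAB hsup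

end Cfsg.Agent.H89.Pair
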