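import Mathlib
import Cfsg.Prelude.Def_GeometricClasses
import Cfsg.Prelude.Def_LieClassical

/-!
S5984-NT piece (team project S5984 of helper99): five small number-theoretic lemmas on a
finite field with `q ^ 2` elements.
-/

set_option autoImplicit false

open scoped MatrixGroups

namespace Cfsg.Agent.H89.Pair

variable {F : Type*} [Field F] [Fintype F]

theorem val_lt_of_pow_eq_neg_one {q n : ℕ} (h2 : (2 : F) ≠ 0) (lam : F)
    (h1 : lam ^ (q + 1) = 1) (hn : lam ^ n = -1) : padicValNat 2 n < padicValNat 2 (q + 1) := by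
  have hne : (1 : F) ≠ -1 := by
    intro e
    apply h2
    linear_combination e
  have hn0 : n ≠ 0 := by
    rintro rfl
    rw [pow_zero] at hn
    exact hne hn
  by_contra hlt
  push Not at hlt
  obtain ⟨k, c, hc, hqc⟩ := Nat.exists_eq_two_pow_mul_odd (Nat.succ_ne_zero q)
  have hk : padicValNat 2 (q + 1) = k := by
    have hc0 : c ≠ 0 := by
      rintro rfl
      exact absurd hc (by decide)
    have h2c : ¬ 2 ∣ c := by
      intro h
      exact (Nat.not_even_iff_odd.mpr hc) (even_iff_two_dvd.mpr h)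
    show padicValNat 2 (q.succ) = k
    rw [hqc, padicValNat.mul (pow_ne_zero _ (by norm_num)) hc0, padicValNat.prime_pow,
      padicValNat.eq_zero_of_not_dvd h2c, add_zero]
  rw [hk] at hlt
  obtain ⟨n', hn'⟩ := (padicValNat_dvd_iff_le hn0).mpr hlt
  have e1 : lam ^ (n * c) = -1 := by
    rw [pow_mul, hn, hc.neg_one_pow]
  have e2 : lam ^ (n * c) = 1 := by
    have : n * c = (q + 1) * n' := by
      show n * c = q.succ * n'
      rw [hqc, hn']
      ring
    rw [this, pow_mul, h1, one_pow]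
  exact hne (e2.symm.trans e1)

theorem exists_sqrt_of_norm_one {q : ℕ} (hq : Fintype.card F = q ^ 2) (hodd : Odd q) (z : F)
    (hz : z ^ (q + 1) = 1) : ∃ lam : F, lam ^ 2 = z := by
  have hchar : ringChar F ≠ 2 := by
    intro h
    have h' := FiniteField.even_card_iff_char_two.mp h
    rw [hq] at h'
    have := Nat.odd_iff.mp (hodd.pow (n := 2))
    omega
  have hz0 : z ≠ 0 := by
    rintro rfl
    rw [zero_pow (Nat.succ_ne_zero q)] at hz
    exact zero_ne_one hz
  obtain ⟨m, hm⟩ := hodd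
  have hdiv : Fintype.card F / 2 = m * (q + 1) := by
    rw [hq, hm]
    have h : (2 * m + 1) ^ 2 = 2 * (m * (2 * m + 1 + 1)) + 1 := by ring
    rw [h]
    generalize m * (2 * m + 1 + 1) = X
    omega
  obtain ⟨r, hr⟩ := (FiniteField.isSquare_iff hchar hz0).mpr (by
    rw [hdiv, mul_comm, pow_mul, hz, one_pow])
  exact ⟨r, by rw [sq]; exact hr.symm⟩

theorem exists_root_norm_one {q r : ℕ} (hq : Fintype.card F = q ^ 2) (hr : r.Prime)
    (hrq : r ∣ q + 1) : ∃ ζ : F, ζ ^ r = 1 ∧ ζ ≠ 1 ∧ ζ ^ (q + 1) = 1 := by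
  classical
  haveI : Fact r.Prime := ⟨hr⟩
  have hq0 : q ≠ 0 := by
    rintro rfl
    have : 0 < Fintype.card F := Fintype.card_pos
    rw [hq] at this
    simp at this
  obtain ⟨q', rfl⟩ := Nat.exists_eq_succ_of_ne_zero hq0
  have hcard : Fintype.card Fˣ = (q' + 1 + 1) * q' := by
    rw [Fintype.card_units, hq]
    have h : (q' + 1) ^ 2 = (q' + 1 + 1) * q' + 1 := by ring
    show (q' + 1) ^ 2 - 1 = (q' + 1 + 1) * q'
    rw [h, Nat.add_sub_cancel]
  have hdvd : r ∣ Fintype.card Fˣ := by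
    rw [hcard]
    exact Dvd.dvd.mul_right hrq _
  obtain ⟨x, hx⟩ := exists_prime_orderOf_dvd_card r hdvd
  refine ⟨(x : F), ?_, ?_, ?_⟩
  · have h := pow_orderOf_eq_one x
    rw [hx] at h
    rw [← Units.val_pow_eq_pow_val, h, Units.val_one]
  · intro h
    have h1 : x = 1 := Units.ext h
    rw [h1, orderOf_one] at hx
    exact hr.one_lt.ne hx
  · obtain ⟨t, ht⟩ := hrq
    have h := pow_orderOf_eq_one x
    rw [hx] at h
    rw [ht, pow_mul, ← Units.val_pow_eq_pow_val, h, Units.val_one, one_pow]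

theorem dvd_add_one_of_order_one (q r : ℕ) (hr : r.Prime)
    (h : orderOf (-(q : ZMod r)) = 1) : r ∣ q + 1 := by
  have h1 : -(q : ZMod r) = 1 := orderOf_eq_one_iff.mp h
  have h2 : ((q + 1 : ℕ) : ZMod r) = 0 := by
    push_cast
    linear_combination -h1
  exact (ZMod.natCast_eq_zero_iff (q + 1) r).mp h2

theorem norm_one_of_sq_scalar {q n : ℕ} (hn : 0 < n) (M : Matrix (Fin n) (Fin n) F)
    (hU : ∀ u v : Fin n → F,
      Cfsg.hermForm n F q (M.mulVec u) (M.mulVec v) = Cfsg.hermForm n F q u v)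
    (z : F) (hM : M ^ 2 = z • (1 : Matrix (Fin n) (Fin n) F)) : z ^ (q + 1) = 1 := by
  obtain ⟨e, he⟩ : ∃ e : Fin n → F, e = Pi.single (⟨0, hn⟩ : Fin n) 1 := ⟨_, rfl⟩
  have hee : Cfsg.hermForm n F q e e = 1 := by
    unfold Cfsg.hermForm
    rw [Finset.sum_eq_single (⟨0, hn⟩ : Fin n)]
    · rw [he]
      simp
    · intro b _ hb
      rw [he]
      simp [hb]
    · intro h
      exact absurd (Finset.mem_univ _) h
  have hMM : M.mulVec (M.mulVec e) = z • e := by
    rw [Matrix.mulVec_mulVec, ← sq, hM, Matrix.smul_mulVec, Matrix.one_mulVec]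
  have h1 : Cfsg.hermForm n F q (z • e) (z • e) = 1 := by
    rw [← hMM, hU, hU, hee]
  have h2 : Cfsg.hermForm n F q (z • e) (z • e) = z ^ (q + 1) * Cfsg.hermForm n F q e e := by
    unfold Cfsg.hermForm
    rw [Finset.mul_sum]
    refine Finset.sum_congr rfl (fun i _ => ?_)
    simp only [Pi.smul_apply, smul_eq_mul]
    ring
  rw [h2, hee, mul_one] at h1
  exact h1

end Cfsg.Agent.H89.Pair

namespace Cfsg.Agent.H89.Pair

variable {F : Type*} [Field F] [Fintype F]

example {q n : ℕ} (h2 : (2 : F) ≠ 0) (lam : F)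
    (h1 : lam ^ (q + 1) = 1) (hn : lam ^ n = -1) : padicValNat 2 n < padicValNat 2 (q + 1) :=
  val_lt_of_pow_eq_neg_one h2 lam h1 hn
example {q : ℕ} (hq : Fintype.card F = q ^ 2) (hodd : Odd q) (z : F)
    (hz : z ^ (q + 1) = 1) : ∃ lam : F, lam ^ 2 = z :=
  exists_sqrt_of_norm_one hq hodd z hz
example {q r : ℕ} (hq : Fintype.card F = q ^ 2) (hr : r.Prime)
    (hrq : r ∣ q + 1) : ∃ ζ : F, ζ ^ r = 1 ∧ ζ ≠ 1 ∧ ζ ^ (q + 1) = 1 :=
  exists_root_norm_one hq hr hrq
example (q r : ℕ) (hr : r.Prime)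
    (h : orderOf (-(q : ZMod r)) = 1) : r ∣ q + 1 :=
  dvd_add_one_of_order_one q r hr h
example {q n : ℕ} (hn : 0 < n) (M : Matrix (Fin n) (Fin n) F)
    (hU : ∀ u v : Fin n → F,
      Cfsg.hermForm n F q (M.mulVec u) (M.mulVec v) = Cfsg.hermForm n F q u v)
    (z : F) (hM : M ^ 2 = z • (1 : Matrix (Fin n) (Fin n) F)) : z ^ (q + 1) = 1 :=
  norm_one_of_sq_scalar hn M hU z hM

end Cfsg.Agent.H89.Pair
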