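import Mathlib
import Cfsg.Agent.H9.S77Defs

/-!
# S0429-LINE: the line `Ln u v` is a 5-coclique, no three of its vertices have a common
neighbour, and it is the line through any two of its vertices
-/

set_option autoImplicit false

namespace Cfsg.Agent.H89.S77

open Finset Classical Cfsg.Agent.H9.S77

universe u

theorem line : Cfsg.Agent.H9.S77.PieceLine.{u} := by
  intro V _ G h hK hZnb hZZ u v huv
  obtain ⟨hle, hZc, -, -⟩ := hK u v huv
  -- basic facts on `Z`
  have hZW : ∀ z ∈ Zset G u v, z ∈ Wset G u v ∧ tc G u v z = 0 := by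
    intro z hz
    simpa [Zset] using hz
  have hW : ∀ z ∈ Wset G u v, z ≠ u ∧ z ≠ v ∧ ¬ G.Adj u z ∧ ¬ G.Adj v z := by
    intro z hz
    simpa [Wset] using hz
  have hZ4 : ∀ z ∈ Zset G u v, z ≠ u ∧ z ≠ v ∧ ¬ G.Adj u z ∧ ¬ G.Adj v z :=
    fun z hz => hW z (hZW z hz).1
  have hmem : ∀ a, a ∈ Ln G u v ↔ a = u ∨ a = v ∨ a ∈ Zset G u v := by
    intro a; simp [Ln]
  -- (1) the cardinality
  have hcard : (Ln G u v).card = 5 := by
    have hu : u ∉ insert v (Zset G u v) := by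
      simp only [mem_insert, not_or]
      exact ⟨huv.1, fun hz => (hZ4 u hz).1 rfl⟩
    have hv : v ∉ Zset G u v := fun hz => (hZ4 v hz).2.1 rfl
    rw [Ln, card_insert_of_notMem hu, card_insert_of_notMem hv, hZc]
  -- (2) coclique
  have hZZadj : ∀ z ∈ Zset G u v, ∀ z' ∈ Zset G u v, ¬ G.Adj z z' := by
    intro z hz z' hz' hadj
    have h2 := hZnb u v huv z hz z' (hZW z' hz').1 hadj
    have h0 := (hZW z' hz').2
    omega
  have hcoc : IsCoclique G (Ln G u v) := by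
    intro a ha b hb hadj
    rw [hmem] at ha hb
    rcases ha with ha | ha | ha <;> rcases hb with hb | hb | hb
    · rw [ha, hb] at hadj; exact G.irrefl hadj
    · rw [ha, hb] at hadj; exact huv.2 hadj
    · exact (hZ4 b hb).2.2.1 (ha ▸ hadj)
    · rw [ha, hb] at hadj; exact huv.2 hadj.symm
    · rw [ha, hb] at hadj; exact G.irrefl hadj
    · exact (hZ4 b hb).2.2.2 (ha ▸ hadj)
    · exact (hZ4 a ha).2.2.1 (hb ▸ hadj.symm)
    · exact (hZ4 a ha).2.2.2 (hb ▸ hadj.symm)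
    · exact hZZadj a ha b hb hadj
  -- (3) no three vertices with a common neighbour
  have hA : ∀ x, G.Adj u x → G.Adj v x → ∀ z ∈ Zset G u v, ¬ G.Adj z x := by
    intro x hux hvx z hz hzx
    have h0 := (hZW z hz).2
    rw [tc, card_eq_zero] at h0
    have : x ∈ nb G u ∩ nb G v ∩ nb G z := by simp [hux, hvx, hzx]
    rw [h0] at this
    exact absurd this (notMem_empty x)
  have hB : ∀ x, ∀ z ∈ Zset G u v, ∀ z' ∈ Zset G u v, z ≠ z' → G.Adj z x → G.Adj z' x →
      ¬ G.Adj u x ∧ ¬ G.Adj v x := by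
    intro x z hz z' hz' hne hzx hzx'
    obtain ⟨h1, -, -⟩ := hZZ u v huv z hz z' hz' hne
    have := hW x (h1 x hzx hzx').1
    exact ⟨this.2.2.1, this.2.2.2⟩
  have hC : ∀ x, ∀ z ∈ Zset G u v, ∀ z' ∈ Zset G u v, ∀ z'' ∈ Zset G u v, z ≠ z' → z ≠ z'' →
      z' ≠ z'' → G.Adj z x → G.Adj z' x → ¬ G.Adj z'' x := by
    intro x z hz z' hz' z'' hz'' h1 h2 h3 hzx hzx'
    obtain ⟨-, h4, -⟩ := hZZ u v huv z hz z' hz' h1
    exact h4 z'' hz'' (Ne.symm h2) (Ne.symm h3) x hzx hzx'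
  have hthree : ∀ a ∈ Ln G u v, ∀ b ∈ Ln G u v, ∀ c ∈ Ln G u v, a ≠ b → a ≠ c → b ≠ c →
      ∀ x, G.Adj a x → G.Adj b x → ¬ G.Adj c x := by
    intro a ha b hb c hc hab hac hbc x hax hbx hcx
    rw [hmem] at ha hb hc
    rcases ha with ha | ha | ha <;> rcases hb with hb | hb | hb <;> rcases hc with hc | hc | hc <;>
    first
    | exact hab (ha.trans hb.symm)
    | exact hac (ha.trans hc.symm)
    | exact hbc (hb.trans hc.symm)
    | exact hA x (ha ▸ hax) (hb ▸ hbx) c hc hcx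
    | exact hA x (ha ▸ hax) (hc ▸ hcx) b hb hbx
    | exact hA x (hb ▸ hbx) (ha ▸ hax) c hc hcx
    | exact hA x (hb ▸ hbx) (hc ▸ hcx) a ha hax
    | exact hA x (hc ▸ hcx) (ha ▸ hax) b hb hbx
    | exact hA x (hc ▸ hcx) (hb ▸ hbx) a ha hax
    | exact (hB x b hb c hc hbc hbx hcx).1 (ha ▸ hax)
    | exact (hB x b hb c hc hbc hbx hcx).2 (ha ▸ hax)
    | exact (hB x a ha c hc hac hax hcx).1 (hb ▸ hbx)
    | exact (hB x a ha c hc hac hax hcx).2 (hb ▸ hbx)
    | exact (hB x a ha b hb hab hax hbx).1 (hc ▸ hcx)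
    | exact (hB x a ha b hb hab hax hbx).2 (hc ▸ hcx)
    | exact hC x a ha b hb c hc hab hac hbc hax hbx hcx
  refine ⟨hcard, hcoc, hthree, ?_⟩
  -- (4) the line through two of its vertices
  intro s hs s' hs' hne
  have hna : NA G s s' := ⟨hne, hcoc s hs s' hs'⟩
  obtain ⟨-, hZc', -, -⟩ := hK s s' hna
  have hsub : ((Ln G u v).erase s).erase s' ⊆ Zset G s s' := by
    intro c hc
    simp only [mem_erase] at hc
    obtain ⟨hcs', hcs, hcL⟩ := hc
    simp only [Zset, Wset, mem_filter, mem_univ, true_and]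
    refine ⟨⟨hcs, hcs', hcoc s hs c hcL, hcoc s' hs' c hcL⟩, ?_⟩
    rw [tc, card_eq_zero, eq_empty_iff_forall_notMem]
    intro x hx
    simp only [mem_inter, mem_nb] at hx
    exact hthree s hs s' hs' c hcL hne (Ne.symm hcs) (Ne.symm hcs') x hx.1.1 hx.1.2 hx.2
  have hcard2 : (((Ln G u v).erase s).erase s').card = 3 := by
    rw [card_erase_of_mem (by simp [hs', Ne.symm hne]), card_erase_of_mem hs, hcard]
  have heq : ((Ln G u v).erase s).erase s' = Zset G s s' :=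
    eq_of_subset_of_card_le hsub (by rw [hZc', hcard2])
  rw [Ln, ← heq]
  ext x
  simp only [mem_insert, mem_erase]
  constructor
  · rintro (hx | hx | hx)
    · exact hx ▸ hs
    · exact hx ▸ hs'
    · exact hx.2.2
  · intro hx
    by_cases h1 : x = s
    · exact Or.inl h1
    · by_cases h2 : x = s'
      · exact Or.inr (Or.inl h2)
      · exact Or.inr (Or.inr ⟨h2, h1, hx⟩)

example : Cfsg.Agent.H9.S77.PieceLine.{u} := line

end Cfsg.Agent.H89.S77
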