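import Mathlib
import Cfsg.Agent.H9.S77Defs

/-!
# S0429-N0: in `W(u,v)`, `t(w) = 1` iff `w` is off the line and has no neighbour on it
-/

set_option autoImplicit false

namespace Cfsg.Agent.H89.S77

open Finset Classical Cfsg.Agent.H9.S77

universe u

theorem n0 : Cfsg.Agent.H9.S77.PieceN0.{u} := by
  intro V _ G h hK hZnb hZZ u v huv w hw
  obtain ⟨hle, hZc, -, -⟩ := hK u v huv
  have hwW := hw
  simp only [Wset, mem_filter, mem_univ, true_and] at hw
  obtain ⟨hwu, hwv, hnu, hnv⟩ := hw
  constructor
  · intro ht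
    have hwZ : w ∉ Zset G u v := by
      intro hz
      simp only [Zset, mem_filter] at hz
      omega
    refine ⟨?_, ?_⟩
    · simp only [Ln, mem_insert, not_or]
      exact ⟨hwu, hwv, hwZ⟩
    · intro s hs hadj
      simp only [Ln, mem_insert] at hs
      rcases hs with hs | hs | hs
      · exact hnu (hs ▸ hadj.symm)
      · exact hnv (hs ▸ hadj.symm)
      · have := hZnb u v huv s hs w hwW hadj.symm
        omega
  · rintro ⟨hwL, hno⟩
    have hwZ : w ∉ Zset G u v := fun hz => hwL (by simp [Ln, hz])
    have h0 : tc G u v w ≠ 0 := fun h0 => hwZ (by simp [Zset, hwW, h0])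
    have h2 : tc G u v w ≠ 2 := by
      intro h2
      obtain ⟨z, hz, z', hz', hne⟩ := Finset.one_lt_card.mp (by omega : 1 < (Zset G u v).card)
      obtain ⟨-, -, h3⟩ := hZZ u v huv z hz z' hz' hne
      rcases h3 w hwW h2 with hadj | hadj
      · exact hno z (by simp [Ln, hz]) hadj.symm
      · exact hno z' (by simp [Ln, hz']) hadj.symm
    have := hle w hwW
    omega

example : Cfsg.Agent.H9.S77.PieceN0.{u} := n0

end Cfsg.Agent.H89.S77
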