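import Mathlib
import Cfsg.Agent.H9.S77Defs

/-!
# S0429-TWO: a vertex has 0 or 2 neighbours on a line
-/

set_option autoImplicit false

namespace Cfsg.Agent.H89.S77

open Finset Classical Cfsg.Agent.H9.S77

universe u

theorem two : Cfsg.Agent.H9.S77.PieceTwo.{u} := by
  intro V _ G h hK hLine u v huv y hy
  obtain ⟨hcard, hcoc, hthree, hLn⟩ := hLine u v huv
  -- at most 2
  have hle : (nb G y ∩ Ln G u v).card ≤ 2 := by
    by_contra hgt
    rw [not_le, Finset.two_lt_card_iff] at hgt
    obtain ⟨a, b, c, ha, hb, hc, hab, hac, hbc⟩ := hgt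
    simp only [mem_inter, mem_nb] at ha hb hc
    exact hthree a ha.2 b hb.2 c hc.2 hab hac hbc y ha.1.symm hb.1.symm hc.1.symm
  -- not 1
  have hne1 : (nb G y ∩ Ln G u v).card ≠ 1 := by
    intro h1
    obtain ⟨s, hs⟩ := Finset.card_eq_one.mp h1
    have hsm : s ∈ nb G y ∩ Ln G u v := by rw [hs]; exact mem_singleton_self s
    simp only [mem_inter, mem_nb] at hsm
    obtain ⟨hys, hsL⟩ := hsm
    obtain ⟨s', hs'L, hs's⟩ : ∃ s' ∈ Ln G u v, s' ≠ s := by
      have h5 : 1 < (Ln G u v).card := by omega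
      obtain ⟨a, ha, b, hb, hab⟩ := Finset.one_lt_card.mp h5
      by_cases has : a = s
      · exact ⟨b, hb, fun hbs => hab (has.trans hbs.symm)⟩
      · exact ⟨a, ha, has⟩
    have hna : NA G s s' := ⟨Ne.symm hs's, hcoc s hsL s' hs'L⟩
    have hLeq : Ln G s s' = Ln G u v := hLn s hsL s' hs'L (Ne.symm hs's)
    obtain ⟨-, hZc, -, -⟩ := hK s s' hna
    have hys' : ¬ G.Adj y s' := by
      intro hadj
      have hmem : s' ∈ nb G y ∩ Ln G u v := by simp [hadj, hs'L]
      rw [hs, mem_singleton] at hmem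
      exact hs's hmem
    have hZL : ∀ z ∈ Zset G s s', z ∈ Ln G u v := by
      intro z hz
      rw [← hLeq]; simp [Ln, hz]
    have hZW : ∀ z ∈ Zset G s s',
        (z ≠ s ∧ z ≠ s' ∧ ¬ G.Adj s z ∧ ¬ G.Adj s' z) ∧ tc G s s' z = 0 := by
      intro z hz
      simpa [Zset, Wset] using hz
    have hsub : (Zset G s s').biUnion (fun z => nb G z ∩ nb G s) ⊆ nb G s \ nb G s' := by
      intro x hx
      simp only [mem_biUnion, mem_inter, mem_nb] at hx
      obtain ⟨z, hz, hzx, hsx⟩ := hx
      simp only [mem_sdiff, mem_nb]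
      refine ⟨hsx, fun hs'x => ?_⟩
      have h0 := (hZW z hz).2
      rw [tc, card_eq_zero] at h0
      have hmem : x ∈ nb G s ∩ nb G s' ∩ nb G z := by simp [hsx, hs'x, hzx]
      rw [h0] at hmem
      exact absurd hmem (notMem_empty x)
    have hdisj : ∀ z ∈ Zset G s s', ∀ z' ∈ Zset G s s', z ≠ z' →
        Disjoint (nb G z ∩ nb G s) (nb G z' ∩ nb G s) := by
      intro z hz z' hz' hne
      rw [Finset.disjoint_left]
      intro x hx hx'
      simp only [mem_inter, mem_nb] at hx hx'
      exact hthree z (hZL z hz) z' (hZL z' hz') s hsL hne (hZW z hz).1.1 (hZW z' hz').1.1 x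
        hx.1 hx'.1 hx.2
    have hcardU : ((Zset G s s').biUnion (fun z => nb G z ∩ nb G s)).card = 12 := by
      rw [card_biUnion hdisj]
      rw [Finset.sum_congr rfl (fun z hz => h.mu z s (hZW z hz).1.1
        (fun hadj => (hZW z hz).1.2.2.1 hadj.symm))]
      simp [hZc]
    have hcardD : (nb G s \ nb G s').card = 12 := by
      have h3 := card_sdiff_add_card_inter (nb G s) (nb G s')
      rw [h.deg s, h.mu s s' hna.1 hna.2] at h3
      omega
    have heq := eq_of_subset_of_card_le hsub (by rw [hcardU, hcardD])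
    have hyD : y ∈ nb G s \ nb G s' := by
      simp only [mem_sdiff, mem_nb]
      exact ⟨hys.symm, fun hadj => hys' hadj.symm⟩
    rw [← heq] at hyD
    simp only [mem_biUnion, mem_inter, mem_nb] at hyD
    obtain ⟨z, hz, hzy, -⟩ := hyD
    have hmem : z ∈ nb G y ∩ Ln G u v := by simp [hzy.symm, hZL z hz]
    rw [hs, mem_singleton] at hmem
    exact (hZW z hz).1.1 hmem
  omega

example : Cfsg.Agent.H9.S77.PieceTwo.{u} := two

end Cfsg.Agent.H89.S77
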