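import Mathlib
import Cfsg.Agent.H52.SmDefs

/-!
# S2772, piece SM-CV (for helper52)

The centre `V` of `Q` is a module for `M` with `C_M(V) = Q`.
-/

set_option autoImplicit false

namespace Cfsg.Agent.H89.Sm

open Cfsg.Agent.H52.Sm

universe u

theorem dih_r_pow {n : ℕ} (j : ZMod n) (k : ℕ) :
    (DihedralGroup.r j) ^ k = DihedralGroup.r ((k : ZMod n) * j) := by
  induction k with
  | zero => rw [pow_zero, Nat.cast_zero, zero_mul, DihedralGroup.r_zero]
  | succ k ih =>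
    rw [pow_succ, ih, DihedralGroup.r_mul_r]
    congr 1
    push_cast
    ring

theorem two_ne_zero_zmod {q : ℕ} [Fact q.Prime] (hq2 : q ≠ 2) (k : ℕ) :
    ((2 ^ k : ℕ) : ZMod q) ≠ 0 := by
  intro h
  rw [ZMod.natCast_eq_zero_iff] at h
  have h1 := (Fact.out : q.Prime).dvd_of_dvd_pow h
  exact hq2 ((Nat.prime_dvd_prime_iff_eq Fact.out Nat.prime_two).mp h1)

/-- a nontrivial normal subgroup of a dihedral group of order twice an odd prime contains the
rotations -/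
theorem dih_normal_rot {q : ℕ} [Fact q.Prime] (hq2 : q ≠ 2) (N : Subgroup (DihedralGroup q))
    (hN : N.Normal) (x : DihedralGroup q) (hx : x ∈ N) (hx1 : x ≠ 1) (i : ZMod q) :
    DihedralGroup.r i ∈ N := by
  have key : ∀ j : ZMod q, j ≠ 0 → DihedralGroup.r j ∈ N → DihedralGroup.r i ∈ N := by
    intro j hj hjN
    have e : DihedralGroup.r i = (DihedralGroup.r j) ^ (i * j⁻¹).val := by
      rw [dih_r_pow, ZMod.natCast_zmod_val, mul_assoc, inv_mul_cancel₀ hj, mul_one]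
    rw [e]
    exact N.pow_mem hjN _
  cases x with
  | r j =>
    apply key j _ hx
    intro h
    apply hx1
    rw [h, DihedralGroup.r_zero]
  | sr j =>
    have h1 : (DihedralGroup.r (1 : ZMod q))⁻¹ = DihedralGroup.r (-1) :=
      inv_eq_of_mul_eq_one_right
        (by rw [DihedralGroup.r_mul_r, add_neg_cancel, DihedralGroup.r_zero])
    have h2 := hN.conj_mem _ hx (DihedralGroup.r 1)
    rw [h1, DihedralGroup.r_mul_sr, DihedralGroup.sr_mul_r] at h2
    have h3 := N.mul_mem hx h2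
    rw [DihedralGroup.sr_mul_sr] at h3
    apply key _ _ h3
    intro h
    have e : j - 1 + -1 - j = -(((2 ^ 1 : ℕ) : ZMod q)) := by
      push_cast
      ring
    rw [e, neg_eq_zero] at h
    exact two_ne_zero_zmod hq2 1 h

/-- a rotation of 2-power order is trivial -/
theorem dih_two_pow {q : ℕ} [Fact q.Prime] (hq2 : q ≠ 2) (j : ZMod q) (k : ℕ)
    (h : (DihedralGroup.r j) ^ (2 ^ k) = 1) : j = 0 := by
  rw [dih_r_pow, DihedralGroup.one_def] at h
  have h1 : ((2 ^ k : ℕ) : ZMod q) * j = 0 := DihedralGroup.r.inj h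
  rcases mul_eq_zero.mp h1 with h2 | h2
  · exact absurd h2 (two_ne_zero_zmod hq2 k)
  · exact h2

/-- piece SM-CV -/
theorem cv : StCV.{u} := by
  intro H _ _ M Q S t q hyp
  obtain ⟨f, hfs, hfk⟩ := hyp.dih
  haveI : Fact q.Prime := ⟨hyp.qp⟩
  obtain ⟨V, hVdef⟩ : ∃ V : Subgroup H, V = Q ⊓ Subgroup.centralizer (Q : Set H) := ⟨_, rfl⟩
  have hVQ : V ≤ Q := hVdef ▸ inf_le_left
  have hVc : ∀ v ∈ V, ∀ x ∈ Q, v * x = x * v := by
    intro v hv x hx
    rw [hVdef] at hv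
    have h1 := (Subgroup.mem_inf.mp hv).2
    rw [Subgroup.mem_centralizer_iff] at h1
    exact (h1 x hx).symm
  have hVn : ∀ m ∈ M, ∀ v ∈ V, m * v * m⁻¹ ∈ V := by
    intro m hm v hv
    have hvQ := hVQ hv
    rw [hVdef]
    refine Subgroup.mem_inf.mpr ⟨hyp.Qn m hm v hvQ, ?_⟩
    rw [Subgroup.mem_centralizer_iff]
    intro h hh
    have h1 : m⁻¹ * h * m ∈ Q := by
      have := hyp.Qn m⁻¹ (M.inv_mem hm) h hh
      rwa [inv_inv] at this
    have h2 := hVc v hv _ h1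
    have e1 : h * (m * v * m⁻¹) = m * ((m⁻¹ * h * m) * v) * m⁻¹ := by group
    have e2 : m * v * m⁻¹ * h = m * (v * (m⁻¹ * h * m)) * m⁻¹ := by group
    rw [e1, e2, h2]
  refine ⟨V, hVQ, hVc, hVn, ?_⟩
  intro m0 hm0 hm0c
  by_contra hm0Q
  -- the centralizer of `V` in `M`
  obtain ⟨C, hCdef⟩ : ∃ C : Subgroup H, C = M ⊓ Subgroup.centralizer (V : Set H) := ⟨_, rfl⟩
  have hCmem : ∀ x : H, x ∈ C ↔ x ∈ M ∧ ∀ v ∈ V, x * v = v * x := by
    intro x
    rw [hCdef, Subgroup.mem_inf, Subgroup.mem_centralizer_iff]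
    constructor
    · rintro ⟨h1, h2⟩
      exact ⟨h1, fun v hv => (h2 v hv).symm⟩
    · rintro ⟨h1, h2⟩
      exact ⟨h1, fun v hv => (h2 v hv).symm⟩
  have hm0C : m0 ∈ C := (hCmem m0).mpr ⟨hm0, hm0c⟩
  -- the centre of `S`
  obtain ⟨Z, hZdef⟩ : ∃ Z : Subgroup H, Z = S ⊓ Subgroup.centralizer (S : Set H) := ⟨_, rfl⟩
  have hZmem : ∀ z : H, z ∈ Z ↔ z ∈ S ∧ ∀ s ∈ S, s * z = z * s := by
    intro z
    rw [hZdef, Subgroup.mem_inf, Subgroup.mem_centralizer_iff]
    exact Iff.rfl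
  have hZV : Z ≤ V := by
    intro z hz
    obtain ⟨hzS, hzc⟩ := (hZmem z).mp hz
    have hzQ : z ∈ Q := hyp.cent z (hyp.SM hzS) (fun y hy => (hzc y (hyp.QS hy)).symm)
    rw [hVdef]
    refine Subgroup.mem_inf.mpr ⟨hzQ, ?_⟩
    rw [Subgroup.mem_centralizer_iff]
    intro h hh
    exact hzc h (hyp.QS hh)
  -- the image of `C` in the dihedral group
  obtain ⟨N, hNdef⟩ : ∃ N : Subgroup (DihedralGroup q), N = (C.subgroupOf M).map f := ⟨_, rfl⟩
  have hCn : (C.subgroupOf M).Normal := by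
    constructor
    intro c hc m
    rw [Subgroup.mem_subgroupOf] at hc ⊢
    have e : ((m * c * m⁻¹ : ↥M) : H) = (m : H) * (c : H) * (m : H)⁻¹ := rfl
    rw [e, hCmem]
    obtain ⟨hcM, hcc⟩ := (hCmem _).mp hc
    refine ⟨M.mul_mem (M.mul_mem m.2 hcM) (M.inv_mem m.2), ?_⟩
    intro v hv
    have h1 : (m : H)⁻¹ * v * (m : H) ∈ V := by
      have := hVn (m : H)⁻¹ (M.inv_mem m.2) v hv
      rwa [inv_inv] at this
    have h2 := hcc _ h1
    have e1 : (m : H) * (c : H) * (m : H)⁻¹ * v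
        = (m : H) * ((c : H) * ((m : H)⁻¹ * v * (m : H))) * (m : H)⁻¹ := by group
    have e2 : v * ((m : H) * (c : H) * (m : H)⁻¹)
        = (m : H) * (((m : H)⁻¹ * v * (m : H)) * (c : H)) * (m : H)⁻¹ := by group
    rw [e1, e2, h2]
  have hNn : N.Normal := by
    rw [hNdef]
    exact hCn.map f hfs
  have hrot : ∀ i : ZMod q, DihedralGroup.r i ∈ N := by
    intro i
    refine dih_normal_rot hyp.q2 N hNn (f ⟨m0, hm0⟩) ?_ ?_ i
    · rw [hNdef]
      exact Subgroup.mem_map_of_mem f (Subgroup.mem_subgroupOf.mpr hm0C)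
    · intro h
      exact hm0Q ((hfk ⟨m0, hm0⟩).mp h)
  -- a reflection in the image of `S`
  have hQpos : 0 < Nat.card Q := Nat.card_pos
  obtain ⟨s0, hs0S, hs0Q⟩ : ∃ s0 ∈ S, s0 ∉ Q := by
    have hlt : Q < S := by
      refine lt_of_le_of_ne hyp.QS ?_
      intro h
      have h1 := hyp.card
      rw [← h] at h1
      omega
    exact SetLike.exists_of_lt hlt
  obtain ⟨j, hj⟩ : ∃ j : ZMod q, f ⟨s0, hyp.SM hs0S⟩ = DihedralGroup.sr j := by
    rcases hd : f ⟨s0, hyp.SM hs0S⟩ with j | j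
    · exfalso
      obtain ⟨k, hk⟩ := hyp.S2 ⟨s0, hs0S⟩
      have h1 : (f ⟨s0, hyp.SM hs0S⟩) ^ (2 ^ k) = 1 := by
        rw [← map_pow]
        have h2 : (⟨s0, hyp.SM hs0S⟩ : ↥M) ^ (2 ^ k) = 1 := by
          apply Subtype.ext
          have h3 := congrArg Subtype.val hk
          simpa using h3
        rw [h2, map_one]
      rw [hd] at h1
      have hj0 := dih_two_pow hyp.q2 j k h1
      apply hs0Q
      exact (hfk ⟨s0, hyp.SM hs0S⟩).mp (by rw [hd, hj0, DihedralGroup.r_zero])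
    · exact ⟨j, rfl⟩
  -- `M = C S`
  have hdec : ∀ m : ↥M, ∃ c ∈ C, ∃ s ∈ S, (m : H) = c * s := by
    intro m
    have hA : ∃ c : ↥M, (c : H) ∈ C ∧ ∃ s : ↥M, (s : H) ∈ S ∧ f m = f c * f s := by
      rcases hd : f m with i | i
      · have h1 := hrot i
        rw [hNdef] at h1
        obtain ⟨c, hc, hfc⟩ := Subgroup.mem_map.mp h1
        exact ⟨c, Subgroup.mem_subgroupOf.mp hc, 1, S.one_mem, by rw [hfc, map_one, mul_one]⟩
      · have h1 := hrot (j - i)
        rw [hNdef] at h1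
        obtain ⟨c, hc, hfc⟩ := Subgroup.mem_map.mp h1
        refine ⟨c, Subgroup.mem_subgroupOf.mp hc, ⟨s0, hyp.SM hs0S⟩, hs0S, ?_⟩
        rw [hfc, hj, DihedralGroup.r_mul_sr]
        congr 1
        ring
    obtain ⟨c, hcC, s, hsS, hfm⟩ := hA
    have hk : ((c⁻¹ * m * s⁻¹ : ↥M) : H) ∈ Q := by
      apply (hfk _).mp
      rw [map_mul, map_mul, map_inv, map_inv, hfm]
      group
    refine ⟨c, hcC, ((c⁻¹ * m * s⁻¹ : ↥M) : H) * s, S.mul_mem (hyp.QS hk) hsS, ?_⟩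
    show (m : H) = (c : H) * ((c : H)⁻¹ * (m : H) * (s : H)⁻¹ * (s : H))
    group
  -- `M` centralizes `Z`
  have hMZ : ∀ m ∈ M, ∀ z ∈ Z, m * z * m⁻¹ ∈ Z := by
    intro m hm z hz
    obtain ⟨c, hcC, s, hsS, hms⟩ := hdec ⟨m, hm⟩
    have hms' : m = c * s := hms
    obtain ⟨hzS, hzc⟩ := (hZmem z).mp hz
    have h1 : s * z = z * s := hzc s hsS
    have h2 : c * z = z * c := ((hCmem c).mp hcC).2 z (hZV hz)
    have h3 : m * z * m⁻¹ = z := by
      rw [hms']
      have e : c * s * z * (c * s)⁻¹ = c * (s * z) * s⁻¹ * c⁻¹ := by group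
      rw [e, h1]
      have e' : c * (z * s) * s⁻¹ * c⁻¹ = (c * z) * c⁻¹ := by group
      rw [e', h2]
      group
    rw [h3]
    exact hz
  -- `t` normalizes `Z`
  have htZ : ∀ z ∈ Z, t * z * t⁻¹ ∈ Z := by
    intro z hz
    obtain ⟨hzS, hzc⟩ := (hZmem z).mp hz
    rw [hZmem]
    refine ⟨hyp.tS z hzS, ?_⟩
    intro s hs
    have hsurj : Function.Surjective
        (fun x : ↥S => (⟨t * (x : H) * t⁻¹, hyp.tS x x.2⟩ : ↥S)) := by
      apply Finite.surjective_of_injective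
      intro x y hxy
      have h1 : t * (x : H) * t⁻¹ = t * (y : H) * t⁻¹ := congrArg Subtype.val hxy
      apply Subtype.ext
      have e : (x : H) = t⁻¹ * (t * (x : H) * t⁻¹) * t := by group
      rw [e, h1]
      group
    obtain ⟨s', hs'⟩ := hsurj ⟨s, hs⟩
    have hs'' : t * (s' : H) * t⁻¹ = s := congrArg Subtype.val hs'
    rw [← hs'']
    have h1 := hzc s' s'.2
    have e1 : t * (s' : H) * t⁻¹ * (t * z * t⁻¹) = t * ((s' : H) * z) * t⁻¹ := by group
    have e2 : t * z * t⁻¹ * (t * (s' : H) * t⁻¹) = t * (z * (s' : H)) * t⁻¹ := by group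
    rw [e1, e2, h1]
  have hZbot : Z = ⊥ := hyp.star Z (hZdef ▸ inf_le_left) hMZ htZ
  -- but the centre of the nontrivial 2-group `S` is nontrivial
  haveI : Fact (Nat.Prime 2) := ⟨Nat.prime_two⟩
  haveI : Nontrivial ↥S := by
    rw [← Finite.one_lt_card_iff_nontrivial]
    have h1 := hyp.card
    omega
  haveI := hyp.S2.center_nontrivial
  obtain ⟨z, hz1⟩ := exists_ne (1 : ↥(Subgroup.center ↥S))
  have hzZ : ((z : ↥S) : H) ∈ Z := by
    rw [hZmem]
    refine ⟨(z : ↥S).2, ?_⟩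
    intro s hs
    have h1 := Subgroup.mem_center_iff.mp z.2 ⟨s, hs⟩
    exact congrArg Subtype.val h1
  rw [hZbot, Subgroup.mem_bot] at hzZ
  apply hz1
  apply Subtype.ext
  apply Subtype.ext
  exact hzZ

example : Cfsg.Agent.H52.Sm.StCV.{u} := cv

end Cfsg.Agent.H89.Sm
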