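import Mathlib
import Cfsg.Agent.H52.SmDefs

/-!
# S2772, piece SM-CARD (for helper52)

In the identification step the normal 2-subgroup `Q` has order 4 or 8.
-/

set_option autoImplicit false

namespace Cfsg.Agent.H89.Sm

open Cfsg.Agent.H52.Sm

universe u

/-- a normal subgroup with at most two elements is central -/
theorem central_of_card_le_two {M : Type u} [Group M] [Finite M] (Q : Subgroup M) (hQ : Q.Normal)
    (hc : Nat.card Q ≤ 2) (m : M) : m ∈ Subgroup.centralizer (Q : Set M) := by
  classical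
  rw [Subgroup.mem_centralizer_iff]
  intro x hx
  by_cases hx1 : x = 1
  · rw [hx1, one_mul, mul_one]
  · have hy : m⁻¹ * x * m ∈ Q := by
      have := hQ.conj_mem x hx m⁻¹
      rwa [inv_inv] at this
    by_contra hne
    have hy1 : m⁻¹ * x * m ≠ 1 := by
      intro h
      apply hx1
      have : x = m * (m⁻¹ * x * m) * m⁻¹ := by group
      rw [this, h]
      group
    have hyx : m⁻¹ * x * m ≠ x := by
      intro h
      apply hne
      have : x * m = m * (m⁻¹ * x * m) := by group
      rw [this, h]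
    have h3 : 2 < Nat.card Q := by
      haveI : Fintype Q := Fintype.ofFinite Q
      rw [Nat.card_eq_fintype_card, Fintype.two_lt_card_iff]
      refine ⟨1, ⟨x, hx⟩, ⟨m⁻¹ * x * m, hy⟩, ?_, ?_, ?_⟩
      · intro h
        exact hx1 (congrArg Subtype.val h).symm
      · intro h
        exact hy1 (congrArg Subtype.val h).symm
      · intro h
        exact hyx (congrArg Subtype.val h).symm
    omega

/-- piece SM-CARD -/
theorem idCard : StIdCard.{u} := by
  intro M _ _ Q hQ hcent hf hk
  obtain ⟨f, hfs, hfk⟩ := hf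
  obtain ⟨k, hk4, hk⟩ := hk
  -- `|M| = 6 |Q|`
  have h1 : Nat.card M = Nat.card Q * 6 := by
    have e := QuotientGroup.quotientKerEquivOfSurjective f hfs
    have h2 : Nat.card (M ⧸ f.ker) = 6 := by
      rw [Nat.card_congr e.toEquiv, DihedralGroup.nat_card]
    have h3 := Subgroup.card_eq_card_quotient_mul_card_subgroup f.ker
    rw [h2, hfk] at h3
    rw [h3, Nat.mul_comm]
  have hQpos : 0 < Nat.card Q := Nat.card_pos
  -- `Q` is not central
  have h2 : 2 < Nat.card Q := by
    by_contra hle
    have hc : Nat.card Q ≤ 2 := by omega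
    have htop : Q = ⊤ := by
      rw [eq_top_iff]
      intro m _
      exact hcent (central_of_card_le_two Q hQ hc m)
    have h3 : Nat.card Q = Nat.card M := by
      rw [htop, Subgroup.card_top]
    omega
  rw [hk] at h1
  have hk' : k = 0 ∨ k = 1 ∨ k = 2 ∨ k = 3 ∨ k = 4 := by omega
  obtain ⟨n, hn⟩ : ∃ n : ℕ, n = Nat.card Q := ⟨_, rfl⟩
  rw [← hn] at h1 h2 ⊢
  rcases hk' with rfl | rfl | rfl | rfl | rfl
  · have : (2 : ℕ) ^ 0 * 3 = 3 := by norm_num
    omega
  · have : (2 : ℕ) ^ 1 * 3 = 6 := by norm_num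
    omega
  · have : (2 : ℕ) ^ 2 * 3 = 12 := by norm_num
    omega
  · have : (2 : ℕ) ^ 3 * 3 = 24 := by norm_num
    omega
  · have : (2 : ℕ) ^ 4 * 3 = 48 := by norm_num
    omega

example : Cfsg.Agent.H52.Sm.StIdCard.{u} := idCard

end Cfsg.Agent.H89.Sm
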