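import Mathlib
import Cfsg.Agent.H52.SmDefs

/-!
# S2772, piece SM-SIGN (for helper52)

A central involution outside a subgroup of index `≡ 2 (mod 4)` is detected by a sign character:
it acts on the cosets as a fixed-point-free involution, a product of an odd number of
transpositions.
-/

set_option autoImplicit false

namespace Cfsg.Agent.H89.Sm

open Cfsg.Agent.H52.Sm

universe u

/-- a fixed-point-free involution on `n ≡ 2 (mod 4)` points is odd -/
theorem sign_of_fpf_involution {α : Type u} [Fintype α] [DecidableEq α] (σ : Equiv.Perm α)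
    (h2 : σ ^ 2 = 1) (hfix : ∀ x, σ x ≠ x) (hcard : Fintype.card α % 4 = 2) :
    Equiv.Perm.sign σ = -1 := by
  have hne : Nonempty α := by
    by_contra h
    rw [not_nonempty_iff] at h
    rw [Fintype.card_eq_zero] at hcard
    omega
  have h1 : σ ≠ 1 := by
    intro h
    obtain ⟨x⟩ := hne
    exact hfix x (by rw [h]; rfl)
  have ho : orderOf σ = 2 := orderOf_eq_prime h2 h1
  obtain ⟨n, hn⟩ := Equiv.Perm.cycleType_prime_order (σ := σ) (by rw [ho]; exact Nat.prime_two)
  rw [ho] at hn
  have hsupp : σ.support = Finset.univ := by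
    ext x
    simp only [Equiv.Perm.mem_support, Finset.mem_univ, iff_true]
    exact hfix x
  have hsum : σ.cycleType.sum = Fintype.card α := by
    rw [Equiv.Perm.sum_cycleType, hsupp, Finset.card_univ]
  rw [hn, Multiset.sum_replicate, smul_eq_mul] at hsum
  rw [Equiv.Perm.sign_of_cycleType, hn, Multiset.sum_replicate, Multiset.card_replicate,
    smul_eq_mul]
  have hodd : Odd ((n + 1) * 2 + (n + 1)) := by
    rw [Nat.odd_iff]
    omega
  exact hodd.neg_one_pow

/-- piece SM-SIGN -/
theorem sign : StSign.{u} := by
  classical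
  intro M _ _ L e he hcen heL hidx
  haveI : Fintype (M ⧸ L) := Fintype.ofFinite _
  refine ⟨Equiv.Perm.sign.comp (MulAction.toPermHom M (M ⧸ L)), ?_⟩
  rw [MonoidHom.comp_apply]
  apply sign_of_fpf_involution
  · rw [← map_pow, pow_two, he, map_one]
  · intro x
    induction x using QuotientGroup.induction_on with
    | H m =>
      intro h
      apply heL
      have h1 : (MulAction.toPermHom M (M ⧸ L) e) (m : M ⧸ L) = ((e * m : M) : M ⧸ L) := rfl
      rw [h1, QuotientGroup.eq] at h
      have h2 : (e * m)⁻¹ * m = e⁻¹ := by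
        rw [← hcen m]
        group
      rw [h2] at h
      exact (Subgroup.inv_mem_iff L).mp h
  · rw [← Nat.card_eq_fintype_card, ← Subgroup.index_eq_card]
    exact hidx

example : Cfsg.Agent.H52.Sm.StSign.{u} := sign

end Cfsg.Agent.H89.Sm
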