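import Mathlib
import Cfsg.Agent.H52.SmDefs

/-!
# S2772, piece SM-TV (for helper52)

Elements of a largest abelian subgroup of `S` act as transvections on the module `V`.
-/

set_option autoImplicit false

namespace Cfsg.Agent.H89.Sm

open Cfsg.Agent.H52.Sm

universe u

/-- piece SM-TV -/
theorem tv : StTV.{u} := by
  intro H _ _ M Q S t q hyp A V hA hV a ha
  obtain ⟨hAS, hAab, hAmax⟩ := hA
  obtain ⟨hVQ, hVc, -, -⟩ := hV
  obtain ⟨A0, hA0⟩ : ∃ A0 : Subgroup H, A0 = A ⊓ Q := ⟨_, rfl⟩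
  obtain ⟨B, hB⟩ : ∃ B : Subgroup H, B = A0 ⊔ V := ⟨_, rfl⟩
  have hA0A : A0 ≤ A := hA0 ▸ inf_le_left
  have hA0Q : A0 ≤ Q := hA0 ▸ inf_le_right
  have hA0B : A0 ≤ B := hB ▸ le_sup_left
  have hVB : V ≤ B := hB ▸ le_sup_right
  have hBQ : B ≤ Q := hB ▸ sup_le hA0Q hVQ
  have hBS : B ≤ S := hBQ.trans hyp.QS
  -- `B` is abelian
  have hc1 : ∀ y : H, (y ∈ A0 ∨ y ∈ V) → B ≤ Subgroup.centralizer ({y} : Set H) := by
    intro y hy
    rw [hB]
    refine sup_le ?_ ?_
    · intro x hx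
      rw [Subgroup.mem_centralizer_iff]
      intro h hh
      rw [Set.mem_singleton_iff] at hh
      rw [hh]
      rcases hy with hy | hy
      · exact hAab _ (hA0A hy) _ (hA0A hx)
      · exact hVc _ hy _ (hA0Q hx)
    · intro x hx
      rw [Subgroup.mem_centralizer_iff]
      intro h hh
      rw [Set.mem_singleton_iff] at hh
      rw [hh]
      rcases hy with hy | hy
      · exact (hVc _ hx _ (hA0Q hy)).symm
      · exact hVc _ hy _ (hVQ hx)
  have hBab : ∀ x ∈ B, ∀ y ∈ B, x * y = y * x := by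
    intro x hx y hy
    have h2 : B ≤ Subgroup.centralizer ({x} : Set H) := by
      rw [hB]
      refine sup_le ?_ ?_
      · intro z hz
        have h3 := hc1 z (Or.inl hz) hx
        rw [Subgroup.mem_centralizer_iff] at h3 ⊢
        intro h hh
        rw [Set.mem_singleton_iff] at hh
        rw [hh]
        exact (h3 z rfl).symm
      · intro z hz
        have h3 := hc1 z (Or.inr hz) hx
        rw [Subgroup.mem_centralizer_iff] at h3 ⊢
        intro h hh
        rw [Set.mem_singleton_iff] at hh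
        rw [hh]
        exact (h3 z rfl).symm
    have h4 := h2 hy
    rw [Subgroup.mem_centralizer_iff] at h4
    exact h4 x rfl
  have hBA : Nat.card B ≤ Nat.card A := hAmax B hBS hBab
  -- the index of `Q` in `S` is two
  have hQpos : 0 < Nat.card Q := Nat.card_pos
  have hA0pos : 0 < Nat.card A0 := Nat.card_pos
  have hBpos : 0 < Nat.card B := Nat.card_pos
  have e1 : Nat.card Q * Q.relIndex S = Nat.card S := by
    have := Subgroup.relIndex_mul_relIndex ⊥ Q S bot_le hyp.QS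
    rwa [Subgroup.relIndex_bot_left, Subgroup.relIndex_bot_left] at this
  have r1 : Q.relIndex S = 2 := by
    rw [hyp.card, Nat.mul_comm 2] at e1
    exact Nat.eq_of_mul_eq_mul_left hQpos e1
  -- `|A| ≤ 2 |A ⊓ Q|`
  have e2 : Nat.card A0 * Q.relIndex A = Nat.card A := by
    have := Subgroup.relIndex_mul_relIndex ⊥ (A ⊓ Q) A bot_le inf_le_left
    rw [Subgroup.relIndex_bot_left, Subgroup.relIndex_bot_left, Subgroup.inf_relIndex_left] at this
    rw [hA0]
    exact this
  have r2 : Q.relIndex A ≤ 2 := by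
    have := Subgroup.relIndex_le_of_le_right (H := Q) hAS (by rw [r1]; norm_num)
    rwa [r1] at this
  have hA2 : Nat.card A ≤ 2 * Nat.card A0 := by
    rw [← e2, Nat.mul_comm 2]
    exact Nat.mul_le_mul_left _ r2
  -- the index of `A ⊓ Q` in `B` is at most two
  have e3 : Nat.card A0 * A0.relIndex B = Nat.card B := by
    have := Subgroup.relIndex_mul_relIndex ⊥ A0 B bot_le hA0B
    rwa [Subgroup.relIndex_bot_left, Subgroup.relIndex_bot_left] at this
  have r3 : A0.relIndex B ≤ 2 := by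
    have h5 : Nat.card A0 * A0.relIndex B ≤ Nat.card A0 * 2 := by
      rw [e3, Nat.mul_comm]
      exact hBA.trans hA2
    exact Nat.le_of_mul_le_mul_left h5 hA0pos
  have r3' : A0.relIndex B ≠ 0 := by
    intro h0
    rw [h0, Nat.mul_zero] at e3
    omega
  -- `|V| ≤ 2 |A0 ⊓ V|`
  have e4 : Nat.card ↥(A0 ⊓ V) * A0.relIndex V = Nat.card V := by
    have := Subgroup.relIndex_mul_relIndex ⊥ (A0 ⊓ V) V bot_le inf_le_right
    rwa [Subgroup.relIndex_bot_left, Subgroup.relIndex_bot_left, Subgroup.inf_relIndex_right]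
      at this
  have r4 : A0.relIndex V ≤ 2 :=
    (Subgroup.relIndex_le_of_le_right (H := A0) hVB r3').trans r3
  have hle : A0 ⊓ V ≤ V ⊓ Subgroup.centralizer ({a} : Set H) := by
    intro x hx
    obtain ⟨hx1, hx2⟩ := Subgroup.mem_inf.mp hx
    refine Subgroup.mem_inf.mpr ⟨hx2, ?_⟩
    rw [Subgroup.mem_centralizer_iff]
    intro h hh
    rw [Set.mem_singleton_iff] at hh
    rw [hh]
    exact hAab _ ha _ (hA0A hx1)
  have h6 : Nat.card ↥(A0 ⊓ V) ≤ Nat.card ↥(V ⊓ Subgroup.centralizer ({a} : Set H)) :=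
    Subgroup.card_le_of_le hle
  calc Nat.card V = Nat.card ↥(A0 ⊓ V) * A0.relIndex V := e4.symm
    _ ≤ Nat.card ↥(A0 ⊓ V) * 2 := Nat.mul_le_mul_left _ r4
    _ = 2 * Nat.card ↥(A0 ⊓ V) := Nat.mul_comm _ _
    _ ≤ 2 * Nat.card ↥(V ⊓ Subgroup.centralizer ({a} : Set H)) := Nat.mul_le_mul_left _ h6

example : Cfsg.Agent.H52.Sm.StTV.{u} := tv

end Cfsg.Agent.H89.Sm
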